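import Mathlib

/-!
# Canonical lifts of cycles in central extensions of alternating groups
-/

set_option autoImplicit false

namespace Cfsg.Agent.KSG.AltW

open Equiv Equiv.Perm Subgroup

variable {Ω : Type*} [Fintype Ω] [DecidableEq Ω]

/-- `σ` fixes the finite set `S` pointwise. -/
def Fx (S : Finset Ω) (σ : Perm Ω) : Prop := ∀ a ∈ S, σ a = a

omit [Fintype Ω] [DecidableEq Ω] in
theorem Fx.mul {S : Finset Ω} {σ τ : Perm Ω} (h : Fx S σ) (h' : Fx S τ) : Fx S (σ * τ) :=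
  fun a ha => by rw [Perm.mul_apply, h' a ha, h a ha]

omit [Fintype Ω] [DecidableEq Ω] in
theorem Fx.inv {S : Finset Ω} {σ : Perm Ω} (h : Fx S σ) : Fx S σ⁻¹ :=
  fun a ha => by rw [Perm.inv_eq_iff_eq, h a ha]

omit [Fintype Ω] [DecidableEq Ω] in
theorem Fx.mono {S T : Finset Ω} {σ : Perm Ω} (h : Fx S σ) (hT : T ⊆ S) : Fx T σ :=
  fun a ha => h a (hT ha)

theorem Fx.commute {σ τ : Perm Ω} (h : Fx σ.support τ) : Commute σ τ :=
  Disjoint.commute fun a => by
    by_cases ha : a ∈ σ.support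
    · exact Or.inr (h a ha)
    · exact Or.inl (notMem_support.1 ha)

theorem Fx.symm {σ τ : Perm Ω} (h : Fx σ.support τ) : Fx τ.support σ := fun a ha => by
  by_contra h1
  exact mem_support.1 ha (h a (mem_support.2 h1))

omit [Fintype Ω] in
theorem Fx.exists_ofSubtype {S : Finset Ω} {σ : Perm Ω} (h : Fx S σ) :
    ∃ τ : Perm {a // a ∉ S}, ofSubtype τ = σ := by
  have h1 : ∀ x, σ x ∉ S ↔ x ∉ S := fun x => by
    constructor
    · intro hx hx'; exact hx (by rwa [h x hx'])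
    · intro hx hx'
      have := h _ hx'
      exact hx (by rwa [← σ.injective this])
  exact ⟨σ.subtypePerm h1, ofSubtype_subtypePerm h1 fun x hx hx' => hx (h x hx')⟩

omit [Fintype Ω] in
theorem fx_ofSubtype {S : Finset Ω} (τ : Perm {a // a ∉ S}) : Fx S (ofSubtype τ) :=
  fun _ ha => ofSubtype_apply_of_not_mem τ (not_not.2 ha)

theorem card_compl_subtype (S : Finset Ω) :
    Fintype.card {a // a ∉ S} = Fintype.card Ω - S.card := by
  rw [Fintype.card_subtype_compl, Fintype.card_coe]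

theorem alt_normal {S : Finset Ω} (hS : S.card + 5 ≤ Fintype.card Ω) (N : Subgroup (Perm Ω))
    (hN : ∀ g, sign g = 1 → Fx S g → ∀ n ∈ N, Fx S n → g * n * g⁻¹ ∈ N)
    {x : Perm Ω} (hx : x ∈ N) (h1 : x ≠ 1) (hs : sign x = 1) (hf : Fx S x)
    {σ : Perm Ω} (hσ : sign σ = 1) (hσf : Fx S σ) : σ ∈ N := by
  let ι : alternatingGroup {a // a ∉ S} →* Perm Ω := ofSubtype.comp (alternatingGroup _).subtype
  have hι : ∀ g : alternatingGroup {a // a ∉ S}, sign (ι g) = 1 ∧ Fx S (ι g) := fun g =>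
    ⟨by simpa [ι] using mem_alternatingGroup.1 g.2, fx_ofSubtype _⟩
  have hsur : ∀ τ, sign τ = 1 → Fx S τ → ∃ g, ι g = τ := fun τ h1 h2 => by
    obtain ⟨τ, rfl⟩ := h2.exists_ofSubtype
    exact ⟨⟨τ, by simpa using h1⟩, rfl⟩
  haveI : (N.comap ι).Normal := ⟨fun n hn g => by
    rw [mem_comap, map_mul, map_mul, map_inv]
    exact hN _ (hι g).1 (hι g).2 _ hn (hι n).2⟩
  haveI := alternatingGroup.isSimpleGroup (α := {a // a ∉ S})
    (by rw [Nat.card_eq_fintype_card, card_compl_subtype]; omega)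
  obtain ⟨g, rfl⟩ := hsur x hs hf
  obtain ⟨g', rfl⟩ := hsur σ hσ hσf
  rcases (inferInstance : (N.comap ι).Normal).eq_bot_or_eq_top with h | h
  · have : g ∈ N.comap ι := hx
    rw [h, mem_bot] at this
    exact absurd (by rw [this, map_one]) h1
  · have : g' ∈ N.comap ι := h ▸ mem_top _
    exact this

/-- Permutations of `Fin m` transported along an embedding. -/
def emb {m : ℕ} (e : Fin m ↪ Ω) : Perm (Fin m) →* Perm Ω := extendDomainHom e.toEquivRange

theorem emb_injective {m : ℕ} (e : Fin m ↪ Ω) : Function.Injective (emb e) :=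
  extendDomainHom_injective _

theorem sign_emb {m : ℕ} (e : Fin m ↪ Ω) (σ : Perm (Fin m)) : sign (emb e σ) = sign σ :=
  sign_extendDomain _ _

theorem emb_apply {m : ℕ} (e : Fin m ↪ Ω) (σ : Perm (Fin m)) (i : Fin m) :
    emb e σ (e i) = e (σ i) := viaFintypeEmbedding_apply_image σ e i

theorem emb_apply_not {m : ℕ} (e : Fin m ↪ Ω) (σ : Perm (Fin m)) {a : Ω} (ha : ∀ i, e i ≠ a) :
    emb e σ a = a := viaFintypeEmbedding_apply_notMem_range σ e (fun ⟨i, hi⟩ => ha i hi)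

theorem fx_emb {m : ℕ} (e : Fin m ↪ Ω) (σ : Perm (Fin m)) {S : Finset Ω} (hS : ∀ i, e i ∉ S) :
    Fx S (emb e σ) := fun _ ha => emb_apply_not e σ fun i hi => hS i (hi ▸ ha)

theorem isCycle_emb {m : ℕ} (e : Fin m ↪ Ω) {σ : Perm (Fin m)} (h : σ.IsCycle) :
    (emb e σ).IsCycle := h.extendDomain _

theorem card_support_emb {m : ℕ} (e : Fin m ↪ Ω) (σ : Perm (Fin m)) :
    (emb e σ).support.card = σ.support.card := card_support_extend_domain _

theorem fx_emb_emb {m : ℕ} (e : Fin m ↪ Ω) {σ τ : Perm (Fin m)} (h : ∀ i, σ i = i ∨ τ i = i) :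
    Fx (emb e σ).support (emb e τ) := fun a ha => by
  by_cases h1 : ∃ i, e i = a
  · obtain ⟨i, rfl⟩ := h1
    rw [mem_support, emb_apply] at ha
    rw [emb_apply, (h i).resolve_left fun h2 => ha (by rw [h2])]
  · exact emb_apply_not e τ fun i hi => h1 ⟨i, hi⟩

theorem exists_emb (S : Finset Ω) {m : ℕ} (h : S.card + m ≤ Fintype.card Ω) :
    ∃ e : Fin m ↪ Ω, ∀ i, e i ∉ S := by
  obtain ⟨f⟩ : Nonempty (Fin m ↪ {a // a ∉ S}) :=
    Function.Embedding.nonempty_of_card_le (by rw [card_compl_subtype, Fintype.card_fin]; omega)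
  exact ⟨f.trans (Function.Embedding.subtype _), fun i => (f i).2⟩

theorem exists_noncomm {S : Finset Ω} (h : S.card + 4 ≤ Fintype.card Ω) :
    ∃ σ τ : Perm Ω, sign σ = 1 ∧ sign τ = 1 ∧ Fx S σ ∧ Fx S τ ∧ σ * τ * σ⁻¹ * τ⁻¹ ≠ 1 := by
  obtain ⟨e, he⟩ := exists_emb S h
  refine ⟨emb e (swap 0 1 * swap 0 2), emb e (swap 0 1 * swap 0 3), by rw [sign_emb]; decide,
    by rw [sign_emb]; decide, fx_emb e _ he, fx_emb e _ he, ?_⟩
  rw [← map_inv, ← map_inv, ← map_mul, ← map_mul, ← map_mul, ← map_one (emb e),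
    (emb_injective e).ne_iff]
  decide

variable {H : Type*} [Group H]

/-- `π` makes `H` a central extension of the alternating group. -/
structure CE (π : H →* Perm Ω) : Prop where
  even : ∀ h, sign (π h) = 1
  surj : ∀ σ, sign σ = 1 → ∃ h, π h = σ
  cen : ∀ z, π z = 1 → ∀ h, h * z = z * h

variable {π : H →* Perm Ω}

theorem CE.lift_normal (hπ : CE π) {S : Finset Ω} (hS : S.card + 5 ≤ Fintype.card Ω)
    (F : Subgroup H) (hF : ∀ g, Fx S (π g) → ∀ f ∈ F, Fx S (π f) → g * f * g⁻¹ ∈ F)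
    {u : H} (hu : u ∈ F) (h1 : π u ≠ 1) (hf : Fx S (π u))
    {σ : Perm Ω} (hσ : sign σ = 1) (hσf : Fx S σ) : ∃ f ∈ F, π f = σ := by
  refine alt_normal hS (F.map π) ?_ ⟨u, hu, rfl⟩ h1 (hπ.even u) hf hσ hσf
  rintro g hg hgf _ ⟨f, hf, rfl⟩ hff
  obtain ⟨g, rfl⟩ := hπ.surj g hg
  exact ⟨_, hF g hgf f hf hff, by simp⟩

theorem CE.exists_conj_eq (hπ : CE π) {x g : H} (h : Commute (π x) (π g)) :
    ∃ w, π w = 1 ∧ g * x * g⁻¹ = w * x :=
  ⟨g * x * g⁻¹ * x⁻¹, by
    simp only [map_mul, map_inv]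
    rw [← h.eq]; group, by group⟩

theorem CE.conj_cen (hπ : CE π) {z : H} (hz : π z = 1) (g : H) : g * z * g⁻¹ = z := by
  rw [hπ.cen z hz g]; group

theorem CE.commute_comm (hπ : CE π) {x g h : H} (hg : Commute (π x) (π g))
    (hh : Commute (π x) (π h)) : Commute (g * h * g⁻¹ * h⁻¹) x := by
  obtain ⟨w, hw, e1⟩ := hπ.exists_conj_eq hg
  obtain ⟨v, hv, e2⟩ := hπ.exists_conj_eq hh
  have e3 : (g * h) * x * (g * h)⁻¹ = v * w * x := by
    calc _ = g * (h * x * h⁻¹) * g⁻¹ := by group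
      _ = (g * v * g⁻¹) * (g * x * g⁻¹) := by rw [e2]; group
      _ = _ := by rw [hπ.conj_cen hv, e1, mul_assoc]
  have e4 : (h * g) * x * (h * g)⁻¹ = v * w * x := by
    calc _ = h * (g * x * g⁻¹) * h⁻¹ := by group
      _ = (h * w * h⁻¹) * (h * x * h⁻¹) := by rw [e1]; group
      _ = _ := by rw [hπ.conj_cen hw, e2, ← mul_assoc, ← hπ.cen w hw v]
  have hvw : π (v * w) = 1 := by rw [map_mul, hv, hw, one_mul]
  have e5 : (h * g)⁻¹ * x * (h * g) = (v * w)⁻¹ * x := by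
    have := hπ.conj_cen hvw (h * g)⁻¹
    calc _ = (v * w)⁻¹ * (((h * g)⁻¹ * (v * w) * (h * g)⁻¹⁻¹) * ((h * g)⁻¹ * x * (h * g))) := by
          rw [this]; group
      _ = (v * w)⁻¹ * ((h * g)⁻¹ * (v * w * x) * (h * g)) := by group
      _ = _ := by rw [← e4]; group
  have e6 : (g * h * g⁻¹ * h⁻¹) * x * (g * h * g⁻¹ * h⁻¹)⁻¹ = x := by
    calc _ = (g * h) * ((h * g)⁻¹ * x * (h * g)) * (g * h)⁻¹ := by group
      _ = ((g * h) * (v * w) * (g * h)⁻¹)⁻¹ * ((g * h) * x * (g * h)⁻¹) := by rw [e5]; group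
      _ = x := by rw [hπ.conj_cen hvw, e3]; group
  exact mul_inv_eq_iff_eq_mul.1 e6

theorem CE.commute_of_fx (hπ : CE π) {x h : H} (hS : (π x).support.card + 5 ≤ Fintype.card Ω)
    (hh : Fx (π x).support (π h)) : Commute h x := by
  obtain ⟨σ, τ, h1, h2, h3, h4, h5⟩ := exists_noncomm (S := (π x).support) (by omega)
  obtain ⟨a, rfl⟩ := hπ.surj σ h1
  obtain ⟨b, rfl⟩ := hπ.surj τ h2
  have key : ∀ g, Fx (π x).support (π g) → ∀ f ∈ centralizer {x}, Fx (π x).support (π f) →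
      g * f * g⁻¹ ∈ centralizer {x} := by
    intro g hg f hf _
    obtain ⟨w, hw, e1⟩ := hπ.exists_conj_eq (x := x) (g := g⁻¹)
      (by rw [map_inv]; exact hg.inv.commute)
    have h8 : f * x = x * f := mem_centralizer_singleton_iff.1 hf
    rw [mem_centralizer_singleton_iff]
    calc g * f * g⁻¹ * x = g * (f * (g⁻¹ * x * g⁻¹⁻¹)) * g⁻¹ := by group
      _ = g * ((g⁻¹ * x * g⁻¹⁻¹) * f) * g⁻¹ := by
        rw [e1, ← mul_assoc f, hπ.cen w hw f, mul_assoc w, h8, mul_assoc w]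
      _ = _ := by group
  obtain ⟨f, hf, e⟩ := hπ.lift_normal hS (centralizer {x}) (u := a * b * a⁻¹ * b⁻¹) key
    (mem_centralizer_singleton_iff.2 (hπ.commute_comm h3.commute h4.commute))
    (by simpa using h5) (by simpa using ((h3.mul h4).mul h3.inv).mul h4.inv) (hπ.even h) hh
  have h6 : π (f⁻¹ * h) = 1 := by simp [e]
  have h7 : Commute (f⁻¹ * h) x := (hπ.cen _ h6 x).symm
  have h8 : Commute f x := mem_centralizer_singleton_iff.1 hf
  simpa using h8.mul_left h7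

theorem CE.commute_of_coprime (hπ : CE π) {x h : H} (hc : Commute (π x) (π h)) {a b : ℕ}
    (hab : a.Coprime b) (ha : π x ^ a = 1) (hb : π h ^ b = 1) : Commute h x := by
  obtain ⟨w, hw, e⟩ := hπ.exists_conj_eq hc
  have hwx : ∀ g, Commute w g := fun g => (hπ.cen w hw g).symm
  have h1 : w ^ a = 1 := by
    have := congrArg (· ^ a) e
    simp only [conj_pow] at this
    rw [hπ.conj_cen (by rw [map_pow, ha]), (hwx x).mul_pow] at this
    simpa using this
  have h2 : ∀ n : ℕ, h ^ n * x * (h ^ n)⁻¹ = w ^ n * x := fun n => by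
    induction n with
    | zero => simp
    | succ n ih =>
      calc _ = h * (h ^ n * x * (h ^ n)⁻¹) * h⁻¹ := by rw [pow_succ']; group
        _ = (h * w ^ n * h⁻¹) * (h * x * h⁻¹) := by rw [ih]; group
        _ = _ := by rw [hπ.conj_cen (by rw [map_pow, hw, one_pow]), e, pow_succ, mul_assoc]
  have h3 : w ^ b = 1 := by
    have := h2 b
    rw [← hπ.cen _ (by rw [map_pow, hb]) x] at this
    simpa using this
  have h4 : w = 1 := by
    have := pow_gcd_eq_one.2 ⟨h1, h3⟩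
    rwa [hab, pow_one] at this
  rw [h4, one_mul] at e
  exact mul_inv_eq_iff_eq_mul.1 e

/-- Lifts of `s`-cycles commute with the lifts of the permutations fixing their support. -/
def Rigid (π : H →* Perm Ω) (s : ℕ) : Prop :=
  ∀ g h : H, (π g).IsCycle → (π g).support.card = s → Fx (π g).support (π h) → Commute h g

theorem CE.rigid_of_le (hπ : CE π) {s : ℕ} (hs : s + 5 ≤ Fintype.card Ω) : Rigid π s :=
  fun _ _ _ h2 h3 => hπ.commute_of_fx (h2 ▸ hs) h3

theorem CE.rigid_of_eq (hπ : CE π) {s : ℕ} (hs : s + 4 = Fintype.card Ω) (hc : s.Coprime 24) :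
    Rigid π s := fun g h h1 h2 h3 => by
  refine hπ.commute_of_coprime h3.commute hc (by rw [← h2, ← h1.orderOf, pow_orderOf_eq_one]) ?_
  obtain ⟨τ, e⟩ := h3.exists_ofSubtype
  have : Fintype.card (Perm {a // a ∉ (π g).support}) = 24 := by
    rw [Fintype.card_perm, card_compl_subtype, h2, ← hs, Nat.add_sub_cancel_left]; rfl
  rw [← e, ← map_pow, ← this, pow_card_eq_one, map_one]

theorem Rigid.commute {s : ℕ} (hR : Rigid π s) {g c : H} (h1 : (π g).IsCycle)
    (h2 : (π g).support.card = s) (hc : Commute (π c) (π g)) : Commute c g := by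
  obtain ⟨a, ha, -⟩ := id h1
  have hb : π g (π c a) ≠ π c a := fun e => ha ((π c).injective (by
    rw [← Perm.mul_apply, hc.eq, Perm.mul_apply, e]))
  obtain ⟨i, hi⟩ := h1.exists_zpow_eq ha hb
  have h3 : Fx (π g).support (π ((g ^ i)⁻¹ * c)) := fun b hb => by
    obtain ⟨j, rfl⟩ := h1.exists_zpow_eq ha (mem_support.1 hb)
    rw [map_mul, map_inv, map_zpow, Perm.mul_apply, Perm.inv_eq_iff_eq, ← Perm.mul_apply,
      (hc.zpow_right j).eq, Perm.mul_apply, ← hi, ← Perm.mul_apply, ← Perm.mul_apply,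
      zpow_mul_comm]
  have h4 := hR g _ h1 h2 h3
  simpa using ((Commute.refl g).zpow_left i).mul_left h4

/-- The normalisation singling out the canonical lift of a real element of odd order `s`. -/
def Can (s : ℕ) (g : H) : Prop := g ^ s = 1 ∧ ∃ t, t * g * t⁻¹ = g⁻¹

omit [Fintype Ω] [DecidableEq Ω] in
theorem Can.conj {s : ℕ} {g : H} (h : Can s g) (c : H) : Can s (c * g * c⁻¹) := by
  obtain ⟨h1, t, ht⟩ := h
  refine ⟨by rw [conj_pow, h1]; group, c * t * c⁻¹, ?_⟩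
  calc _ = c * (t * g * t⁻¹) * c⁻¹ := by group
    _ = _ := by rw [ht]; group

omit [Fintype Ω] [DecidableEq Ω] in
theorem Can.pow {s : ℕ} {g : H} (h : Can s g) (j : ℕ) : Can s (g ^ j) := by
  obtain ⟨h1, t, ht⟩ := h
  exact ⟨by rw [← pow_mul, mul_comm, pow_mul, h1, one_pow], t, by rw [← conj_pow, ht, inv_pow]⟩

theorem CE.exists_can (hπ : CE π) {s : ℕ} (hs : Odd s) (F : Subgroup H) {h t : H} (hh : h ∈ F)
    (ht : t ∈ F) (h1 : π h ^ s = 1) (h2 : π t * π h * (π t)⁻¹ = (π h)⁻¹) :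
    ∃ g ∈ F, π g = π h ∧ Can s g := by
  obtain ⟨n, rfl⟩ := hs
  set w := t * h * t⁻¹ * h with hw
  set m := h ^ (2 * n + 1) with hm
  have hw1 : π w = 1 := by simp [hw, h2]
  have hm1 : π m = 1 := by simp [hm, h1]
  have e1 : t * h * t⁻¹ = w * h⁻¹ := by rw [hw]; group
  have cw : ∀ g, Commute w g := fun g => (hπ.cen w hw1 g).symm
  have cm : ∀ g, Commute m g := fun g => (hπ.cen m hm1 g).symm
  have e2 : m * m = w ^ (2 * n + 1) := by
    have := congrArg (· ^ (2 * n + 1)) e1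
    simp only [conj_pow] at this
    rw [← hm, hπ.conj_cen hm1, (cw _).mul_pow, inv_pow, ← hm] at this
    rw [eq_mul_inv_iff_mul_eq] at this
    exact this
  set d := w ^ n * m⁻¹ with hd
  have hd1 : π d = 1 := by simp [hd, hw1, hm1]
  have cd : ∀ g, Commute d g := fun g => (hπ.cen d hd1 g).symm
  have e3 : d * d * w = 1 := by
    have : d * d * w = w ^ (2 * n + 1) * (m * m)⁻¹ := by
      rw [hd, mul_assoc (w ^ n), ← mul_assoc m⁻¹, ((cm (w ^ n)).inv_left).eq, mul_assoc,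
        mul_assoc, mul_assoc, ((cm w).inv_left).eq, ← mul_assoc m⁻¹, ((cm w).inv_left).eq]
      group
    rw [this, e2, mul_inv_cancel]
  refine ⟨d * h, F.mul_mem (F.mul_mem (F.pow_mem (F.mul_mem (F.mul_mem (F.mul_mem ht hh)
    (F.inv_mem ht)) hh) _) (F.inv_mem (F.pow_mem hh _))) hh, by simp [hd1], ?_, t, ?_⟩
  · rw [(cd h).mul_pow, ← hm, hd, ((cw _).pow_left n).mul_pow, ← pow_mul, mul_comm n, pow_mul,
      ← e2]
    rw [← pow_two]; group
  · calc _ = (t * d * t⁻¹) * (t * h * t⁻¹) := by group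
      _ = d⁻¹ * (d * d * w) * h⁻¹ := by rw [hπ.conj_cen hd1, e1]; group
      _ = _ := by rw [e3, mul_one, mul_inv_rev d h, ((cd h).inv_inv).eq]

theorem CE.can_unique (hπ : CE π) {s : ℕ} (hs : Odd s) (hR : Rigid π s) {g g' : H}
    (h1 : (π g).IsCycle) (h2 : (π g).support.card = s) (hg : Can s g) (hg' : Can s g')
    (e : π g = π g') : g = g' := by
  obtain ⟨a1, t, ht⟩ := hg
  obtain ⟨a2, t', ht'⟩ := hg'
  obtain ⟨z, rfl⟩ : ∃ z, g' = z * g := ⟨g' * g⁻¹, by group⟩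
  have hz : π z = 1 := by simpa using e
  have cz : ∀ g, Commute z g := fun g => (hπ.cen z hz g).symm
  have b1 : z ^ s = 1 := by rw [(cz g).mul_pow, a1, mul_one] at a2; exact a2
  have b2 : t' * g * t'⁻¹ = z⁻¹ * z⁻¹ * g⁻¹ := by
    have : t' * (z * g) * t'⁻¹ = (t' * z * t'⁻¹) * (t' * g * t'⁻¹) := by group
    rw [this, hπ.conj_cen hz, mul_inv_rev, ← ((cz g).inv_inv).eq] at ht'
    rw [mul_assoc z⁻¹, ← ht']; group
  have b3 : Commute (π (t⁻¹ * t')) (π g) := by
    have c1 := congrArg π ht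
    have c2 := congrArg π b2
    simp only [map_mul, map_inv, hz, inv_one, one_mul] at c1 c2 ⊢
    rw [← c1] at c2
    show (π t)⁻¹ * π t' * π g = π g * ((π t)⁻¹ * π t')
    calc _ = (π t)⁻¹ * (π t' * π g * (π t')⁻¹) * π t' := by group
      _ = _ := by rw [c2]; group
  have b4 := (hR.commute h1 h2 b3).eq
  have b5 : t' * g * t'⁻¹ = g⁻¹ := by
    rw [← ht]
    calc _ = t * (t⁻¹ * t' * g) * t'⁻¹ := by group
      _ = _ := by rw [b4]; group
  have b6 : z ^ 2 = 1 := by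
    rw [b5] at b2
    have : z⁻¹ * z⁻¹ = 1 := by simpa using b2.symm
    rw [← mul_inv_rev, inv_eq_one] at this
    rw [pow_two, this]
  have b7 := pow_gcd_eq_one.2 ⟨b1, b6⟩
  rw [(Nat.coprime_two_right.2 hs), pow_one] at b7
  rw [b7, one_mul]

/-- `g` is the canonical lift of an `s`-cycle. -/
structure Cyc (π : H →* Perm Ω) (s : ℕ) (g : H) : Prop where
  cyc : (π g).IsCycle
  card : (π g).support.card = s
  can : Can s g

theorem Cyc.ne_one {s : ℕ} {g : H} (h : Cyc π s g) : π g ≠ 1 := h.cyc.ne_one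

theorem Cyc.conj {s : ℕ} {g : H} (h : Cyc π s g) (c : H) : Cyc π s (c * g * c⁻¹) :=
  ⟨by simpa using h.cyc.conj, by simpa using h.card, h.can.conj c⟩

theorem CE.conj_eq (hπ : CE π) {s : ℕ} (hs : Odd s) (hR : Rigid π s) {g g' c : H}
    (hg : Cyc π s g) (hg' : Can s g') (e : π c * π g * (π c)⁻¹ = π g') : c * g * c⁻¹ = g' :=
  hπ.can_unique hs hR (hg.conj c).cyc (hg.conj c).card (hg.conj c).can hg' (by simpa using e)

/-- Cycles of equal length are conjugate by an even permutation fixing a given small set. -/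
theorem exists_even_conj {S : Finset Ω} {x y : Perm Ω} (hx : x.IsCycle) (hy : y.IsCycle)
    (hxy : x.support.card = y.support.card) (hs : sign x = 1)
    (hS : S.card + x.support.card + 2 ≤ Fintype.card Ω) (h1 : Fx S x) (h2 : Fx S y) :
    ∃ t, sign t = 1 ∧ Fx S t ∧ t * x * t⁻¹ = y := by
  obtain ⟨x, rfl⟩ := h1.exists_ofSubtype
  obtain ⟨y, rfl⟩ := h2.exists_ofSubtype
  have hc : IsConj x y := by
    apply isConj_of_cycleType_eq
    rw [← cycleType_ofSubtype, ← cycleType_ofSubtype (g := y), hx.cycleType, hy.cycleType, hxy]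
  have hsx : sign x = 1 := by simpa using hs
  have hsy : sign y = 1 := by
    obtain ⟨c, rfl⟩ := isConj_iff.1 hc
    simp [hsx]
  have hcard : x.support.card = (ofSubtype x).support.card := by
    rw [← sum_cycleType, ← sum_cycleType, cycleType_ofSubtype]
  have hle : x.support.card + 2 ≤ Fintype.card {a // a ∉ S} := by
    rw [card_compl_subtype, hcard]; omega
  obtain ⟨c, hc'⟩ := isConj_iff.1 (alternatingGroup.isConj_of
    (σ := ⟨x, mem_alternatingGroup.2 hsx⟩) (τ := ⟨y, mem_alternatingGroup.2 hsy⟩) hc hle)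
  refine ⟨ofSubtype c.1, by simpa using mem_alternatingGroup.1 c.2, fx_ofSubtype _, ?_⟩
  rw [← map_inv, ← map_mul, ← map_mul]
  have : c.1 * x * c.1⁻¹ = y := congrArg Subtype.val hc'
  rw [this]

theorem sign_of_odd {x : Perm Ω} (hx : x.IsCycle) (hs : Odd x.support.card) : sign x = 1 := by
  rw [hx.sign, hs.neg_one_pow, neg_neg]

theorem CE.exists_cyc (hπ : CE π) {s : ℕ} (hs : Odd s) {S : Finset Ω}
    (hS : S.card + s + 2 ≤ Fintype.card Ω) (F : Subgroup H)
    (hF : ∀ σ, sign σ = 1 → Fx S σ → ∃ f ∈ F, π f = σ) {x : Perm Ω} (hx : x.IsCycle)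
    (hc : x.support.card = s) (hf : Fx S x) : ∃ g ∈ F, π g = x ∧ Cyc π s g := by
  have h1 := sign_of_odd hx (hc ▸ hs)
  obtain ⟨t, t1, t2, t3⟩ := exists_even_conj hx hx.inv (by rw [support_inv]) h1 (hc ▸ hS) hf hf.inv
  obtain ⟨h, hh, rfl⟩ := hF x h1 hf
  obtain ⟨t, ht, rfl⟩ := hF t t1 t2
  obtain ⟨g, hg, e, hcan⟩ := hπ.exists_can hs F hh ht
    (by rw [← hc, ← hx.orderOf, pow_orderOf_eq_one]) t3
  exact ⟨g, hg, e, e ▸ hx, e ▸ hc, hcan⟩

theorem CE.exists_cyc' (hπ : CE π) {s : ℕ} (hs : Odd s) (hS : s + 2 ≤ Fintype.card Ω)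
    {x : Perm Ω} (hx : x.IsCycle) (hc : x.support.card = s) : ∃ g, π g = x ∧ Cyc π s g := by
  obtain ⟨g, -, h⟩ := hπ.exists_cyc hs (S := ∅) (by simpa using hS) ⊤
    (fun σ h _ => by simpa using hπ.surj σ h) hx hc (fun a ha => by simp at ha)
  exact ⟨g, h⟩

theorem CE.exists_conj_cyc (hπ : CE π) {s : ℕ} (hs : Odd s) (hR : Rigid π s)
    (hS : s + 2 ≤ Fintype.card Ω) {g g' : H} (hg : Cyc π s g) (hg' : Cyc π s g') :
    ∃ c, c * g * c⁻¹ = g' := by
  obtain ⟨t, t1, -, t3⟩ := exists_even_conj (S := ∅) hg.cyc hg'.cyc (hg.card.trans hg'.card.symm)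
    (hπ.even g) (by simpa [hg.card] using hS) (fun a ha => by simp at ha)
    (fun a ha => by simp at ha)
  obtain ⟨c, rfl⟩ := hπ.surj t t1
  exact ⟨c, hπ.conj_eq hs hR hg hg'.can t3⟩

theorem Cyc.pow {s : ℕ} {g : H} (h : Cyc π s g) {j : ℕ} (hj : j.Coprime s) : Cyc π s (g ^ j) := by
  have h1 : j.Coprime (orderOf (π g)) := by rwa [h.cyc.orderOf, h.card]
  exact ⟨by rw [map_pow]; exact (h.cyc.pow_iff).2 h1, by
    rw [map_pow, support_pow_coprime h1, h.card], h.can.pow j⟩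

end Cfsg.Agent.KSG.AltW
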