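import Mathlib
import Cfsg.Agent.KSG.AltLift

/-!
# Weights of canonical lifts of cycles in projective representations of alternating groups
-/

set_option autoImplicit false

namespace Cfsg.Agent.KSG.AltW

open Equiv Equiv.Perm Subgroup Module Module.End

section Lin

variable {k V : Type*} [Field k] [AddCommGroup V] [Module k V]

theorem wt_linearIndependent {ι J : Type*} (A : ι → End k V) (lam : J → ι → k)
    (hinj : Function.Injective lam) (v : J → V) (hv0 : ∀ j, v j ≠ 0)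
    (hv : ∀ j i, A i (v j) = lam j i • v j) : LinearIndependent k v := by
  classical
  rw [linearIndependent_iff']
  intro s
  induction s using Finset.induction_on with
  | empty => simp
  | insert a s ha ih =>
    intro g hg
    rw [Finset.sum_insert ha] at hg
    have h1 : ∀ j ∈ s, g j = 0 := fun j hj => by
      obtain ⟨i, hi⟩ := Function.ne_iff.1 (hinj.ne (show j ≠ a from fun e => ha (e ▸ hj)))
      have h2 : ∑ j ∈ s, (g j * (lam j i - lam a i)) • v j = 0 := by
        have h3 := congrArg (fun w => A i w - lam a i • w) hg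
        simp only [map_add, map_smul, map_sum, hv, smul_add, Finset.smul_sum, map_zero,
          smul_zero, sub_zero] at h3
        rw [smul_comm (g a), add_sub_add_left_eq_sub, ← Finset.sum_sub_distrib] at h3
        rw [← h3]
        refine Finset.sum_congr rfl fun j _ => ?_
        rw [smul_smul, smul_smul, ← sub_smul]; congr 1; ring
      exact (mul_eq_zero.1 (ih _ h2 j hj)).resolve_right (sub_ne_zero.2 hi)
    intro j hj
    rcases Finset.mem_insert.1 hj with rfl | hj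
    · rw [Finset.sum_eq_zero fun j hj => by rw [h1 j hj, zero_smul], add_zero] at hg
      exact (smul_eq_zero.1 hg).resolve_right (hv0 _)
    · exact h1 j hj

theorem card_wt_le [FiniteDimensional k V] {ι J : Type*} [Finite J] (A : ι → End k V)
    (lam : J → ι → k) (hinj : Function.Injective lam)
    (hv : ∀ j, ∃ v, v ≠ 0 ∧ ∀ i, A i v = lam j i • v) : Nat.card J ≤ finrank k V := by
  choose v hv0 hv using hv
  haveI := Fintype.ofFinite J
  rw [Nat.card_eq_fintype_card]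
  exact (wt_linearIndependent A lam hinj v hv0 hv).fintype_card_le_finrank

theorem card_mul_le [FiniteDimensional k V] {ι : Type*} [Fintype ι] (A : End k V) (f : ι → k)
    (hf : Function.Injective f) {a : ℕ} (ha : ∀ i, a ≤ finrank k (A.eigenspace (f i))) :
    Fintype.card ι * a ≤ finrank k V := by
  classical
  have h1 := ((eigenspaces_iSupIndep A).comp hf).dfinsupp_lsum_injective
  have h2 := LinearMap.finrank_le_finrank_of_injective h1
  have h3 : finrank k (Π₀ i, (A.eigenspace ∘ f) i) = ∑ i, finrank k (A.eigenspace (f i)) :=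
    finrank_directSum (R := k) (M := fun i => A.eigenspace (f i))
  rw [h3] at h2
  refine le_trans ?_ h2
  rw [← Finset.card_univ, ← smul_eq_mul]
  exact Finset.card_nsmul_le_sum _ _ _ fun i _ => ha i

theorem pow_eq_one_of_eig {A : End k V} {s : ℕ} (hA : A ^ s = 1) {μ : k} {v : V} (hv : v ≠ 0)
    (h : A v = μ • v) : μ ^ s = 1 := by
  have h1 : (A ^ s) v = μ ^ s • v := HasEigenvector.pow_apply ⟨mem_eigenspace_iff.2 h, hv⟩ s
  rw [hA, End.one_apply] at h1
  exact (smul_left_injective k hv (show (1 : k) • v = μ ^ s • v by rw [one_smul]; exact h1)).symm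

theorem pow_apply_of_eig {A : End k V} {μ : k} {v : V} (h : A v = μ • v) (n : ℕ) :
    (A ^ n) v = μ ^ n • v := by
  induction n with
  | zero => simp
  | succ n ih => rw [pow_succ, End.mul_apply, h, map_smul, ih, smul_smul, pow_succ']

theorem isSemisimple_of_pow {A : End k V} {s : ℕ} (hs : (s : k) ≠ 0) (hA : A ^ s = 1) :
    A.IsSemisimple :=
  isSemisimple_of_squarefree_aeval_eq_zero (p := Polynomial.X ^ s - Polynomial.C 1)
    (Polynomial.separable_X_pow_sub_C 1 hs one_ne_zero).squarefree (by simp [hA])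

variable [IsAlgClosed k] [FiniteDimensional k V]

theorem fix_of_eig {A B : End k V} {s : ℕ} (hs : (s : k) ≠ 0) (hA : A ^ s = 1)
    (h : ∀ μ : k, μ ≠ 1 → μ ^ s = 1 → ∀ v, A v = μ • v → B v = v) (v : V) :
    B (A v - v) = A v - v := by
  have hv : v ∈ ⨆ μ, A.eigenspace μ := by
    rw [(isSemisimple_of_pow hs hA).iSup_eigenspace_eq_top]; trivial
  induction hv using Submodule.iSup_induction' with
  | mem μ v hv =>
    rw [mem_eigenspace_iff] at hv
    by_cases h0 : v = 0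
    · simp [h0]
    by_cases h1 : μ = 1
    · simp [hv, h1]
    rw [hv, map_sub, map_smul, h μ h1 (pow_eq_one_of_eig hA h0 hv) v hv]
  | zero => simp
  | add u w _ _ h1 h2 => rw [map_add, add_sub_add_comm, map_add, h1, h2]

theorem fix_of_joint {ι : Type*} (A : ι → End k V) {s : ℕ} (hs : (s : k) ≠ 0)
    (hA : ∀ i, A i ^ s = 1) (hc : ∀ i j, Commute (A i) (A j)) (a b : ι)
    (h : ∀ (χ : ι → k) v, v ≠ 0 → (∀ i, A i v = χ i • v) → χ a = 1 ∨ χ b = 1) (v : V) :
    A b (A a v - v) = A a v - v := by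
  have h1 := iSup_iInf_maxGenEigenspace_eq_top_of_iSup_maxGenEigenspace_eq_top_of_commute A
    (fun i j _ => hc i j) fun i => iSup_maxGenEigenspace_eq_top _
  have hv : v ∈ ⨆ χ : ι → k, ⨅ i, (A i).maxGenEigenspace (χ i) := by rw [h1]; trivial
  induction hv using Submodule.iSup_induction' with
  | mem χ v hv =>
    have hv' : ∀ i, A i v = χ i • v := fun i => by
      have := (Submodule.mem_iInf _).1 hv i
      rwa [(isSemisimple_of_pow hs (hA i)).isFinitelySemisimple.maxGenEigenspace_eq_eigenspace,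
        mem_eigenspace_iff] at this
    by_cases h0 : v = 0
    · simp [h0]
    rcases h χ v h0 hv' with h1 | h1 <;> simp [hv', h1]
  | zero => simp
  | add u w _ _ h1 h2 => rw [map_add, add_sub_add_comm, map_add, h1, h2]

end Lin

variable {Ω : Type*} [Fintype Ω] [DecidableEq Ω] {H : Type*} [Group H] {π : H →* Perm Ω}
  {k V : Type*} [Field k] [AddCommGroup V] [Module k V] (ρ : Representation k H V)

/-- The elements fixing a subspace pointwise. -/
def fixers (W : Submodule k V) : Subgroup H where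
  carrier := {h | ∀ v ∈ W, ρ h v = v}
  one_mem' := by simp
  mul_mem' := fun {a b} ha hb v hv => by rw [map_mul, End.mul_apply, hb v hv, ha v hv]
  inv_mem' := fun {a} ha v hv => by
    conv_lhs => rw [← ha v hv]
    rw [← End.mul_apply, ← map_mul, inv_mul_cancel, map_one, End.one_apply]

/-- `b` fixes the image of `a - 1`. -/
def Kills (a b : H) : Prop := ∀ v, ρ b (ρ a v - v) = ρ a v - v

/-- Canonical lifts of disjoint three-cycles satisfy `(x - 1) (y - 1) = 0`. -/
def Rel3 (π : H →* Perm Ω) : Prop :=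
  ∀ x y, Cyc π 3 x → Cyc π 3 y → Fx (π x).support (π y) → Kills ρ x y

variable {ρ}

theorem Kills.symm {a b : H} (h : Kills ρ a b) (hc : Commute a b) : Kills ρ b a := fun v => by
  have h1 := h v
  rw [map_sub, ← End.mul_apply, ← map_mul, ← hc.eq, map_mul, End.mul_apply] at h1
  rw [map_sub, sub_eq_sub_iff_sub_eq_sub, h1]

theorem Kills.conj {a b : H} (h : Kills ρ a b) (c : H) :
    Kills ρ (c * a * c⁻¹) (c * b * c⁻¹) := fun v => by
  obtain ⟨w, rfl⟩ : ∃ w, v = ρ c w := ⟨ρ c⁻¹ v, by simp⟩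
  simp only [map_mul, End.mul_apply, Representation.inv_self_apply, ← map_sub, h w]

theorem CE.preflip (hπ : CE π) (h8 : 8 ≤ Fintype.card Ω) {S : Finset Ω}
    (hS : S.card + 5 ≤ Fintype.card Ω) (W : Submodule k V)
    (hW : ∀ g, Fx S (π g) → ∀ v ∈ W, ρ g v ∈ W) {u : H} (hu : Fx S (π u)) (h1 : π u ≠ 1)
    (hfix : ∀ v ∈ W, ρ u v = v) {y : H} (hy : Cyc π 3 y) (hyf : Fx S (π y)) :
    ∀ v ∈ W, ρ y v = v := by
  have key : ∀ g, Fx S (π g) → ∀ f ∈ fixers ρ W, Fx S (π f) → g * f * g⁻¹ ∈ fixers ρ W := by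
    intro g hg f hf _ v hv
    rw [map_mul, map_mul, End.mul_apply, End.mul_apply,
      hf _ (hW _ (by rw [map_inv]; exact hg.inv) v hv), Representation.self_inv_apply]
  obtain ⟨g, hg, e, hc⟩ := hπ.exists_cyc (s := 3) (by decide) (S := S) (by omega) (fixers ρ W)
    (fun σ h2 h3 => hπ.lift_normal hS _ key hfix h1 hu h2 h3) hy.cyc hy.card hyf
  rw [← hπ.can_unique (by decide) (hπ.rigid_of_le (by omega)) hc.cyc hc.card hc.can hy.can e]
  exact hg

theorem CE.preflip' (hπ : CE π) (h8 : 8 ≤ Fintype.card Ω) {x u : H}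
    (hS : (π x).support.card + 5 ≤ Fintype.card Ω) (hu : Fx (π x).support (π u)) (h1 : π u ≠ 1)
    (h : Kills ρ x u) {y : H} (hy : Cyc π 3 y) (hyf : Fx (π x).support (π y)) : Kills ρ x y := by
  intro v
  refine hπ.preflip h8 hS (LinearMap.range (ρ x - 1)) ?_ hu h1 ?_ hy hyf _ ⟨v, rfl⟩
  · rintro g hg _ ⟨w, rfl⟩
    refine ⟨ρ g w, ?_⟩
    simp only [LinearMap.sub_apply, End.one_apply, map_sub]
    rw [← End.mul_apply, ← map_mul, ← (hπ.commute_of_fx hS hg).eq, map_mul, End.mul_apply]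
  · rintro _ ⟨w, rfl⟩
    exact h w

theorem CE.exists_cyc_fx (hπ : CE π) {s : ℕ} (hs : Odd s) (h2 : 2 ≤ s)
    (hr : s + 2 ≤ Fintype.card Ω) {S : Finset Ω} (hS : S.card + s ≤ Fintype.card Ω) :
    ∃ y, Cyc π s y ∧ Fx S (π y) := by
  obtain ⟨e, he⟩ := exists_emb S hS
  obtain ⟨y, h1, h3⟩ := hπ.exists_cyc' hs hr (isCycle_emb e (isCycle_finRotate_of_le h2))
    (by rw [card_support_emb, support_finRotate_of_le h2, Finset.card_fin])
  exact ⟨y, h3, h1 ▸ fx_emb e _ he⟩

theorem CE.flip (hπ : CE π) (h8 : 8 ≤ Fintype.card Ω) {x u : H}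
    (hS : (π x).support.card + 5 ≤ Fintype.card Ω) (hu : Fx (π x).support (π u)) (h1 : π u ≠ 1)
    (h2 : π x ≠ 1) (h : Kills ρ x u) : Rel3 ρ π := by
  obtain ⟨y, hy, hyf⟩ := hπ.exists_cyc_fx (s := 3) (by decide) (by decide) (by omega)
    (S := (π x).support) (by omega)
  have h3 := (hπ.preflip' h8 hS hu h1 h hy hyf).symm (hπ.commute_of_fx hS hyf).symm
  intro a b ha hb hab
  obtain ⟨c, rfl⟩ := hπ.exists_conj_cyc (by decide) (hπ.rigid_of_le (by omega)) (by omega) hy ha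
  obtain ⟨b, rfl⟩ : ∃ b', b = c * b' * c⁻¹ := ⟨c⁻¹ * b * c, by group⟩
  have hb' : Cyc π 3 b := by simpa [mul_assoc] using hb.conj c⁻¹
  refine (hπ.preflip' h8 (by rw [hy.card]; omega) hyf.symm h2 h3 hb' fun z hz => ?_).conj c
  have := hab (π c z) (by simpa using hz)
  simpa using this

theorem CE.finrank_eig_le [FiniteDimensional k V] (hπ : CE π) {s : ℕ} (hs : s.Prime) (ho : Odd s)
    (hR : Rigid π s) (hr : s + 2 ≤ Fintype.card Ω) {x : H} (hx : Cyc π s x) {μ : k} (h1 : μ ≠ 1)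
    (h2 : μ ^ s = 1) : (s - 1) * finrank k (eigenspace (ρ x) μ) ≤ finrank k V := by
  haveI := Fact.mk hs
  have ho' : orderOf μ = s := orderOf_eq_prime h2 h1
  have := card_mul_le (ρ x) (fun j : Fin (s - 1) => μ ^ (j.val + 1)) (fun i j hij => by
    have := pow_injOn_Iio_orderOf (x := μ) (by rw [ho']; simp only [Set.mem_Iio]; omega)
      (by rw [ho']; simp only [Set.mem_Iio]; omega) hij
    exact Fin.ext (by omega)) (a := finrank k (eigenspace (ρ x) μ)) fun j => ?_
  · simpa using this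
  have hj : (j.val + 1).Coprime s :=
    (Nat.coprime_of_lt_prime (by omega) (by omega) hs).symm
  obtain ⟨c, hc⟩ := hπ.exists_conj_cyc ho hR hr hx (hx.pow hj)
  refine LinearMap.finrank_le_finrank_of_injective
    (f := (ρ c⁻¹).restrict (p := eigenspace (ρ x) μ) (q := eigenspace (ρ x) (μ ^ (j.val + 1)))
      fun v hv => ?_) fun v w hvw => ?_
  · rw [mem_eigenspace_iff] at hv ⊢
    rw [← map_smul, ← pow_apply_of_eig hv, ← map_pow, ← hc]
    simp
  · have := congrArg (fun a => ρ c a.1) hvw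
    exact Subtype.ext (by simpa using this)

variable [IsAlgClosed k] [FiniteDimensional k V]

theorem CE.rel3_of_eig (hπ : CE π) (h8 : 8 ≤ Fintype.card Ω) {s : ℕ} (hsk : (s : k) ≠ 0)
    (hr : s + 5 ≤ Fintype.card Ω) {x : H} (hx : Cyc π s x)
    (h : ∀ μ : k, μ ≠ 1 → μ ^ s = 1 → ∃ u, Fx (π x).support (π u) ∧ π u ≠ 1 ∧
      ∀ v ∈ eigenspace (ρ x) μ, ρ u v = v) : Rel3 ρ π := by
  have hS : (π x).support.card + 5 ≤ Fintype.card Ω := hx.card ▸ hr
  obtain ⟨y, hy, hyf⟩ := hπ.exists_cyc_fx (s := 3) (by decide) (by decide) (by omega)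
    (S := (π x).support) (by omega)
  refine hπ.flip h8 hS hyf hy.ne_one hx.ne_one ?_
  refine fix_of_eig hsk (by rw [← map_pow, hx.can.1, map_one]) fun μ h1 h2 v hv => ?_
  obtain ⟨u, u1, u2, u3⟩ := h μ h1 h2
  refine hπ.preflip h8 hS _ (fun g hg w hw => ?_) u1 u2 u3 hy hyf v (mem_eigenspace_iff.2 hv)
  rw [mem_eigenspace_iff] at hw ⊢
  rw [← End.mul_apply, ← map_mul, ← (hπ.commute_of_fx hS hg).eq, map_mul, End.mul_apply, hw, map_smul]

theorem CE.rel3_of_four (hπ : CE π) {s : ℕ} (hs : s.Prime) (h5 : 5 ≤ s) (hsk : (s : k) ≠ 0)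
    (hr : s + 4 = Fintype.card Ω) (hn : finrank k V < 2 * (s - 1)) : Rel3 ρ π := by
  have ho : Odd s := hs.odd_of_ne_two (by omega)
  have hR : Rigid π s := hπ.rigid_of_eq hr (by
    rw [show 24 = 2 ^ 3 * 3 from rfl]
    exact Nat.Coprime.mul_right (Nat.Coprime.pow_right _
      ((Nat.coprime_primes hs Nat.prime_two).2 (by omega)))
      ((Nat.coprime_primes hs Nat.prime_three).2 (by omega)))
  obtain ⟨x, hx, -⟩ := hπ.exists_cyc_fx ho (by omega) (by omega) (S := ∅) (by simp; omega)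
  obtain ⟨σ, τ, h1, h2, h3, h4, h6⟩ := exists_noncomm (S := (π x).support) (by rw [hx.card]; omega)
  obtain ⟨a, rfl⟩ := hπ.surj σ h1
  obtain ⟨b, rfl⟩ := hπ.surj τ h2
  have ha := hR x a hx.cyc hx.card h3
  have hb := hR x b hx.cyc hx.card h4
  have hq : Fx (π x).support (π (a * b * a⁻¹ * b⁻¹)) := by
    simpa using ((h3.mul h4).mul h3.inv).mul h4.inv
  have hk : Kills ρ x (a * b * a⁻¹ * b⁻¹) := by
    refine fix_of_eig hsk (by rw [← map_pow, hx.can.1, map_one]) fun μ m1 m2 v hv => ?_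
    have hd := hπ.finrank_eig_le (ρ := ρ) hs ho hR (by omega) hx m1 m2
    have hd1 : finrank k (eigenspace (ρ x) μ) ≤ 1 := by
      by_contra hh
      have : (s - 1) * 2 ≤ (s - 1) * finrank k (eigenspace (ρ x) μ) :=
        Nat.mul_le_mul_left _ (by omega)
      omega
    have hst : ∀ c, Commute c x → ∀ w ∈ eigenspace (ρ x) μ, ρ c w ∈ eigenspace (ρ x) μ := by
      intro c hc w hw
      rw [mem_eigenspace_iff] at hw ⊢
      rw [← End.mul_apply, ← map_mul, ← hc.eq, map_mul, End.mul_apply, hw, map_smul]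
    obtain ⟨⟨w, hw⟩, hgen⟩ := finrank_le_one_iff.1 hd1
    obtain ⟨α, hα⟩ := hgen ⟨_, hst a ha w hw⟩
    obtain ⟨β, hβ⟩ := hgen ⟨_, hst b hb w hw⟩
    obtain ⟨γ, hγ⟩ := hgen ⟨_, hst (b * a)⁻¹ (hb.mul_left ha).inv_left v (mem_eigenspace_iff.2 hv)⟩
    simp only [Subtype.ext_iff, Submodule.coe_smul] at hα hβ hγ
    have e : ρ (a * b) (γ • w) = ρ (b * a) (γ • w) := by
      simp only [map_mul, End.mul_apply, map_smul, ← hα, ← hβ, smul_smul]
      congr 1; ring
    rw [hγ, Representation.self_inv_apply, ← End.mul_apply, ← map_mul] at e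
    rw [← e]; congr 2; group
  have hsub : (π (a * b * a⁻¹ * b⁻¹)).support ⊆ (π x).supportᶜ := fun z hz =>
    Finset.mem_compl.2 fun hz' => mem_support.1 hz (hq z hz')
  have hcard := Finset.card_le_card hsub
  rw [Finset.card_compl, hx.card] at hcard
  exact hπ.flip (by omega) (by omega) hq.symm hx.ne_one (by simpa using h6)
    (hk.symm (hR x _ hx.cyc hx.card hq).symm)

theorem CE.rel3_of_wts (hπ : CE π) (h8 : 8 ≤ Fintype.card Ω) {s : ℕ} [hs : Fact s.Prime]
    (ho : Odd s) (hsk : (s : k) ≠ 0) (hr : s + 5 ≤ Fintype.card Ω) {N m : ℕ}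
    (hN : N ≤ Fintype.card Ω) (c : Fin (m + 2) → Perm (Fin N)) (hc : ∀ i, (c i).IsCycle)
    (hcs : ∀ i, (c i).support.card = s) (hd : ∀ i j, i ≠ j → ∀ z, c i z = z ∨ c j z = z)
    (τ : Fin 2 → Perm (Fin N)) (hτ : ∀ t, sign (τ t) = 1) (σ : Fin 2 → Fin (m + 2) → Fin (m + 2))
    (a : Fin 2 → Fin (m + 2) → ℕ) (hcj : ∀ t i, τ t * c i * (τ t)⁻¹ = c (σ t i) ^ a t i)
    (horb : ∀ Λ : Finset (Fin (m + 2) → ZMod s),
      (∀ t, ∀ l ∈ Λ, (fun i => a t i * l (σ t i)) ∈ Λ) → ∀ l ∈ Λ, l 0 ≠ 0 → l 1 ≠ 0 →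
        finrank k V < Λ.card) : Rel3 ρ π := by
  classical
  obtain ⟨e, -⟩ := exists_emb (∅ : Finset Ω) (m := N) (by simpa using hN)
  have hR := hπ.rigid_of_le hr
  choose x hx hxc using fun i => hπ.exists_cyc' ho (by omega) (isCycle_emb e (hc i))
    (by rw [card_support_emb, hcs])
  have hf : ∀ i j, i ≠ j → Fx (π (x i)).support (π (x j)) := fun i j hij => by
    rw [hx, hx]; exact fx_emb_emb e (hd i j hij)
  have hxs : ∀ i, ρ (x i) ^ s = 1 := fun i => by rw [← map_pow, (hxc i).can.1, map_one]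
  refine hπ.flip h8 (x := x 0) (u := x 1) (by rw [(hxc 0).card]; exact hr) (hf 0 1 (by simp))
    (hxc 1).ne_one (hxc 0).ne_one ?_
  refine fix_of_joint (fun i => ρ (x i)) hsk hxs (fun i j => ?_) 0 1 fun χ v hv hχ => ?_
  · by_cases hij : i = j
    · rw [hij]
    · exact (hR _ _ (hxc j).cyc (hxc j).card (hf j i (Ne.symm hij))).map ρ
  by_contra hne
  rw [not_or] at hne
  have hχs : ∀ i, χ i ^ s = 1 := fun i => pow_eq_one_of_eig (hxs i) hv (hχ i)
  have hζ : IsPrimitiveRoot (χ 0) s := orderOf_eq_prime (hχs 0) hne.1 ▸ IsPrimitiveRoot.orderOf _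
  let Λ : Finset (Fin (m + 2) → ZMod s) :=
    Finset.univ.filter fun l => ∃ w, w ≠ 0 ∧ ∀ i, ρ (x i) w = χ 0 ^ (l i).val • w
  have hle : Λ.card ≤ finrank k V := by
    have := card_wt_le (J := Λ) (fun i => ρ (x i)) (fun l i => χ 0 ^ (l.1 i).val)
      (fun l l' h => Subtype.ext (funext fun i => ZMod.val_injective _
        (hζ.pow_inj (ZMod.val_lt _) (ZMod.val_lt _) (congrFun h i))))
      fun l => (Finset.mem_filter.1 l.2).2
    simpa using this
  choose l hl hl' using fun i => hζ.eq_pow_of_pow_eq_one (hχs i)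
  have hne' : ∀ i, χ i ≠ 1 → (l i : ZMod s) ≠ 0 := fun i hi h0 => by
    have := congrArg ZMod.val h0
    rw [ZMod.val_cast_of_lt (hl i), ZMod.val_zero] at this
    exact hi (by rw [← hl', this, pow_zero])
  refine absurd (horb Λ (fun t l hl => ?_) (fun i => l i) ?_ (hne' 0 hne.1) (hne' 1 hne.2))
    (not_lt.2 hle)
  · obtain ⟨w, hw, hw'⟩ := (Finset.mem_filter.1 hl).2
    obtain ⟨g, hg⟩ := hπ.surj (emb e (τ t)) (by rw [sign_emb, hτ])
    refine Finset.mem_filter.2 ⟨Finset.mem_univ _, ρ g⁻¹ w, fun h0 => hw ?_, fun i => ?_⟩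
    · simpa using congrArg (ρ g) h0
    · have h1 : g * x i * g⁻¹ = x (σ t i) ^ a t i := hπ.conj_eq ho hR (hxc i) ((hxc _).can.pow _)
        (by rw [map_pow, hx, hx, hg, ← map_inv, ← map_mul, ← map_mul, hcj, map_pow])
      have h2 := pow_apply_of_eig (hw' (σ t i)) (a t i)
      rw [← map_pow, ← h1, ← pow_mul] at h2
      have h3 : χ 0 ^ ((a t i : ZMod s) * l (σ t i)).val = χ 0 ^ ((l (σ t i)).val * a t i) := by
        rw [ZMod.val_mul, ZMod.val_natCast, ← pow_eq_pow_mod _ (hχs 0), mul_comm, pow_mul, pow_mul,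
          ← pow_eq_pow_mod _ (by rw [← pow_mul, mul_comm, pow_mul, hχs 0, one_pow])]
      rw [h3, ← map_smul, ← h2]
      simp
  · exact Finset.mem_filter.2 ⟨Finset.mem_univ _, v, hv, fun i => by
      rw [ZMod.val_cast_of_lt (hl i), hl', hχ]⟩

theorem orb_le {α : Type*} [DecidableEq α] (f g : α → α) (Λ : Finset α) (hf : ∀ l ∈ Λ, f l ∈ Λ)
    (hg : ∀ l ∈ Λ, g l ∈ Λ) {l : α} (hl : l ∈ Λ) (a b : ℕ) :
    (Finset.univ.image fun w : Fin a × Fin b × Fin a × Fin b =>
      f^[w.1] (g^[w.2.1] (f^[w.2.2.1] (g^[w.2.2.2] l)))).card ≤ Λ.card := by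
  have it : ∀ h : α → α, (∀ l ∈ Λ, h l ∈ Λ) → ∀ n, ∀ l ∈ Λ, h^[n] l ∈ Λ := fun h hh n => by
    induction n with
    | zero => simp
    | succ n ih => intro l hl; exact ih _ (hh l hl)
  refine Finset.card_le_card fun x hx => ?_
  obtain ⟨w, -, rfl⟩ := Finset.mem_image.1 hx
  exact it f hf _ _ (it g hg _ _ (it f hf _ _ (it g hg _ _ hl)))

theorem CE.rel3_of_ten (hπ : CE π) (hr : 10 ≤ Fintype.card Ω) (hk : ((5 : ℕ) : k) ≠ 0)
    (hn : finrank k V < 16) : Rel3 ρ π := by
  refine hπ.rel3_of_wts (s := 5) (hs := ⟨Nat.prime_five⟩) (by omega) (by decide) hk hr hr (m := 0)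
    ![c[0, 1, 2, 3, 4], c[5, 6, 7, 8, 9]] ?_ (by decide +kernel) (by decide +kernel)
    ![c[1, 4] * c[2, 3], c[0, 5] * c[1, 6, 2, 7, 4, 9, 3, 8]] (by decide +kernel)
    ![![0, 1], ![1, 0]] ![![4, 1], ![1, 2]] (by decide +kernel) fun Λ h l hl h0 h1 => ?_
  · intro i
    fin_cases i <;> exact List.isCycle_formPerm (by decide) (by decide)
  · refine hn.trans_le (le_trans ?_ (orb_le _ _ Λ (h 0) (h 1) hl 2 4))
    clear hl
    revert l
    decide +kernel

theorem CE.rel3_of_nine (hπ : CE π) (hr : 9 ≤ Fintype.card Ω) (hk : ((3 : ℕ) : k) ≠ 0)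
    (hn : finrank k V < 8) : Rel3 ρ π := by
  refine hπ.rel3_of_wts (s := 3) (by omega) (by decide) hk (by omega) hr (m := 1)
    ![c[0, 1, 2], c[3, 4, 5], c[6, 7, 8]] ?_ (by decide +kernel) (by decide +kernel)
    ![c[0, 3, 6] * c[1, 4, 7] * c[2, 5, 8], c[0, 3] * c[1, 4, 2, 5]] (by decide +kernel)
    ![![1, 2, 0], ![1, 0, 2]] ![![1, 1, 1], ![1, 2, 1]] (by decide +kernel)
    fun Λ h l hl h0 h1 => ?_
  · intro i
    fin_cases i <;> exact List.isCycle_formPerm (by decide) (by decide)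
  · refine hn.trans_le (le_trans ?_ (orb_le _ _ Λ (h 0) (h 1) hl 3 4))
    clear hl
    revert l
    decide +kernel

end Cfsg.Agent.KSG.AltW
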