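import Mathlib
import Cfsg.Agent.KSG.AltWt
import Cfsg.Agent.KSG.AltPres
import Cfsg.Agent.S0714

/-!
# Representations of alternating groups in which disjoint three-cycles satisfy `(x-1)(y-1) = 0`
-/

set_option autoImplicit false

namespace Cfsg.Agent.KSG.AltW

open Equiv Equiv.Perm Subgroup Module Module.End

variable {Ω : Type*} [Fintype Ω] [DecidableEq Ω]
  {k V : Type*} [Field k] [AddCommGroup V] [Module k V]

theorem exists_fresh (l : List Ω) (h : l.length < Fintype.card Ω) : ∃ x, x ∉ l := by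
  by_contra hh
  push Not at hh
  have : (Finset.univ : Finset Ω) ⊆ l.toFinset := fun x _ => List.mem_toFinset.2 (hh x)
  have h1 := (Finset.card_le_card this).trans l.toFinset_card_le
  rw [Finset.card_univ] at h1
  omega

/-- The bound on the degree `n` of a representation over `k` of the alternating group of degree
`r`. -/
def Bd (k : Type*) [Field k] (r n : ℕ) : Prop := r ≤ n + 1 ∨ ((r : k) = 0 ∧ r ≤ n + 2)

theorem Bd.mono {r n n' : ℕ} (h : Bd k r n) (hn : n ≤ n') : Bd k r n' :=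
  h.imp (fun h => by omega) fun h => ⟨h.1, by omega⟩

theorem Bd.le {r n : ℕ} (h : Bd k r n) : r ≤ n + 2 := h.elim (fun h => by omega) fun h => h.2

theorem bd_of_delta [FiniteDimensional k V] (h5 : 5 ≤ Fintype.card Ω)
    (σ : Representation k (alternatingGroup Ω) V) (δ : Ω → Ω → V)
    (hadd : ∀ i a b, δ i a + δ a b = δ i b)
    (heq : ∀ (h : alternatingGroup Ω) i a, σ h (δ i a) = δ (h.1 i) (h.1 a)) {a b : Ω}
    (hne : δ a b ≠ 0) : Bd k (Fintype.card Ω) (finrank k V) := by
  let ψ : (Ω → k) →ₗ[k] V := Fintype.linearCombination k fun i => δ i b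
  let s : (Ω → k) →ₗ[k] k := Fintype.linearCombination k fun _ => 1
  have hs : ∀ f, s f = ∑ i, f i := fun f => by simp [s, Fintype.linearCombination_apply]
  let W : Subrepresentation (permRep k (alternatingGroup Ω) Ω) :=
    { toSubmodule := LinearMap.ker (ψ.prod s)
      apply_mem_toSubmodule := fun g f hf => by
        simp only [LinearMap.ker_prod, Submodule.mem_inf, LinearMap.mem_ker, hs] at hf ⊢
        refine ⟨?_, by rw [Perm.sum_permRep, hf.2]⟩
        have h1 : ψ (permRep k (alternatingGroup Ω) Ω g f) = ∑ i, f i • δ (g.1 i) b := by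
          rw [Fintype.linearCombination_apply]
          refine (Fintype.sum_equiv g.1 _ _ fun i => ?_).symm
          rw [Perm.permRep_apply]
          congr 2
          exact (inv_smul_smul g i).symm
        have h2 : σ g (ψ f) = ∑ i, f i • δ (g.1 i) (g.1 b) := by
          simp [ψ, Fintype.linearCombination_apply, heq]
        rw [hf.1, map_zero] at h2
        rw [h1, Finset.sum_congr rfl fun i _ => by rw [← hadd (g.1 i) (g.1 b) b, smul_add],
          Finset.sum_add_distrib, ← h2, ← Finset.sum_smul, hf.2, zero_smul, add_zero] }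
  have hdim := LinearMap.finrank_range_add_finrank_ker (ψ.prod s)
  have h1 : finrank k (LinearMap.range (ψ.prod s)) ≤ finrank k V + 1 := by
    simpa using (LinearMap.range (ψ.prod s)).finrank_le
  rw [finrank_fintype_fun_eq_card] at hdim
  change _ + finrank k W.toSubmodule = _ at hdim
  have hbb : δ b b = 0 := by simpa using hadd b b b
  have hnot : (Pi.single a 1 - Pi.single b 1 : Ω → k) ∉ W.toSubmodule := fun h => by
    have : ψ (Pi.single a 1 - Pi.single b 1) = 0 := congrArg Prod.fst (LinearMap.mem_ker.1 h)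
    simp [ψ, hbb, hne] at this
  rcases S0714.result h5 W with h | h | h | h
  · left
    rw [h, finrank_bot] at hdim
    omega
  · right
    have h2 : (fun _ => 1 : Ω → k) ∈ W.toSubmodule := h ▸ (Perm.mem_permConstants _).2 ⟨1, rfl⟩
    have h3 : s (fun _ => 1) = 0 := congrArg Prod.snd (LinearMap.mem_ker.1 h2)
    have h4 : finrank k W.toSubmodule ≤ 1 := by
      rw [h]
      exact (finrank_span_le_card (R := k) ({fun _ => 1} : Set (Ω → k))).trans (by simp)
    exact ⟨by simpa [hs] using h3, by omega⟩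
  · refine absurd ?_ hnot
    rw [h, Perm.mem_permSumZero]
    simp [Finset.sum_sub_distrib]
  · exact absurd (h ▸ Submodule.mem_top) hnot

/-- The three-cycle `a ↦ b ↦ c ↦ a`. -/
def c3 (a b c : Ω) : alternatingGroup Ω :=
  if h : a ≠ c ∧ a ≠ b then ⟨swap a c * swap a b, by simp [mem_alternatingGroup, h.1, h.2]⟩ else 1

theorem c3_spec {a b c : Ω} (hab : a ≠ b) (hac : a ≠ c) (hbc : b ≠ c) :
    (c3 a b c).1.IsThreeCycle ∧ (c3 a b c).1 a = b ∧
      ∀ z, z ≠ a → z ≠ b → z ≠ c → (c3 a b c).1 z = z := by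
  rw [c3, dif_pos ⟨hac, hab⟩]
  refine ⟨isThreeCycle_swap_mul_swap_same hac hab hbc.symm, ?_, fun z h1 h2 h3 => ?_⟩
  · simp [swap_apply_of_ne_of_ne hab.symm hbc]
  · simp [swap_apply_of_ne_of_ne h1 h2, swap_apply_of_ne_of_ne h1 h3]

theorem bd_of_triple [FiniteDimensional k V] (h8 : 8 ≤ Fintype.card Ω)
    (σ : Representation k (alternatingGroup Ω) V)
    (hrel : ∀ x y : alternatingGroup Ω, x.1.IsThreeCycle → y.1.IsThreeCycle →
      Fx x.1.support y.1 → Kills σ x y) (w : Ω → Ω → Ω → V)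
    (hw : ∀ (h : alternatingGroup Ω) a b c, a ≠ b → a ≠ c → b ≠ c →
      σ h (w a b c) = w (h.1 a) (h.1 b) (h.1 c))
    {a a' b c : Ω} (h1 : a ≠ b) (h2 : a ≠ c) (h3 : a' ≠ b) (h4 : a' ≠ c) (h5 : b ≠ c)
    (hne : w a b c ≠ w a' b c) : Bd k (Fintype.card Ω) (finrank k V) := by
  have hpair : ∀ i a j c l : Ω, i ≠ a → j ≠ c → j ≠ i → j ≠ a → c ≠ i → c ≠ a → l ≠ i → l ≠ a →
      l ≠ j → l ≠ c → ∃ x y : alternatingGroup Ω, Kills σ x y ∧ x.1 i = a ∧ x.1 j = j ∧
        x.1 l = l ∧ y.1 i = i ∧ y.1 a = a ∧ y.1 j = c ∧ y.1 l = l := by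
    intro i a j c l e1 e2 e3 e4 e5 e6 e7 e8 e9 e10
    obtain ⟨b, hb⟩ := exists_fresh [i, a, j, c, l] (by simp; omega)
    obtain ⟨d, hd⟩ := exists_fresh [i, a, j, c, l, b] (by simp; omega)
    simp only [List.mem_cons, List.not_mem_nil, or_false, not_or] at hb hd
    obtain ⟨x1, x2, x3⟩ := c3_spec (a := i) (b := a) (c := b) e1 (by grind) (by grind)
    obtain ⟨y1, y2, y3⟩ := c3_spec (a := j) (b := c) (c := d) e2 (by grind) (by grind)
    refine ⟨c3 i a b, c3 j c d, hrel _ _ x1 y1 fun z hz => ?_, x2, x3 _ e3 e4 (by grind),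
      x3 _ e7 e8 (by grind), y3 _ (by grind) (by grind) (by grind),
      y3 _ (by grind) (by grind) (by grind), y2, y3 _ e9 e10 (by grind)⟩
    have hz' := mem_support.1 hz
    by_cases q1 : z = i
    · exact y3 z (by grind) (by grind) (by grind)
    by_cases q2 : z = a
    · exact y3 z (by grind) (by grind) (by grind)
    by_cases q3 : z = b
    · exact y3 z (by grind) (by grind) (by grind)
    exact absurd (x3 z q1 q2 q3) hz'
  have r2 : ∀ i a j c l : Ω, j ≠ i → j ≠ a → c ≠ i → c ≠ a → l ≠ i → l ≠ a → l ≠ j → l ≠ c →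
      w i j l - w a j l = w i c l - w a c l := by
    intro i a j c l e3 e4 e5 e6 e7 e8 e9 e10
    by_cases e1 : i = a
    · simp [e1]
    by_cases e2 : j = c
    · rw [e2]
    obtain ⟨x, y, hk, x1, x2, x3, y1, y2, y3, y4⟩ := hpair i a j c l e1 e2 e3 e4 e5 e6 e7 e8 e9 e10
    have := hk (w i j l)
    rw [hw x _ _ _ e3.symm e7.symm e9.symm, x1, x2, x3, map_sub, hw y _ _ _ e3.symm e7.symm e9.symm,
      hw y _ _ _ e4.symm e8.symm e9.symm, y1, y2, y3, y4] at this
    rw [← neg_sub, ← this, neg_sub]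
  have r3 : ∀ i a j c l : Ω, j ≠ i → j ≠ a → c ≠ i → c ≠ a → l ≠ i → l ≠ a → l ≠ j → l ≠ c →
      w i l j - w a l j = w i l c - w a l c := by
    intro i a j c l e3 e4 e5 e6 e7 e8 e9 e10
    by_cases e1 : i = a
    · simp [e1]
    by_cases e2 : j = c
    · rw [e2]
    obtain ⟨x, y, hk, x1, x2, x3, y1, y2, y3, y4⟩ := hpair i a j c l e1 e2 e3 e4 e5 e6 e7 e8 e9 e10
    have := hk (w i l j)
    rw [hw x _ _ _ e7.symm e3.symm e9, x1, x2, x3, map_sub, hw y _ _ _ e7.symm e3.symm e9,
      hw y _ _ _ e8.symm e4.symm e9, y1, y2, y3, y4] at this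
    rw [← neg_sub, ← this, neg_sub]
  have hfr : ∀ i a b : Ω, ∃ j l, j ≠ i ∧ j ≠ a ∧ j ≠ b ∧ l ≠ i ∧ l ≠ a ∧ l ≠ b ∧ l ≠ j := by
    intro i a b
    obtain ⟨j, hj⟩ := exists_fresh [i, a, b] (by simp; omega)
    obtain ⟨l, hl⟩ := exists_fresh [i, a, b, j] (by simp; omega)
    simp only [List.mem_cons, List.not_mem_nil, or_false, not_or] at hj hl
    exact ⟨j, l, by grind⟩
  have hδ : ∀ i a : Ω, ∃ d, ∀ j l, j ≠ i → j ≠ a → l ≠ i → l ≠ a → l ≠ j →
      w i j l - w a j l = d := by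
    intro i a
    obtain ⟨j', l', e⟩ := hfr i a a
    refine ⟨w i j' l' - w a j' l', fun j l e1 e2 e3 e4 e5 => ?_⟩
    obtain ⟨m, hm⟩ := exists_fresh [i, a, l, l'] (by simp; omega)
    simp only [List.mem_cons, List.not_mem_nil, or_false, not_or] at hm
    rw [r2 i a j m l e1 e2 (by grind) (by grind) e3 e4 e5 (by grind),
      r3 i a l l' m e3 e4 (by grind) (by grind) (by grind) (by grind) (by grind) (by grind),
      r2 i a m j' l' (by grind) (by grind) (by grind) (by grind) (by grind) (by grind) (by grind)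
        (by grind)]
  choose δ hδ using hδ
  refine bd_of_delta (by omega) σ δ (fun i a b => ?_) (fun h i a => ?_) (a := a) (b := a') ?_
  · obtain ⟨j, l, e1, e2, e3, e4, e5, e6, e7⟩ := hfr i a b
    rw [← hδ i a j l e1 e2 e4 e5 e7, ← hδ a b j l e2 e3 e5 e6 e7, ← hδ i b j l e1 e3 e4 e6 e7,
      sub_add_sub_cancel]
  · obtain ⟨j, l, e1, e2, -, e4, e5, -, e7⟩ := hfr i a a
    have hi := h.1.injective
    rw [← hδ i a j l e1 e2 e4 e5 e7, map_sub, hw h _ _ _ e1.symm e4.symm e7.symm,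
      hw h _ _ _ e2.symm e5.symm e7.symm,
      hδ _ _ _ _ (hi.ne e1) (hi.ne e2) (hi.ne e4) (hi.ne e5) (hi.ne e7)]
  · rw [← hδ a a' b c h1.symm h3.symm h2.symm h4.symm h5.symm]
    exact sub_ne_zero.2 hne

theorem exists_alt_triple (h5 : 5 ≤ Fintype.card Ω) {a b c a' b' c' : Ω} (h1 : a ≠ b) (h2 : a ≠ c)
    (h3 : b ≠ c) (h4 : a' ≠ b') (h6 : a' ≠ c') (h7 : b' ≠ c') :
    ∃ g : alternatingGroup Ω, g.1 a = a' ∧ g.1 b = b' ∧ g.1 c = c' := by
  haveI := alternatingGroup.isMultiplyPretransitive Ω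
  haveI : MulAction.IsMultiplyPretransitive (alternatingGroup Ω) Ω 3 :=
    MulAction.isMultiplyPretransitive_of_le (n := Nat.card Ω - 2)
      (by rw [Nat.card_eq_fintype_card]; omega) (Nat.sub_le _ _)
  have inj : ∀ {a b c : Ω}, a ≠ b → a ≠ c → b ≠ c → Function.Injective ![a, b, c] := by
    intro a b c h1 h2 h3 i j hij
    fin_cases i <;> fin_cases j <;> simp_all [eq_comm]
  obtain ⟨g, hg⟩ := MulAction.exists_smul_eq (alternatingGroup Ω)
    (⟨_, inj h1 h2 h3⟩ : Fin 3 ↪ Ω) ⟨_, inj h4 h6 h7⟩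
  exact ⟨g, DFunLike.congr_fun hg 0, DFunLike.congr_fun hg 1, DFunLike.congr_fun hg 2⟩

theorem ce_subtype : CE (alternatingGroup Ω).subtype :=
  ⟨fun h => mem_alternatingGroup.1 h.2, fun σ h => ⟨⟨σ, mem_alternatingGroup.2 h⟩, rfl⟩,
    fun z hz h => by rw [show z = 1 from Subtype.ext hz, mul_one, one_mul]⟩

theorem bd_of_rel [FiniteDimensional k V] (h8 : 8 ≤ Fintype.card Ω)
    (σ : Representation k (alternatingGroup Ω) V) (hσ : Function.Injective σ)
    (hrel : ∀ x y : alternatingGroup Ω, x.1.IsThreeCycle → y.1.IsThreeCycle →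
      Fx x.1.support y.1 → Kills σ x y) : Bd k (Fintype.card Ω) (finrank k V) := by
  classical
  obtain ⟨x, hx, g₀, hg₀⟩ : ∃ x : alternatingGroup Ω, x.1.IsThreeCycle ∧ ∃ g, ¬ Kills σ x g := by
    by_contra hh
    push Not at hh
    have h1 : ∀ x : alternatingGroup Ω, ∀ g, Kills σ x g := fun x => by
      have hx : x ∈ closure {g : alternatingGroup Ω | g.1.IsThreeCycle} := by
        rw [alternatingGroup.closure_isThreeCycles_eq_top]; trivial
      induction hx using closure_induction'' with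
      | one => intro g v; simp
      | mem x hx => exact hh x hx
      | inv_mem x hx => exact hh x⁻¹ (IsThreeCycle.inv hx)
      | mul x y _ _ h1 h2 =>
        intro g v
        rw [map_mul, End.mul_apply, ← sub_add_sub_cancel _ (σ y v), map_add, h1, h2]
    obtain ⟨a, b, ha, hb, -, -, hab⟩ := exists_noncomm (S := (∅ : Finset Ω)) (by simp; omega)
    have : (⟨a, ha⟩ * ⟨b, hb⟩ : alternatingGroup Ω) = ⟨b, hb⟩ * ⟨a, ha⟩ := hσ (by
      ext v
      have e1 := h1 ⟨a, ha⟩ ⟨b, hb⟩ v
      have e2 := h1 ⟨b, hb⟩ ⟨a, ha⟩ v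
      simp only [map_sub, sub_eq_iff_eq_add] at e1 e2
      simp only [map_mul, End.mul_apply, e1, e2]
      abel)
    have h2 : a * b = b * a := congrArg Subtype.val this
    exact hab (by rw [h2]; group)
  obtain ⟨u, hu⟩ := not_forall.1 hg₀
  set v := σ x u - u with hv
  obtain ⟨a, b, c, hab, hac, hbc, hsup⟩ := Finset.card_eq_three.1 hx.card_support
  have hfix : ∀ g : alternatingGroup Ω, g.1 a = a → g.1 b = b → g.1 c = c → σ g v = v := by
    intro g e1 e2 e3
    have hS : x.1.support.card + 5 ≤ Fintype.card Ω := by rw [hx.card_support]; omega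
    obtain ⟨y, hy, hyf⟩ := ce_subtype.exists_cyc_fx (s := 3) (by decide) (by decide) (by omega)
      (S := x.1.support) (by omega)
    obtain ⟨f, hf, e⟩ := ce_subtype.lift_normal hS (fixers σ (LinearMap.range (σ x - 1))) (u := y)
      (fun g hg f hf _ => by
        rintro _ ⟨w, rfl⟩
        have hc := (ce_subtype.commute_of_fx (x := x) (h := g⁻¹) hS hg.inv).eq
        have : σ g⁻¹ ((σ x - 1) w) = (σ x - 1) (σ g⁻¹ w) := by
          simp only [LinearMap.sub_apply, End.one_apply, map_sub]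
          rw [← End.mul_apply, ← map_mul, hc, map_mul, End.mul_apply]
        rw [map_mul, map_mul, End.mul_apply, End.mul_apply, this, hf _ ⟨_, rfl⟩, ← this,
          Representation.self_inv_apply])
      (by rintro _ ⟨w, rfl⟩; exact hrel x y hx (card_support_eq_three_iff.1 hy.card) hyf w)
      hy.ne_one hyf (σ := g.1) (mem_alternatingGroup.1 g.2)
      (fun z hz => by
        rw [hsup] at hz
        simp only [Finset.mem_insert, Finset.mem_singleton] at hz
        rcases hz with rfl | rfl | rfl <;> assumption)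
    rw [← show f = g from Subtype.ext e]
    exact hf _ ⟨u, rfl⟩
  let w : Ω → Ω → Ω → V := fun i j l =>
    if h : ∃ g : alternatingGroup Ω, g.1 a = i ∧ g.1 b = j ∧ g.1 c = l then σ h.choose v else 0
  have hw1 : ∀ g : alternatingGroup Ω, w (g.1 a) (g.1 b) (g.1 c) = σ g v := fun g => by
    have h : ∃ g' : alternatingGroup Ω, g'.1 a = g.1 a ∧ g'.1 b = g.1 b ∧ g'.1 c = g.1 c :=
      ⟨g, rfl, rfl, rfl⟩
    obtain ⟨e1, e2, e3⟩ := h.choose_spec
    simp only [w, dif_pos h]
    have := hfix (g⁻¹ * h.choose) (by simp [e1]) (by simp [e2]) (by simp [e3])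
    conv_rhs => rw [← this, ← End.mul_apply, ← map_mul, mul_inv_cancel_left]
  have hw : ∀ (h : alternatingGroup Ω) a b c, a ≠ b → a ≠ c → b ≠ c →
      σ h (w a b c) = w (h.1 a) (h.1 b) (h.1 c) := fun h i j l e1 e2 e3 => by
    obtain ⟨g, rfl, rfl, rfl⟩ := exists_alt_triple (by omega) hab hac hbc e1 e2 e3
    rw [hw1, ← End.mul_apply, ← map_mul, ← hw1]
    rfl
  by_contra hB
  have n1 : ∀ a a' b c, a ≠ b → a ≠ c → a' ≠ b → a' ≠ c → b ≠ c → w a b c = w a' b c :=
    fun a a' b c h1 h2 h3 h4 h5 => by_contra fun hne =>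
      hB (bd_of_triple h8 σ hrel w hw h1 h2 h3 h4 h5 hne)
  have n2 : ∀ a a' b c, a ≠ b → a ≠ c → a' ≠ b → a' ≠ c → b ≠ c → w b a c = w b a' c :=
    fun a a' b c h1 h2 h3 h4 h5 => by_contra fun hne =>
      hB (bd_of_triple h8 σ hrel (fun a b c => w b a c)
        (fun h a b c e1 e2 e3 => hw h b a c e1.symm e3 e2) h1 h2 h3 h4 h5 hne)
  have n3 : ∀ a a' b c, a ≠ b → a ≠ c → a' ≠ b → a' ≠ c → b ≠ c → w b c a = w b c a' :=
    fun a a' b c h1 h2 h3 h4 h5 => by_contra fun hne =>
      hB (bd_of_triple h8 σ hrel (fun a b c => w b c a)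
        (fun h a b c e1 e2 e3 => hw h b c a e3 e1.symm e2.symm) h1 h2 h3 h4 h5 hne)
  apply hu
  rw [← hw1, ← show w a b c = v by simpa using hw1 1]
  have hi := g₀.1.injective
  have f1 := hi.ne hab
  have f2 := hi.ne hac
  have f3 := hi.ne hbc
  generalize g₀.1 a = a' at *
  generalize g₀.1 b = b' at *
  generalize g₀.1 c = c' at *
  obtain ⟨p, hp⟩ := exists_fresh [a, b, c, a', b', c'] (by simp; omega)
  obtain ⟨q, hq⟩ := exists_fresh [a, b, c, a', b', c', p] (by simp; omega)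
  simp only [List.mem_cons, List.not_mem_nil, or_false, not_or] at hp hq
  rw [n1 a' p b' c' f1 f2 (by grind) (by grind) f3,
    n2 b' q p c' (by grind) f3 (by grind) (by grind) (by grind),
    n3 c' c p q (by grind) (by grind) (by grind) (by grind) (by grind),
    n2 q b p c (by grind) (by grind) (by grind) hbc (by grind),
    n1 p a b c (by grind) (by grind) hab hac hbc]

variable {H : Type*} [Group H] {π : H →* Perm Ω} {ρ : Representation k H V}

theorem CE.exists_lift_three (hπ : CE π) (h5 : 5 ≤ Fintype.card Ω) (hrel : Rel3 ρ π) {a b c : Ω}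
    (hab : a ≠ b) (hac : a ≠ c) (hbc : b ≠ c) : ∃ X, π X = swap a b * swap a c ∧
      ∀ y, Cyc π 3 y → π y a = a → π y b = b → π y c = c →
        X ∈ fixers ρ (LinearMap.range (ρ y - 1)) := by
  have h3 := isThreeCycle_swap_mul_swap_same hab hac hbc
  obtain ⟨X, e, hX⟩ := hπ.exists_cyc' (s := 3) (by decide) h5 h3.isCycle h3.card_support
  refine ⟨X, e, fun y hy e1 e2 e3 => ?_⟩
  rintro _ ⟨w, rfl⟩
  refine hrel y X hy hX (fun z hz => ?_) w
  have hz' := mem_support.1 hz
  rw [e, Perm.mul_apply, swap_apply_of_ne_of_ne (by grind) (by grind),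
    swap_apply_of_ne_of_ne (by grind) (by grind)]

theorem emb_swap {m : ℕ} (e : Fin m ↪ Ω) (i j : Fin m) : emb e (swap i j) = swap (e i) (e j) := by
  ext z
  by_cases h : ∃ l, e l = z
  · obtain ⟨l, rfl⟩ := h
    rw [emb_apply, e.injective.swap_apply]
  · push Not at h
    rw [emb_apply_not e _ h, swap_apply_of_ne_of_ne (h i).symm (h j).symm]

theorem CE.bd_of_rel3 [FiniteDimensional k V] (hπ : CE π) (h9 : 9 ≤ Fintype.card Ω)
    (hρ : Function.Injective ρ) (hz : ∀ z, π z = 1 → ∀ v, v ≠ 0 → ρ z v = v → z = 1)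
    (hrel : Rel3 ρ π) : Bd k (Fintype.card Ω) (finrank k V) := by
  obtain ⟨m, hm⟩ : ∃ m, Fintype.card Ω = m + 2 := ⟨Fintype.card Ω - 2, by omega⟩
  obtain ⟨e, -⟩ := exists_emb (∅ : Finset Ω) (m := m + 2) (by simp [hm])
  have hX : ∀ i : Fin m, ∃ X, π X = emb e (mooreGen m i).1 ∧ ∀ y, Cyc π 3 y →
      Fx {e 0, e 1, e i.succ.castSucc, e i.succ.succ} (π y) →
        X ∈ fixers ρ (LinearMap.range (ρ y - 1)) := by
    intro i
    have hg : emb e (mooreGen m i).1 = swap (e 0) (e 1) * swap (e i.succ.castSucc) (e i.succ.succ) := by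
      simp only [mooreGen, adjSwap, map_mul, emb_swap]
      rfl
    have hi := e.injective
    have h01 : e 1 ≠ e 0 := hi.ne (by simp)
    have h02 : e 0 ≠ e i.succ.succ := hi.ne (Fin.succ_ne_zero _).symm
    have h12 : e 1 ≠ e i.succ.succ := hi.ne (by simp [Fin.ext_iff])
    have h32 : e i.succ.castSucc ≠ e i.succ.succ := hi.ne (by simp [Fin.ext_iff])
    have h03 : e 0 ≠ e i.succ.castSucc := hi.ne (by simp [Fin.ext_iff])
    by_cases h13 : e 1 = e i.succ.castSucc
    · obtain ⟨X, h1, h2⟩ := hπ.exists_lift_three (by omega) hrel h01 h12 h02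
      refine ⟨X, by rw [h1, hg, ← h13, swap_comm], fun y hy hf =>
        h2 y hy (hf _ (by simp)) (hf _ (by simp)) (hf _ (by simp))⟩
    · obtain ⟨X, h1, h2⟩ := hπ.exists_lift_three (by omega) hrel h01 h13 h03
      obtain ⟨Y, h3, h4⟩ := hπ.exists_lift_three (by omega) hrel (Ne.symm h13) h32 h12
      refine ⟨X * Y, ?_, fun y hy hf => mul_mem
        (h2 y hy (hf _ (by simp)) (hf _ (by simp)) (hf _ (by simp)))
        (h4 y hy (hf _ (by simp)) (hf _ (by simp)) (hf _ (by simp)))⟩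
      rw [map_mul, h1, h3, hg, swap_comm (e 1) (e 0), swap_comm (e 1), mul_assoc,
        swap_mul_self_mul]
  choose X hX1 hX2 using hX
  have hF : ∀ i j, ∃ F : Subgroup H, X i ∈ F ∧ X j ∈ F ∧ ∀ z ∈ F, π z = 1 → z = 1 := by
    intro i j
    obtain ⟨y, hy, hyf⟩ := hπ.exists_cyc_fx (s := 3) (by decide) (by decide) (by omega)
      (S := {e 0, e 1, e i.succ.castSucc, e i.succ.succ, e j.succ.castSucc, e j.succ.succ})
      (by have := Finset.card_le_six (a := e 0) (b := e 1) (c := e i.succ.castSucc)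
            (d := e i.succ.succ) (e := e j.succ.castSucc) (f := e j.succ.succ)
          omega)
    refine ⟨_, hX2 i y hy (hyf.mono (by intro; simp; tauto)),
      hX2 j y hy (hyf.mono (by intro; simp; tauto)), fun z hz1 hz2 => ?_⟩
    obtain ⟨v, hv⟩ : ∃ v, (ρ y - 1) v ≠ 0 := by
      by_contra hh
      push Not at hh
      have : ρ y = ρ 1 := by rw [map_one, ← sub_eq_zero]; exact LinearMap.ext hh
      exact hy.ne_one (by rw [hρ this, map_one])
    exact hz z hz2 _ hv (hz1 _ ⟨v, rfl⟩)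
  have hM := mooreRel_mooreGen m
  let ι := (emb e).comp (alternatingGroup (Fin (m + 2))).subtype
  have hι : ∀ i, π (X i) = ι (mooreGen m i) := hX1
  suffices hXM : MooreRel X by
    obtain ⟨φ, hφ⟩ := exists_hom_alt_of_mooreRel hXM
    have hc : ∀ g, π (φ g) = emb e g.1 := fun g => DFunLike.congr_fun
      (MonoidHom.eq_of_eqOn_dense (closure_mooreGen m) (f := π.comp φ) (g := ι) (by
        rintro _ ⟨i, rfl⟩
        rw [MonoidHom.comp_apply, hφ, hι])) g
    have hcyc : ∀ x : alternatingGroup (Fin (m + 2)), x.1.IsThreeCycle → Cyc π 3 (φ x) := by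
      intro x hx
      obtain ⟨y, h1, -, -, h2, t, ht⟩ := ce_subtype.exists_cyc' (s := 3) (by decide)
        (by simp; omega) hx.isCycle hx.card_support
      rw [← show y = x from Subtype.ext h1] at hx ⊢
      exact ⟨hc y ▸ isCycle_emb e hx.isCycle, by rw [hc, card_support_emb, hx.card_support],
        by rw [← map_pow, h2, map_one], φ t, by rw [← map_inv, ← map_mul, ← map_mul, ht, map_inv]⟩
    have := bd_of_rel (Ω := Fin (m + 2)) (by simp; omega) (ρ.comp φ)
      (hρ.comp fun a b hab => Subtype.ext (emb_injective e (by rw [← hc, ← hc, hab])))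
      fun x y hx hy hxy => hrel _ _ (hcyc x hx) (hcyc y hy) (by
        rw [hc, hc]
        refine fx_emb_emb e fun i => ?_
        by_cases hi : i ∈ x.1.support
        · exact Or.inr (hxy i hi)
        · exact Or.inl (notMem_support.1 hi))
    rwa [Fintype.card_fin, ← hm] at this
  refine ⟨fun i hi => ?_, fun i hi => ?_, fun i j hi => ?_, fun i j hi => ?_⟩
  · obtain ⟨F, h1, -, h3⟩ := hF i i
    exact h3 _ (pow_mem h1 _) (by rw [map_pow, hι, ← map_pow, hM.zero i hi, map_one])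
  · obtain ⟨F, h1, -, h3⟩ := hF i i
    exact h3 _ (pow_mem h1 _) (by rw [map_pow, hι, ← map_pow, hM.pos i hi, map_one])
  · obtain ⟨F, h1, h2, h3⟩ := hF i j
    exact h3 _ (pow_mem (mul_mem h1 h2) _)
      (by rw [map_pow, map_mul, hι, hι, ← map_mul, ← map_pow, hM.adj i j hi, map_one])
  · obtain ⟨F, h1, h2, h3⟩ := hF i j
    exact h3 _ (pow_mem (mul_mem h1 h2) _)
      (by rw [map_pow, map_mul, hι, hι, ← map_mul, ← map_pow, hM.far i j hi, map_one])

end Cfsg.Agent.KSG.AltW
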