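import Mathlib
import Cfsg.Agent.KSG.AltLin
import Cfsg.Agent.Misc.AutElem

/-!
# Alternating sections of linear groups: reduction to central extensions
-/

set_option autoImplicit false

namespace Cfsg.Agent.KSG.AltW

open Equiv Equiv.Perm Subgroup Module Module.End

section Grp

variable {Ω : Type*} [Fintype Ω] [DecidableEq Ω] {H : Type*} [Group H] {π : H →* Perm Ω}

/-- `π` maps `H`, and no proper subgroup of `H`, onto the alternating group. -/
structure MinC (π : H →* Perm Ω) : Prop where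
  even : ∀ h, sign (π h) = 1
  surj : ∀ σ, sign σ = 1 → ∃ h, π h = σ
  min : ∀ M : Subgroup H, (∀ σ, sign σ = 1 → ∃ h ∈ M, π h = σ) → M = ⊤

theorem MinC.normal (hπ : MinC π) (h5 : 5 ≤ Fintype.card Ω) (N : Subgroup H) [hN : N.Normal] :
    N ≤ π.ker ∨ N = ⊤ := by
  by_cases h : N ≤ π.ker
  · exact Or.inl h
  obtain ⟨u, hu, h1⟩ := SetLike.not_le_iff_exists.1 h
  have f0 : ∀ σ : Perm Ω, Fx ∅ σ := fun σ a ha => by simp at ha
  refine Or.inr (hπ.min N fun σ hσ => alt_normal (S := ∅) (by simpa using h5) (N.map π) ?_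
    ⟨u, hu, rfl⟩ h1 (hπ.even u) (f0 _) hσ (f0 _))
  rintro g hg - _ ⟨f, hf, rfl⟩ -
  obtain ⟨g, rfl⟩ := hπ.surj g hg
  exact ⟨_, hN.conj_mem f hf g, by simp⟩

theorem MinC.exists_comm (hπ : MinC π) (h5 : 5 ≤ Fintype.card Ω) :
    ∃ a b, π (a * b * a⁻¹ * b⁻¹) ≠ 1 := by
  obtain ⟨a, b, ha, hb, -, -, hab⟩ := exists_noncomm (S := (∅ : Finset Ω)) (by simp; omega)
  obtain ⟨a, rfl⟩ := hπ.surj a ha
  obtain ⟨b, rfl⟩ := hπ.surj b hb
  exact ⟨a, b, by simpa using hab⟩

theorem MinC.le_center (hπ : MinC π) (h5 : 5 ≤ Fintype.card Ω) {N : Subgroup H}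
    (h : ⁅N, ⊤⁆ ≤ center H) : N ≤ center H := by
  have h1 : (⁅⊤, ⊤⁆ : Subgroup H) = ⊤ := (hπ.normal h5 _).resolve_left fun hh => by
    obtain ⟨a, b, hab⟩ := hπ.exists_comm h5
    exact hab (hh (commutator_mem_commutator (mem_top a) (mem_top b)))
  rw [← commutator_top_left_eq_bot_iff_le_center, ← h1]
  refine commutator_commutator_eq_bot_of_rotate ?_ ?_ <;>
    rw [commutator_top_right_eq_bot_iff_le_center]
  · rwa [commutator_comm]
  · exact h

theorem MinC.factorial_le (hπ : MinC π) (h5 : 5 ≤ Fintype.card Ω) {G : Type*} [Group G] [Finite G]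
    (f : H →* G) (hf : f.ker ≤ π.ker) : (Fintype.card Ω).factorial ≤ 2 * Nat.card G := by
  haveI : Nontrivial Ω := Fintype.one_lt_card_iff_nontrivial.1 (by omega)
  have h1 : π.range = alternatingGroup Ω := by
    ext σ
    exact ⟨fun ⟨h, e⟩ => mem_alternatingGroup.2 (e ▸ hπ.even h),
      fun h => hπ.surj σ (mem_alternatingGroup.1 h)⟩
  have h2 := index_dvd_of_le hf
  rw [index_ker, index_ker, h1] at h2
  have h3 := Nat.le_of_dvd Nat.card_pos (h2.trans (card_subgroup_dvd_card f.range))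
  have h4 := two_mul_nat_card_alternatingGroup (α := Ω)
  rw [Nat.card_eq_fintype_card (α := Perm Ω), Fintype.card_perm] at h4
  omega

theorem MinC.exists_sec [Finite H] (hπ : MinC π) (h : ¬ π.ker ≤ center H) :
    ∃ (s : ℕ) (R : Subgroup H), s.Prime ∧ R.Normal ∧ R ≤ π.ker ∧ ¬ R ≤ center H ∧ IsPGroup s R ∧
      ⁅R, R⁆ ≤ center H ∧ (∀ x ∈ R, x ^ s ∈ center H) ∧
      (R ≤ centralizer R ∨ R ⊓ centralizer R ≤ center H) := by
  obtain ⟨R, ⟨hR1, hR2, hR3⟩, hmin⟩ := exists_minimal_of_wellFoundedLT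
    (fun R : Subgroup H => R.Normal ∧ R ≤ π.ker ∧ ¬ R ≤ center H) ⟨π.ker, inferInstance, le_rfl, h⟩
  have hm : ∀ N : Subgroup H, N.Normal → N ≤ R → N ≤ center H ∨ R ≤ N := fun N h1 h2 => by
    by_cases h3 : N ≤ center H
    · exact Or.inl h3
    · exact Or.inr (hmin ⟨h1, h2.trans hR2, h3⟩ h2)
  obtain ⟨s, hs, hd⟩ := Nat.exists_prime_and_dvd (n := ((center H).subgroupOf R).index)
    (by rw [Ne, index_eq_one, subgroupOf_eq_top]; exact hR3)
  haveI := Fact.mk hs
  obtain ⟨P⟩ : Nonempty (Sylow s R) := inferInstance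
  have hP : (P.1.map R.subtype).Normal := by
    rw [← normalizer_eq_top_iff]
    refine hπ.min _ fun σ hσ => ?_
    obtain ⟨g, rfl⟩ := hπ.surj σ hσ
    have : g ∈ normalizer (P.1.map R.subtype : Set H) ⊔ R := by
      rw [P.normalizer_sup_eq_top]; trivial
    obtain ⟨a, ha, b, hb, rfl⟩ := mem_sup_of_normal_right.1 this
    exact ⟨a, ha, by rw [map_mul, hR2 hb, mul_one]⟩
  have hp : IsPGroup s R := by
    rcases hm _ hP (map_subtype_le _) with h1 | h1
    · exact absurd (hd.trans (index_dvd_of_le (map_le_iff_le_comap.1 h1))) P.not_dvd_index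
    · exact (P.isPGroup'.map _).to_le h1
  have hc : ⁅R, R⁆ ≤ center H := by
    refine (hm _ inferInstance (commutator_le_left _ _)).resolve_right fun h1 => ?_
    haveI : Nontrivial R := (nontrivial_iff_ne_bot R).2 fun e => hR3 (e ▸ bot_le)
    haveI := hp.isNilpotent
    have h2 := Group.IsSolvable.commutator_lt_top_of_nontrivial R
    rw [← map_subtype_lt_map_subtype, map_subtype_commutator, ← MonoidHom.range_eq_map,
      range_subtype] at h2
    exact h2.not_ge h1
  refine ⟨s, R, hs, hR1, hR2, hR3, hp, hc, ?_, ?_⟩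
  · let q := QuotientGroup.mk' (center H)
    have hq : ∀ x, q x = 1 ↔ x ∈ center H := fun x => QuotientGroup.eq_one_iff x
    have hcm : ∀ x ∈ R, ∀ y ∈ R, Commute (q x) (q y) := fun x hx y hy => by
      rw [← commutatorElement_eq_one_iff_commute, ← map_commutatorElement, hq]
      exact hc (commutator_mem_commutator hx hy)
    let N : Subgroup H :=
      { carrier := {x | x ∈ R ∧ q x ^ s = 1}
        one_mem' := ⟨one_mem _, by simp⟩
        mul_mem' := fun {a b} ha hb => ⟨mul_mem ha.1 hb.1, by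
          rw [map_mul, (hcm a ha.1 b hb.1).mul_pow, ha.2, hb.2, one_mul]⟩
        inv_mem' := fun {a} ha => ⟨inv_mem ha.1, by rw [map_inv, inv_pow, ha.2, inv_one]⟩ }
    have hN : N.Normal := ⟨fun n hn g => ⟨hR1.conj_mem n hn.1 g, by
      rw [map_mul, map_mul, map_inv, conj_pow, hn.2]; group⟩⟩
    rcases hm N hN (fun x hx => hx.1) with h1 | h1
    · exfalso
      have h2 : s ∣ Nat.card (R.map q) := by
        refine ((hp.map q).card_eq_or_dvd).resolve_left fun h3 => hR3 fun x hx => ?_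
        have h4 : q x ∈ R.map q := ⟨x, hx, rfl⟩
        rwa [card_eq_one.1 h3, mem_bot, hq] at h4
      obtain ⟨⟨_, x, hx, rfl⟩, ha⟩ := exists_prime_orderOf_dvd_card' s h2
      rw [← orderOf_coe] at ha
      change orderOf (q x) = s at ha
      have h3 : x ∈ center H := h1 ⟨hx, by rw [← ha]; exact pow_orderOf_eq_one _⟩
      rw [show q x = 1 from (hq x).2 h3, orderOf_one] at ha
      exact hs.one_lt.ne ha
    · intro x hx
      rw [← hq, map_pow]
      exact (h1 hx).2
  · exact (hm _ inferInstance inf_le_left).symm.imp_left fun h => h.trans inf_le_right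

end Grp

section Lin

variable {k V : Type*} [Field k] [AddCommGroup V] [Module k V]

theorem exists_joint_eig [IsAlgClosed k] [FiniteDimensional k V] [Nontrivial V] {ι : Type*}
    (A : ι → End k V) (hc : ∀ i j, Commute (A i) (A j)) :
    ∃ (χ : ι → k) (v : V), v ≠ 0 ∧ ∀ i, A i v = χ i • v := by
  obtain ⟨U, ⟨hU1, hU2⟩, hmin⟩ := exists_minimal_of_wellFoundedLT
    (fun U : Submodule k V => U ≠ ⊥ ∧ ∀ i, ∀ v ∈ U, A i v ∈ U) ⟨⊤, top_ne_bot, by simp⟩
  haveI : Nontrivial U := Submodule.nontrivial_iff_ne_bot.2 hU1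
  have key : ∀ i, ∃ μ : k, ∀ v ∈ U, A i v = μ • v := fun i => by
    obtain ⟨μ, hμ⟩ := exists_eigenvalue ((A i).restrict (hU2 i))
    obtain ⟨⟨w, hw⟩, h1, h2⟩ := hμ.exists_hasEigenvector
    have h3 : U ≤ U ⊓ eigenspace (A i) μ := hmin ⟨fun e => h2 (Subtype.ext ?_), fun j v hv =>
      ⟨hU2 j v hv.1, ?_⟩⟩ inf_le_left
    · exact ⟨μ, fun v hv => mem_eigenspace_iff.1 (h3 hv).2⟩
    · have : w ∈ U ⊓ eigenspace (A i) μ :=
        ⟨hw, mem_eigenspace_iff.2 (congrArg Subtype.val (mem_eigenspace_iff.1 h1))⟩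
      rwa [e] at this
    · have := mem_eigenspace_iff.1 hv.2
      change _ ∈ eigenspace (A i) μ
      rw [mem_eigenspace_iff, ← End.mul_apply, (hc i j).eq, End.mul_apply, this, map_smul]
  choose χ hχ using key
  obtain ⟨v, hv, h0⟩ := Submodule.exists_mem_ne_zero_of_ne_bot hU1
  exact ⟨χ, v, h0, fun i => hχ i v hv⟩

variable {H : Type*} [Group H] {ρ : Representation k H V}

/-- Irreducibility. -/
def Irr (ρ : Representation k H V) : Prop :=
  ∀ W : Submodule k V, (∀ g, W ≤ W.comap (ρ g)) → W = ⊥ ∨ W = ⊤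

theorem Irr.scalar_of_eig (hρ : Irr ρ) {z : H} (hz : z ∈ center H) {μ : k} {v : V} (h0 : v ≠ 0)
    (hv : ρ z v = μ • v) (w : V) : ρ z w = μ • w := by
  have := (hρ (eigenspace (ρ z) μ) fun g u hu => by
    rw [Submodule.mem_comap, mem_eigenspace_iff, ← End.mul_apply, ← map_mul,
      ← mem_center_iff.1 hz, map_mul, End.mul_apply, mem_eigenspace_iff.1 hu,
      map_smul]).resolve_left fun e => h0 (by rw [← Submodule.mem_bot k, ← e, mem_eigenspace_iff, hv])
  rw [← mem_eigenspace_iff, this]; trivial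

theorem Irr.scalar [IsAlgClosed k] [FiniteDimensional k V] [Nontrivial V] (hρ : Irr ρ) {z : H}
    (hz : z ∈ center H) : ∃ μ : k, ρ z = μ • 1 := by
  obtain ⟨μ, hμ⟩ := exists_eigenvalue (ρ z)
  obtain ⟨v, h1, h2⟩ := hμ.exists_hasEigenvector
  exact ⟨μ, LinearMap.ext (hρ.scalar_of_eig hz h2 (mem_eigenspace_iff.1 h1))⟩

theorem Irr.card_le_sq [IsAlgClosed k] [FiniteDimensional k V] [Nontrivial V] [Finite H]
    (hρ : Irr ρ) (hi : Function.Injective ρ) {R : Subgroup H} (hc : ⁅R, R⁆ ≤ center H)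
    (hZ : R ⊓ centralizer R ≤ center H) :
    Nat.card (R.map (QuotientGroup.mk' (center H))) ≤ finrank k V ^ 2 := by
  choose x hx hx' using fun a : R.map (QuotientGroup.mk' (center H)) => a.2
  choose c hc using fun (g : R) (a : R.map (QuotientGroup.mk' (center H))) =>
    hρ.scalar (hc (commutator_mem_commutator g.2 (hx a)))
  have := card_wt_le (V := End k V) (J := R.map (QuotientGroup.mk' (center H)))
    (fun g : R => (LinearMap.mulLeft k (ρ g)).comp (LinearMap.mulRight k (ρ g⁻¹)))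
    (fun a g => c g a) (fun a b hab => ?_) fun a => ⟨ρ (x a), fun e => ?_, fun g => ?_⟩
  · rwa [finrank_linearMap, ← pow_two] at this
  · have h1 : (x b)⁻¹ * x a ∈ center H := hZ ⟨R.mul_mem (R.inv_mem (hx b)) (hx a), fun g hg => by
      have h2 : g * x a * g⁻¹ * (x a)⁻¹ = g * x b * g⁻¹ * (x b)⁻¹ := hi (by
        have e1 := hc ⟨g, hg⟩ a
        have e2 := hc ⟨g, hg⟩ b
        rw [show c ⟨g, hg⟩ a = c ⟨g, hg⟩ b from congrFun hab _, ← e2] at e1
        exact e1)
      calc g * ((x b)⁻¹ * x a)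
          = g * (x b)⁻¹ * g⁻¹ * (g * x a * g⁻¹ * (x a)⁻¹) * x a * g := by group
        _ = _ := by rw [h2]; group⟩
    apply Subtype.ext
    rw [← hx' a, ← hx' b]
    exact (QuotientGroup.eq.2 h1).symm
  · obtain ⟨v, hv⟩ := exists_ne (0 : V)
    exact hv (by rw [← ρ.inv_self_apply (x a) v, e]; simp)
  · have := hc g a
    simp only [LinearMap.comp_apply, LinearMap.mulLeft_apply, LinearMap.mulRight_apply]
    rw [← one_mul (ρ (x a)), ← smul_mul_assoc, ← this, one_mul, ← map_mul, ← map_mul, ← map_mul,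
      commutatorElement_def]
    congr 1; group

end Lin

theorem exists_glRep {F k H : Type*} [Field F] [Field k] [Group H] (φ : F →+* k) {d : ℕ}
    (f : H →* GL (Fin d) F) : ∃ ρ : Representation k H (Fin d → k), ρ.ker = f.ker := by
  let ψ : Matrix (Fin d) (Fin d) F →* End k (Fin d → k) :=
    (Matrix.toLinAlgEquiv' (R := k) (n := Fin d)).toRingEquiv.toRingHom.toMonoidHom.comp
      φ.mapMatrix.toMonoidHom
  have hψ : Function.Injective ψ := (Matrix.toLinAlgEquiv' (R := k) (n := Fin d)).injective.comp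
    (Matrix.map_injective φ.injective)
  refine ⟨ψ.comp ((Units.coeHom _).comp f), ?_⟩
  ext h
  simp only [MonoidHom.mem_ker, MonoidHom.comp_apply]
  rw [← map_one ψ, hψ.eq_iff, Units.coeHom_apply, Units.val_eq_one]

/-- The degree bound for the representations of `H` whose kernel lies in the kernel of a map onto
an alternating group. -/
def Claim (H : Type) [Group H] : Prop :=
  ∀ (Ω : Type) [Fintype Ω] [DecidableEq Ω] (π : H →* Perm Ω) (k V : Type) [Field k] [IsAlgClosed k]
    [AddCommGroup V] [Module k V] [FiniteDimensional k V] (ρ : Representation k H V),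
    9 ≤ Fintype.card Ω → (∀ h, sign (π h) = 1) → (∀ σ, sign σ = 1 → ∃ h, π h = σ) →
      ρ.ker ≤ π.ker → Bd k (Fintype.card Ω) (finrank k V)

/-- The bound for the groups of smaller order. -/
def IH (H : Type) : Prop :=
  ∀ (G : Type) [Group G] [Finite G], Nat.card G < Nat.card H → Claim G

variable {Ω : Type} [Fintype Ω] [DecidableEq Ω] {H : Type} [Group H] [Finite H] {π : H →* Perm Ω}
  {k V : Type} [Field k] [IsAlgClosed k] [AddCommGroup V] [Module k V] [FiniteDimensional k V]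
  {ρ : Representation k H V}

theorem card_lt_of_ne_top {M : Subgroup H} (h : M ≠ ⊤) : Nat.card M < Nat.card H :=
  lt_of_le_of_ne (card_le_card_group M) fun e => h (eq_top_of_card_eq M e)

theorem IH.quot (ih : IH H) (hπ : MinC π) (h9 : 9 ≤ Fintype.card Ω) (hk : ρ.ker ≤ π.ker)
    (hb : ρ.ker ≠ ⊥) : Bd k (Fintype.card Ω) (finrank k V) := by
  refine ih (H ⧸ ρ.ker) ?_ Ω (QuotientGroup.lift _ π hk) k V (QuotientGroup.lift _ ρ le_rfl) h9
    (fun h => ?_) (fun σ hσ => ?_) fun h hh => ?_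
  · rw [card_eq_card_quotient_mul_card_subgroup ρ.ker]
    exact lt_mul_of_one_lt_right Nat.card_pos ((one_lt_card_iff_ne_bot _).2 hb)
  · obtain ⟨h, rfl⟩ := QuotientGroup.mk_surjective h
    exact hπ.even h
  · obtain ⟨h, rfl⟩ := hπ.surj σ hσ
    exact ⟨h, rfl⟩
  · obtain ⟨h, rfl⟩ := QuotientGroup.mk_surjective h
    exact hk hh

theorem IH.rel3 (ih : IH H) (hπ : CE π) {s : ℕ} (hs : s.Prime) (ho : Odd s) (hsk : (s : k) ≠ 0)
    (hr : s + 9 ≤ Fintype.card Ω) (hn : finrank k V < (s - 1) * (Fintype.card Ω - s - 2)) :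
    Rel3 ρ π := by
  have h2 := hs.two_le
  obtain ⟨x, hx, -⟩ := hπ.exists_cyc_fx ho h2 (by omega) (S := ∅) (by simp; omega)
  refine hπ.rel3_of_eig (by omega) hsk (by omega) hx fun μ h1 h2 => ?_
  let M : Subgroup H :=
    { carrier := {h | Fx (π x).support (π h)}
      one_mem' := fun a _ => by simp
      mul_mem' := fun {a b} ha hb => by simpa using Fx.mul ha hb
      inv_mem' := fun {a} ha => by simpa using Fx.inv ha }
  choose t ht using fun h : M => Fx.exists_ofSubtype h.2
  let π' : M →* Perm {a // a ∉ (π x).support} := MonoidHom.mk' t fun a b =>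
    ofSubtype_injective (by simp [ht])
  have hS : (π x).support.card + 5 ≤ Fintype.card Ω := by rw [hx.card]; omega
  have hst : ∀ g : M, eigenspace (ρ x) μ ≤ (eigenspace (ρ x) μ).comap (ρ.comp M.subtype g) := by
    intro g w hw
    rw [Submodule.mem_comap, mem_eigenspace_iff]
    change ρ x (ρ g w) = μ • ρ g w
    rw [← End.mul_apply, ← map_mul, ← (hπ.commute_of_fx hS g.2).eq, map_mul, End.mul_apply,
      mem_eigenspace_iff.1 hw, map_smul]
  by_contra hh
  have hM : M ≠ ⊤ := fun e => by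
    obtain ⟨a, ha, -⟩ := hx.cyc
    exact ha ((show x ∈ M by rw [e]; trivial) a (mem_support.2 ha))
  have hb := (ih M (card_lt_of_ne_top hM) _ π' k _
    (Representation.subrepresentation (ρ.comp M.subtype) _ hst)
    (by rw [card_compl_subtype, hx.card]; omega)
    (fun h => by rw [← sign_ofSubtype, show ofSubtype (π' h) = π h from ht h, hπ.even])
    (fun σ hσ => by
      obtain ⟨h, e⟩ := hπ.surj (ofSubtype σ) (by simpa using hσ)
      exact ⟨⟨h, show Fx _ _ from e ▸ fx_ofSubtype σ⟩, ofSubtype_injective ((ht _).trans e)⟩)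
    fun u hu => by_contra fun hu' => hh ⟨u, u.2, fun e => hu' (ofSubtype_injective (by
      rw [map_one, ← e]; exact ht u)), fun v hv =>
        congrArg Subtype.val (LinearMap.congr_fun (MonoidHom.mem_ker.1 hu) ⟨v, hv⟩)⟩).le
  rw [card_compl_subtype, hx.card] at hb
  have h3 := hπ.finrank_eig_le (ρ := ρ) hs ho (hπ.rigid_of_le (by omega)) (by omega) hx h1 h2
  have h4 : (s - 1) * (Fintype.card Ω - s - 2) ≤ (s - 1) * finrank k (eigenspace (ρ x) μ) :=
    Nat.mul_le_mul_left _ (by omega)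
  omega

theorem IH.central (ih : IH H) (hπ : CE π) (h9 : 9 ≤ Fintype.card Ω) (hi : Function.Injective ρ)
    (hρ : Irr ρ) : Bd k (Fintype.card Ω) (finrank k V) := by
  by_contra hB
  refine hB (hπ.bd_of_rel3 h9 hi (fun z hz v h0 hv => hi ?_) ?_)
  · ext w
    simpa using hρ.scalar_of_eig (μ := 1) (mem_center_iff.2 (hπ.cen z hz)) h0 (by simpa) w
  rw [Bd, not_or, not_and] at hB
  obtain ⟨h1, h2⟩ := hB
  have c35 : ((5 : ℕ) : k) = 0 → ((3 : ℕ) : k) ≠ 0 := fun a b => by
    push_cast at a b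
    exact one_ne_zero (show (1 : k) = 0 by linear_combination 2 * b - a)
  have c57 : ((5 : ℕ) : k) = 0 → ((7 : ℕ) : k) ≠ 0 := fun a b => by
    push_cast at a b
    exact one_ne_zero (show (1 : k) = 0 by linear_combination 3 * a - 2 * b)
  by_cases h5 : ((5 : ℕ) : k) = 0
  · by_cases e1 : 12 ≤ Fintype.card Ω
    · exact ih.rel3 hπ Nat.prime_three (by decide) (c35 h5) e1 (by omega)
    by_cases e2 : Fintype.card Ω = 11
    · exact hπ.rel3_of_four (by decide) (by decide) (c57 h5) e2.symm (by omega)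
    refine hπ.rel3_of_nine h9 (c35 h5) ?_
    by_cases e3 : Fintype.card Ω = 10
    · have := h2 (by
        rw [e3]
        push_cast at h5 ⊢
        linear_combination 2 * h5)
      omega
    · omega
  · by_cases e1 : 14 ≤ Fintype.card Ω
    · exact ih.rel3 hπ Nat.prime_five (by decide) h5 e1 (by omega)
    by_cases e2 : Fintype.card Ω = 9
    · exact hπ.rel3_of_four Nat.prime_five le_rfl h5 e2.symm (by omega)
    exact hπ.rel3_of_ten (by omega) h5 (by omega)

omit [Finite H] in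
theorem MinC.abelian [Nontrivial V] (hπ : MinC π) (h9 : 9 ≤ Fintype.card Ω)
    (hi : Function.Injective ρ) (hρ : Irr ρ) {R : Subgroup H} [hR : R.Normal]
    (h1 : ¬ R ≤ center H) (h2 : R ≤ centralizer R) : Fintype.card Ω ≤ finrank k V + 1 := by
  let Λ := {χ : R → k // ∃ v, v ≠ 0 ∧ ∀ x : R, ρ x v = χ x • v}
  let _ : MulAction H Λ :=
    { smul := fun h χ => ⟨fun x => χ.1 ⟨h⁻¹ * x * h, hR.conj_mem' _ x.2 h⟩, by
        obtain ⟨v, h0, hv⟩ := χ.2
        refine ⟨ρ h v, fun e => h0 (by simpa using congrArg (ρ h⁻¹) e), fun x => ?_⟩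
        rw [← map_smul, ← hv]
        simp⟩
      one_smul := fun χ => Subtype.ext (funext fun x => congrArg χ.1 (Subtype.ext (by simp)))
      mul_smul := fun g h χ => Subtype.ext (funext fun x => congrArg χ.1 (Subtype.ext (by
        simp [mul_assoc]))) }
  haveI : Finite Λ := by
    choose v hv0 hv using fun χ : Λ => χ.2
    exact (wt_linearIndependent (fun x : R => ρ x) Subtype.val Subtype.val_injective v hv0
      hv).finite_of_isNoetherian
  have hle := card_wt_le (J := Λ) (fun x : R => ρ x) Subtype.val Subtype.val_injective fun χ => χ.2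
  rcases hπ.normal (by omega) (MulAction.toPermHom H Λ).ker with h | h
  · have h3 := hπ.factorial_le (by omega) _ h
    rw [Nat.card_perm] at h3
    by_contra h4
    obtain ⟨m, hm⟩ : ∃ m, Fintype.card Ω = m + 2 := ⟨Fintype.card Ω - 2, by omega⟩
    have h5 := Nat.factorial_le (show Nat.card Λ ≤ m by omega)
    rw [hm, Nat.factorial_succ, Nat.factorial_succ] at h3
    have h6 := Nat.factorial_pos m
    have h7 : 3 * m.factorial ≤ (m + 1 + 1) * ((m + 1) * m.factorial) :=
      Nat.mul_le_mul (by omega) (Nat.le_mul_of_pos_left _ (by omega))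
    omega
  · exfalso
    obtain ⟨χ, v, h0, hv⟩ := exists_joint_eig (fun x : R => ρ x) fun x y =>
      Commute.map (h2 y.2 x x.2) ρ
    have hfix : ∀ h : H, ∀ x : R, χ ⟨h⁻¹ * x * h, hR.conj_mem' _ x.2 h⟩ = χ x := fun g x => by
      have : g ∈ (MulAction.toPermHom H Λ).ker := by rw [h]; trivial
      exact congrFun (congrArg Subtype.val
        (DFunLike.congr_fun (MonoidHom.mem_ker.1 this) ⟨χ, v, h0, hv⟩)) x
    have := (hρ (⨅ x : R, eigenspace (ρ x) (χ x)) fun g u hu => by
      simp only [Submodule.mem_comap, Submodule.mem_iInf, mem_eigenspace_iff] at hu ⊢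
      intro x
      rw [← hfix g x, ← map_smul, ← hu]
      simp).resolve_left fun e => h0 (by
        rw [← Submodule.mem_bot k, ← e]
        simpa using hv)
    refine h1 fun x hx => mem_center_iff.2 fun g => hi ?_
    have h3 : ∀ w, ρ x w = χ ⟨x, hx⟩ • w := fun w => by
      have hw : w ∈ ⨅ x : R, eigenspace (ρ x) (χ x) := by rw [this]; trivial
      exact mem_eigenspace_iff.1 ((Submodule.mem_iInf _).1 hw ⟨x, hx⟩)
    ext w
    simp [h3]

theorem sq_lt_two_pow {d : ℕ} (h : 5 ≤ d) : d ^ 2 < 2 ^ d := by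
  induction d, h using Nat.le_induction with
  | base => norm_num
  | succ d h ih => rw [pow_succ 2]; nlinarith

theorem IH.noncentral [Nontrivial V] (ih : IH H) (hπ : MinC π) (h9 : 9 ≤ Fintype.card Ω)
    (hi : Function.Injective ρ) (hρ : Irr ρ) (h : ¬ π.ker ≤ center H) :
    Fintype.card Ω ≤ finrank k V + 1 := by
  obtain ⟨s, R, hs, hR, h1, h2, h3, h4, h5, h6 | h6⟩ := hπ.exists_sec h
  · exact hπ.abelian h9 hi hρ h2 h6
  haveI := Fact.mk hs
  have hsq := hρ.card_le_sq hi h4 h6
  set q := QuotientGroup.mk' (center H)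
  have hq : ∀ x, q x = 1 ↔ x ∈ center H := fun x => QuotientGroup.eq_one_iff x
  haveI : (R.map q).Normal := hR.map _ (QuotientGroup.mk'_surjective _)
  obtain ⟨d, hd⟩ := (h3.map q).exists_card_eq
  have hcm : ∀ x ∈ R, ∀ y ∈ R, q x * q y = q y * q x := fun x hx y hy => by
    rw [← commutatorElement_eq_one_iff_mul_comm, ← map_commutatorElement, hq]
    exact h4 (commutator_mem_commutator hx hy)
  obtain ⟨f, hf⟩ := Misc.AutElem.exists_injective_GL (V := R.map q) (p := s)
    (by rintro ⟨_, x, hx, rfl⟩ ⟨_, y, hy, rfl⟩; exact Subtype.ext (hcm x hx y hy))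
    (by rintro ⟨_, x, hx, rfl⟩; exact Subtype.ext (by simpa [← map_pow, hq] using h5 x hx)) hd.le
  obtain ⟨τ, hτ⟩ := exists_glRep (algebraMap (ZMod s) (AlgebraicClosure (ZMod s)))
    (f.comp ((MulAut.conjNormal (H := R.map q)).comp q))
  have hker : ∀ g, g ∈ τ.ker ↔ ∀ x ∈ R, q g * q x = q x * q g := fun g => by
    rw [hτ, MonoidHom.mem_ker, MonoidHom.comp_apply, map_eq_one_iff f hf]
    constructor
    · intro e x hx
      have := congrArg Subtype.val (DFunLike.congr_fun e ⟨q x, x, hx, rfl⟩)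
      exact mul_inv_eq_iff_eq_mul.1 this
    · intro e
      ext ⟨_, x, hx, rfl⟩
      exact mul_inv_eq_iff_eq_mul.2 (e x hx)
  have hb := (ih.quot hπ h9 (ρ := τ) ((hπ.normal (by omega) _).resolve_right fun e => h2
    (hπ.le_center (by omega) (commutator_le.2 fun x hx g _ => by
      rw [← hq, map_commutatorElement, commutatorElement_eq_one_iff_mul_comm]
      exact ((hker g).1 (by rw [e]; trivial) x hx).symm)))
    fun e => h2 fun x hx => by
      have : x ∈ τ.ker := (hker x).2 fun y hy => hcm x hx y hy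
      rw [e, mem_bot] at this
      rw [this]; exact one_mem _).le
  rw [finrank_fin_fun] at hb
  by_contra h7
  have e1 := sq_lt_two_pow (show 5 ≤ d by omega)
  have e2 : 2 ^ d ≤ s ^ d := Nat.pow_le_pow_left hs.two_le d
  have e3 : finrank k V ^ 2 ≤ d ^ 2 := Nat.pow_le_pow_left (by omega) 2
  omega

theorem IH.claim (ih : IH H) : Claim H := by
  intro Ω _ _ π k V _ _ _ _ _ ρ h9 he hs hk
  by_cases hmin : ∀ M : Subgroup H, (∀ σ, sign σ = 1 → ∃ h ∈ M, π h = σ) → M = ⊤
  swap
  · push Not at hmin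
    obtain ⟨M, h1, h2⟩ := hmin
    exact ih M (card_lt_of_ne_top h2) Ω (π.comp M.subtype) k V (ρ.comp M.subtype) h9
      (fun h => he h) (fun σ hσ => by simpa using h1 σ hσ) fun h hh => hk hh
  have hπ : MinC π := ⟨he, hs, hmin⟩
  obtain ⟨a, b, hab⟩ := hπ.exists_comm (by omega)
  induction hn : finrank k V using Nat.strong_induction_on generalizing V with
  | _ n ihn =>
  subst hn
  by_cases hρ : Irr ρ
  · by_cases hb : ρ.ker = ⊥
    swap
    · exact ih.quot hπ h9 hk hb
    have hi := ρ.ker_eq_bot_iff.1 hb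
    haveI : Nontrivial V := by
      by_contra hV
      rw [not_nontrivial_iff_subsingleton] at hV
      exact hab (hk (Subsingleton.elim _ _))
    by_cases hc : π.ker ≤ center H
    · exact ih.central ⟨he, hs, fun z hz => mem_center_iff.1 (hc hz)⟩ h9 hi hρ
    · exact Or.inl (ih.noncentral hπ h9 hi hρ hc)
  rw [Irr] at hρ
  push Not at hρ
  obtain ⟨W, hW, h1, h2⟩ := hρ
  have e := W.finrank_quotient_add_finrank
  have e1 := Submodule.finrank_lt h2
  have e2 : finrank k W ≠ 0 := fun h => h1 (Submodule.finrank_eq_zero.1 h)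
  rcases hπ.normal (by omega) (ρ.subrepresentation W hW).ker with h3 | h3
  · exact (ihn _ e1 W _ h3 rfl).mono e1.le
  rcases hπ.normal (by omega) (ρ.quotient W hW).ker with h4 | h4
  · exact (ihn _ (by omega) (V ⧸ W) _ h4 rfl).mono (by omega)
  have h5 : ∀ g h v, ρ g (ρ h v) = ρ g v + ρ h v - v := fun g h v => by
    have a1 : h ∈ (ρ.quotient W hW).ker := by rw [h4]; trivial
    have a2 : g ∈ (ρ.subrepresentation W hW).ker := by rw [h3]; trivial
    have a3 : ρ h v - v ∈ W := (Submodule.Quotient.eq W).1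
      (LinearMap.congr_fun (MonoidHom.mem_ker.1 a1) (Submodule.Quotient.mk v))
    have a4 : ρ g (ρ h v - v) = ρ h v - v :=
      congrArg Subtype.val (LinearMap.congr_fun (MonoidHom.mem_ker.1 a2) ⟨_, a3⟩)
    rw [map_sub, sub_eq_iff_eq_add] at a4
    rw [a4]; abel
  have h6 : ρ (a * b) = ρ (b * a) := by
    ext v
    simp only [map_mul, End.mul_apply, h5 a b, h5 b a, add_comm]
  refine absurd (hk ?_) hab
  rw [MonoidHom.mem_ker, mul_assoc, ← mul_inv_rev, map_mul, h6, ← map_mul, mul_inv_cancel, map_one]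

theorem claim (H : Type) [Group H] [Finite H] : Claim H := by
  induction hn : Nat.card H using Nat.strong_induction_on generalizing H with
  | _ n ihn => exact IH.claim fun G _ _ hG => ihn _ (hn ▸ hG) G rfl

end Cfsg.Agent.KSG.AltW
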