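import Mathlib

/-!
# The number of coprime pairs of monic polynomials of the same degree
-/

set_option autoImplicit false

namespace Cfsg.Agent.KSG

open Polynomial

variable {F : Type*} [Field F]

/-- Monic polynomials of degree `n`. -/
abbrev Mon (F : Type*) [Field F] (n : ℕ) := {f : F[X] // f.Monic ∧ f.natDegree = n}

/-- Coordinates of a monic polynomial. -/
noncomputable def monEquiv (n : ℕ) : Mon F n ≃ (Fin n → F) :=
  (monicEquivDegreeLT n).trans (degreeLTEquiv F n).toEquiv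

instance finite_Mon [Finite F] (n : ℕ) : Finite (Mon F n) := .of_equiv _ (monEquiv n).symm

theorem card_Mon (n : ℕ) : Nat.card (Mon F n) = Nat.card F ^ n := by
  simp [Nat.card_congr (monEquiv n), Nat.card_fun]

/-- Coprime pairs of monic polynomials of degree `n`. -/
abbrev Cop (F : Type*) [Field F] (n : ℕ) := {x : Mon F n × Mon F n // IsCoprime x.1.1 x.2.1}

theorem sum_Cop [Finite F] (n : ℕ) :
    ∑ x ∈ Finset.HasAntidiagonal.antidiagonal n, Nat.card F ^ x.1 * Nat.card (Cop F x.2) = Nat.card F ^ (2 * n) := by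
  classical
  rw [two_mul, pow_add, ← card_Mon, ← Nat.card_prod, ← Finset.sum_coe_sort]
  simp only [← card_Mon, ← Nat.card_prod]
  have m : ∀ (k : Finset.HasAntidiagonal.antidiagonal n) (g : Mon F k.1.1) (f : Mon F k.1.2),
      (g.1 * f.1).Monic ∧ (g.1 * f.1).natDegree = n := fun k g f => ⟨g.2.1.mul f.2.1, by
    rw [g.2.1.natDegree_mul f.2.1, g.2.2, f.2.2, Finset.HasAntidiagonal.mem_antidiagonal.1 k.2]⟩
  rw [← Nat.card_sigma]
  refine Nat.card_eq_of_bijective (fun x => (⟨_, m x.1 x.2.1 x.2.2.1.1⟩, ⟨_, m x.1 x.2.1 x.2.2.1.2⟩))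
    ⟨?_, fun ⟨f, f'⟩ => ?_⟩
  · rintro ⟨⟨⟨_, _⟩, h⟩, ⟨g, hg, d⟩, ⟨⟨f, hf, d'⟩, ⟨f', hf'⟩⟩, c⟩
      ⟨⟨⟨_, _⟩, h1⟩, ⟨g1, hg1, d1⟩, ⟨⟨f1, hf1, d1'⟩, ⟨f1', hf1'⟩⟩, c1⟩ e
    simp only [Prod.mk.injEq, Subtype.mk.injEq] at e
    have k : ∀ {g f f' g1 f1 f1' : F[X]}, IsCoprime f f' → g * f = g1 * f1 → g * f' = g1 * f1' →
        g1 ∣ g := fun {g _ _ _ f1 f1'} ⟨a, b, h⟩ h1 h2 =>
      ⟨a * f1 + b * f1', by linear_combination a * h1 + b * h2 - g * h⟩
    obtain rfl := eq_of_monic_of_associated hg hg1 (associated_of_dvd_dvd (k c1 e.1.symm e.2.symm)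
      (k c e.1 e.2))
    obtain rfl := mul_left_cancel₀ hg.ne_zero e.1
    obtain rfl := mul_left_cancel₀ hg.ne_zero e.2
    obtain rfl := d.symm.trans d1
    obtain rfl := d'.symm.trans d1'
    rfl
  obtain ⟨a, b, h1, h2, h3⟩ := extract_gcd f.1 f'.1
  have hg : (gcd f.1 f'.1).Monic := by
    rw [← normalize_gcd]; exact monic_normalize (by simp [f.2.1.ne_zero])
  have ha := hg.of_mul_monic_left (h1 ▸ f.2.1)
  have hb := hg.of_mul_monic_left (h2 ▸ f'.2.1)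
  have d1 := hg.natDegree_mul ha
  have d2 := hg.natDegree_mul hb
  rw [← h1, f.2.2] at d1
  rw [← h2, f'.2.2] at d2
  exact ⟨⟨⟨(_, _), Finset.HasAntidiagonal.mem_antidiagonal.2 d1.symm⟩, ⟨_, hg, rfl⟩, (⟨a, ha, rfl⟩, ⟨b, hb,
    add_left_cancel (d2.symm.trans d1)⟩), (gcd_isUnit_iff a b).1 h3⟩, Prod.ext (Subtype.ext h1.symm) (Subtype.ext h2.symm)⟩

theorem card_Cop [Finite F] (n : ℕ) :
    Nat.card (Cop F (n + 1)) + Nat.card F ^ (2 * n + 1) = Nat.card F ^ (2 * n + 2) := by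
  have := sum_Cop (F := F) (n + 1)
  simpa [Finset.Nat.sum_antidiagonal_succ, pow_succ', mul_assoc, ← Finset.mul_sum, sum_Cop, mul_add]
    using this

end Cfsg.Agent.KSG
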