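import Mathlib
import Cfsg.Agent.KSG.GLFlag
import Cfsg.Agent.KSG.SimMatrix
import Cfsg.Agent.Char.InducedRep

/-!
# Families of class functions on all `GL_n(F)` and Harish-Chandra restriction
-/

set_option autoImplicit false
set_option linter.unusedSectionVars false

namespace Cfsg.Agent.KSG.HC

open Matrix Cfsg Cfsg.Agent.Char Cfsg.Agent.KSG.GLn
open scoped ComplexConjugate

variable {F : Type*} [Field F] {ι κ α β γ α' β' : Type} [Fintype ι] [DecidableEq ι] [Fintype κ]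
  [DecidableEq κ] [Fintype α] [DecidableEq α] [Fintype β] [DecidableEq β] [Fintype γ] [DecidableEq γ]
  [Fintype α'] [DecidableEq α'] [Fintype β'] [DecidableEq β']

/-- Functions on all general linear groups. -/
abbrev Fam (F : Type*) [Field F] := ∀ n : ℕ, GL (Fin n) F → ℂ

/-- Extension by zero to all matrices. -/
noncomputable def hat (χ : GL ι F → ℂ) : Matrix ι ι F → ℂ := Function.extend Units.val χ 0

@[simp] theorem hat_coe (χ : GL ι F → ℂ) (g : GL ι F) : hat χ g = χ g :=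
  Units.val_injective.extend_apply _ _ _

theorem hat_of_not (χ : GL ι F → ℂ) {A : Matrix ι ι F} (h : ¬IsUnit A) : hat χ A = 0 :=
  Function.extend_apply' _ _ _ h

theorem hat_mul_comm {χ : GL ι F → ℂ} (h : IsClassFunction _ χ) (A B : Matrix ι ι F) :
    hat χ (A * B) = hat χ (B * A) := by
  by_cases hA : IsUnit A ∧ IsUnit B
  · obtain ⟨⟨A, rfl⟩, B, rfl⟩ := hA
    rw [← Units.val_mul, ← Units.val_mul, hat_coe, hat_coe, h.mul_comm]
  · rw [hat_of_not, hat_of_not] <;> simpa [isUnit_iff_isUnit_det, and_comm] using hA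

theorem pm_conj (A : Matrix ι ι F) (w : Equiv.Perm ι) :
    (pm F w⁻¹ : GL ι F) * A * (pm F w : GL ι F) = A.submatrix w w := by
  ext i j; rw [mul_pm_apply, pm_mul_apply]; rfl

/-- Reindexing. -/
def rx (e : κ ≃ ι) : GL ι F ≃* GL κ F := Units.mapEquiv (reindexAlgEquiv F F e.symm).toMulEquiv

@[simp] theorem coe_rx (e : κ ≃ ι) (g : GL ι F) :
    (rx e g : Matrix κ κ F) = (g : Matrix ι ι F).submatrix e e := rfl

/-- Value of a family at a square matrix. -/
noncomputable def ev (Φ : Fam F) (A : Matrix ι ι F) : ℂ :=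
  hat (Φ _) (A.submatrix (Fintype.equivFin ι).symm (Fintype.equivFin ι).symm)

/-- Families of class functions. -/
def Cl (Φ : Fam F) : Prop := ∀ n, IsClassFunction _ (Φ n)

/-- Families of characters. -/
def Ch (Φ : Fam F) : Prop := ∀ n, IsCharacter _ (Φ n)

theorem Ch.cl {Φ : Fam F} (h : Ch Φ) : Cl Φ := fun n => (h n).isClassFunction

variable {Φ Ψ ρ σ : Fam F}

theorem ev_eq (h : Cl Φ) {n : ℕ} (e : Fin n ≃ ι) (A : Matrix ι ι F) :
    ev Φ A = hat (Φ n) (A.submatrix e e) := by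
  obtain rfl : n = Fintype.card ι := by simpa using Fintype.card_congr e
  have : A.submatrix e e = (A.submatrix (Fintype.equivFin ι).symm (Fintype.equivFin ι).symm).submatrix
    (e.trans (Fintype.equivFin ι)) (e.trans (Fintype.equivFin ι)) := by ext; simp
  rw [this, ← pm_conj, hat_mul_comm (h _), ← mul_assoc, ← Units.val_mul, ← map_mul, mul_inv_cancel,
    map_one, Units.val_one, one_mul, ev]

theorem ev_sub (h : Cl Φ) (e : κ ≃ ι) (A : Matrix ι ι F) : ev Φ (A.submatrix e e) = ev Φ A := by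
  rw [ev_eq h ((Fintype.equivFin κ).symm.trans e) A]; rfl

theorem ev_rx (h : Cl Φ) {n : ℕ} (e : Fin n ≃ ι) (g : GL ι F) : ev Φ g.1 = Φ n (rx e g) := by
  rw [ev_eq h e, ← coe_rx, hat_coe]

theorem ev_fin (h : Cl Φ) {n : ℕ} (g : GL (Fin n) F) : ev Φ g.1 = Φ n g := ev_rx h (.refl _) g

theorem ev_of_not {A : Matrix ι ι F} (h : ¬IsUnit A) : ev Φ A = 0 :=
  hat_of_not _ (by simpa [isUnit_iff_isUnit_det] using h)

theorem ev_mul_comm (h : Cl Φ) (A B : Matrix ι ι F) : ev Φ (A * B) = ev Φ (B * A) := by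
  rw [ev, ev, ← submatrix_mul_equiv _ _ _ (Fintype.equivFin ι).symm, hat_mul_comm (h _),
    submatrix_mul_equiv]

theorem ev_transpose (h : Cl Φ) (A : Matrix ι ι F) : ev Φ Aᵀ = ev Φ A := by
  obtain ⟨c, hc⟩ := isConj_transpose A
  rw [← c.mul_inv_cancel_right Aᵀ, ← hc.eq, ev_mul_comm h, c.inv_mul_cancel_left]

theorem ev_add (A : Matrix ι ι F) : ev (Φ + Ψ) A = ev Φ A + ev Ψ A := by
  by_cases h : IsUnit A
  · obtain ⟨g, rfl⟩ := h
    simp only [ev, ← coe_rx, hat_coe, Pi.add_apply]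
  · simp [ev_of_not h]

theorem Cl.ev (h : Cl Φ) (ι : Type) [Fintype ι] [DecidableEq ι] :
    IsClassFunction _ fun g : GL ι F => ev Φ g.1 := fun g k => by
  beta_reduce
  rw [Units.val_mul, ev_mul_comm h, ← Units.val_mul, inv_mul_cancel_left]

theorem Ch.ev (h : Ch Φ) (ι : Type) [Fintype ι] [DecidableEq ι] :
    IsCharacter _ fun g : GL ι F => ev Φ g.1 := by
  simp only [ev_rx h.cl (Fintype.equivFin ι).symm]
  exact (h _).comp (rx (Fintype.equivFin ι).symm).toMonoidHom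

variable [Fintype F] [DecidableEq F]

theorem sum_GL {f : Matrix ι ι F → ℂ} (h : ∀ A, ¬IsUnit A → f A = 0) :
    ∑ g : GL ι F, f g = ∑ A, f A :=
  Finset.sum_of_injOn Units.val Units.val_injective.injOn (by simp)
    (fun A _ hA => h A fun ⟨g, e⟩ => hA ⟨g, by simp, e⟩) fun _ _ => rfl

theorem card_GL_congr (h : Fintype.card ι = Fintype.card κ) : Nat.card (GL ι F) = Nat.card (GL κ F) :=
  Nat.card_congr (rx (Fintype.equivOfCardEq h)).symm.toEquiv

theorem sum_ev_mul (h : Cl Φ) (h' : Cl Ψ) {n : ℕ} (e : Fintype.card ι = n) :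
    ∑ A : Matrix ι ι F, ev Φ A * conj (ev Ψ A) = Nat.card (GL ι F) * classInner (Φ n) (Ψ n) := by
  let e' := (Fintype.equivFinOfCardEq e).symm
  rw [← sum_GL fun A hA => by simp [ev_of_not hA], ← classInner_comp_mulEquiv (rx e'), ← sum_mul_conj_eq]
  simp only [ev_rx h e', ev_rx h' e']

theorem sum_fromCols {M : Type*} [AddCommMonoid M] (f : Matrix γ (α ⊕ β) F → M) :
    ∑ u, f u = ∑ x, ∑ y, f (fromCols x y) := by
  rw [← Fintype.sum_prod_type']
  exact (Fintype.sum_bijective (fun p : _ × _ => fromCols p.1 p.2) ⟨fun p p' h =>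
    Prod.ext (fromCols_inj h).1 (fromCols_inj h).2, fun u => ⟨(_, _), fromCols_toCols u⟩⟩ _ _
    fun _ => rfl).symm

theorem sum_fromRows {M : Type*} [AddCommMonoid M] (f : Matrix (α ⊕ β) γ F → M) :
    ∑ u, f u = ∑ x, ∑ y, f (fromRows x y) := by
  rw [← Fintype.sum_prod_type']
  exact (Fintype.sum_bijective (fun p : _ × _ => fromRows p.1 p.2) ⟨fun p p' h =>
    Prod.ext (fromRows_inj h).1 (fromRows_inj h).2, fun u => ⟨(_, _), fromRows_toRows u⟩⟩ _ _
    fun _ => rfl).symm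

theorem sum_fromBlocks (f : Matrix (α ⊕ β) (α ⊕ β) F → ℂ) :
    ∑ y, f y = ∑ c, ∑ b, ∑ u, ∑ x, f (fromBlocks c u x b) := by
  simp only [sum_fromRows f, sum_fromCols (γ := α) (α := α), sum_fromCols (γ := β) (α := α),
    fromRows_fromCols_eq_fromBlocks]
  exact Finset.sum_congr rfl fun c _ => (Finset.sum_congr rfl fun _ _ => Finset.sum_comm).trans
    Finset.sum_comm

theorem sum_par (f : Matrix (α ⊕ β) (α ⊕ β) F → ℂ) :
    ∑ y, (if y.toBlocks₂₁ = 0 then f y else 0) = ∑ c, ∑ b, ∑ u, f (fromBlocks c u 0 b) := by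
  rw [sum_fromBlocks]
  refine Finset.sum_congr rfl fun c _ => Finset.sum_congr rfl fun b _ => Finset.sum_congr rfl fun u _ => ?_
  exact (Finset.sum_eq_single 0 (fun x _ hx => if_neg hx) (by simp)).trans (if_pos rfl)

/-- Unnormalised Harish-Chandra restriction, paired with `ρ`. -/
noncomputable def S (ρ Φ : Fam F) (β : Type) [Fintype β] [DecidableEq β] (c : Matrix α α F) : ℂ :=
  ∑ b : Matrix β β F, ∑ u : Matrix α β F, ev Φ (fromBlocks c u 0 b) * conj (ev ρ b)

theorem S_sub (hρ : Cl ρ) (h : Cl Φ) (e : α' ≃ α) (e' : β' ≃ β) (c : Matrix α α F) :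
    S ρ Φ β' (c.submatrix e e) = S ρ Φ β c := by
  refine Fintype.sum_equiv (reindex e' e') _ _ fun b => Fintype.sum_equiv (reindex e e') _ _ fun u => ?_
  rw [reindex_apply e', ev_sub hρ, ← ev_sub h (e.sumCongr e')]
  congr 2
  ext (i | i) (j | j) <;> simp

theorem S_of_not {c : Matrix α α F} (h : ¬IsUnit c) : S ρ Φ β c = 0 := by
  simp [S, ev_of_not, isUnit_fromBlocks_zero₂₁, h]

theorem S_conj (h : Cl Φ) (c : Matrix α α F) (k : GL α F) : 
    S ρ Φ β (k.1 * c) = S ρ Φ β (c * k.1) := by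
  refine (Finset.sum_congr rfl fun b _ => Fintype.sum_bijective (fun u => (k : Matrix α α F) * u)
    ⟨fun u v e => by simpa [← Matrix.mul_assoc] using congrArg ((k⁻¹).1 * ·) e, fun u =>
      ⟨(k⁻¹).1 * u, by simp [← Matrix.mul_assoc]⟩⟩ _ _ fun u => ?_).symm
  have := ev_mul_comm h (fromBlocks c u 0 b) (fromBlocks k.1 0 0 1)
  simp only [fromBlocks_multiply] at this
  simpa using Or.inl this

theorem S_transpose (h : Cl Φ) (c : Matrix α α F) : S ρ Φ β cᵀ = S ρ Φ β c := by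
  obtain ⟨k, hc⟩ := isConj_transpose c
  rw [← k.mul_inv_cancel_right cᵀ, ← hc.eq, ← S_conj h, k.inv_mul_cancel_left]

theorem S_left (hρ : Cl ρ) (h : Cl Φ) (c : Matrix α α F) : S ρ Φ β c =
    ∑ b : Matrix β β F, ∑ u : Matrix β α F, ev Φ (fromBlocks b u 0 c) * conj (ev ρ b) := by
  rw [← S_transpose h]
  refine Fintype.sum_equiv (transposeAddEquiv _ _ _).toEquiv _ _ fun b =>
    Fintype.sum_equiv (transposeAddEquiv _ _ _).toEquiv _ _ fun u => ?_
  rw [← ev_transpose h, ← ev_sub h (Equiv.sumComm β α), ← ev_transpose hρ b]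
  congr 2
  ext (i | i) (j | j) <;> simp

/-- The normalising constant. -/
noncomputable def kk (F : Type*) [Field F] (a d : ℕ) : ℂ :=
  Nat.card (GL (Fin d) F) * (Nat.card F : ℂ) ^ (a * d)

theorem kk_ne (a d : ℕ) : kk F a d ≠ 0 :=
  mul_ne_zero (card_ne_zero _) (pow_ne_zero _ (Nat.cast_ne_zero.2 Nat.card_pos.ne'))

/-- Harish-Chandra restriction to `GL_n × GL_d`, paired with `ρ` in the second factor. -/
noncomputable def D (d : ℕ) (ρ Φ : Fam F) : Fam F := fun n c => (kk F n d)⁻¹ * S ρ Φ (Fin d) c.1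

theorem ev_D (hρ : Cl ρ) (h : Cl Φ) {d : ℕ} (hd : Fintype.card β = d) (c : Matrix α α F) :
    ev (D d ρ Φ) c = (kk F (Fintype.card α) d)⁻¹ * S ρ Φ β c := by
  by_cases hc : IsUnit c
  · obtain ⟨c, rfl⟩ := hc
    rw [ev, ← coe_rx, hat_coe, D, coe_rx, S_sub hρ h _ (Fintype.equivFinOfCardEq hd).symm]
  · simp [ev_of_not hc, S_of_not hc]

theorem Cl.D (h : Cl Φ) (d : ℕ) (ρ : Fam F) : Cl (D d ρ Φ) := fun n g k => by
  simp only [HC.D]
  rw [mul_assoc k, Units.val_mul, S_conj h, ← Units.val_mul, inv_mul_cancel_right]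

theorem D_comm {ρ' : Fam F} (hρ : Cl ρ) (hρ' : Cl ρ') (h : Cl Φ) (d d' : ℕ) :
    D d ρ (D d' ρ' Φ) = D d' ρ' (D d ρ Φ) := by
  funext n c
  rw [D, D, S_left hρ' (h.D _ _), S]
  simp only [ev_D hρ' h (Fintype.card_fin d'), ev_D hρ h (Fintype.card_fin d), mul_assoc,
    ← Finset.mul_sum, Fintype.card_sum, Fintype.card_fin]
  rw [← mul_assoc, ← mul_assoc, ← mul_inv, ← mul_inv]
  congr 1
  · simp only [kk]; ring
  simp only [S_left hρ' h, Finset.sum_mul]
  simp only [S, Finset.sum_mul, sum_fromCols (α := Fin n), sum_fromRows (α := Fin d')]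
  refine (Finset.sum_congr rfl fun b _ => Finset.sum_comm.trans (Finset.sum_congr rfl fun b' _ =>
    Finset.sum_comm)).trans (Finset.sum_comm.trans (Finset.sum_congr rfl fun b' _ =>
      Finset.sum_comm.trans (Finset.sum_congr rfl fun x _ => Finset.sum_congr rfl fun b _ =>
        Finset.sum_comm.trans (Finset.sum_congr rfl fun y _ => Finset.sum_congr rfl fun u _ => ?_))))
  rw [mul_right_comm, ← ev_sub h (Equiv.sumAssoc _ _ _)]
  congr 3
  ext ((i | i) | i) ((j | j) | j) <;> simp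

end Cfsg.Agent.KSG.HC
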