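import Mathlib
import Cfsg.Agent.KSG.HCFam

/-!
# Cuspidal support of irreducible characters of `GL_n(F)`
-/

set_option autoImplicit false
set_option linter.unusedSectionVars false

namespace Cfsg.Agent.KSG.HC

open Matrix Cfsg Cfsg.Agent.Char Cfsg.Agent.KSG.GLn
open scoped ComplexConjugate

section General
variable {G : Type*} [Group G] [Fintype G]

/-- Extension by zero of a character of a subgroup. -/
def IsExt (θ : G → ℂ) : Prop :=
  ∃ (H : Subgroup G) (θ₀ : H → ℂ), IsCharacter H θ₀ ∧ θ = extendByZero H θ₀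

theorem inner_ind_ext (H : Subgroup G) (θ : H → ℂ) {χ : G → ℂ} (hχ : IsClassFunction G χ) :
    classInner χ (indFun H θ) = (Nat.card H : ℂ)⁻¹ * ∑ y, χ y * conj (extendByZero H θ y) := by
  classical
  rw [classInner_indFun_right H θ hχ, classInner_def]
  simp only [mul_comm (χ _), ← extendByZero_star, sum_extendByZero_mul]

theorem inner_ind_ind (H K : Subgroup G) (θ : H → ℂ) (η : K → ℂ) :
    classInner (indFun H θ) (indFun K η) = (Nat.card H : ℂ)⁻¹ * (Nat.card K : ℂ)⁻¹ *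
      ∑ x : G, ∑ y, extendByZero H θ (x * y * x⁻¹) * conj (extendByZero K η y) := by
  rw [inner_ind_ext K η (isClassFunction_indFun H θ), Finset.sum_comm]
  simp only [indFun_apply', mul_assoc, ← Finset.mul_sum, ← Finset.sum_mul]
  ring

theorem mackey_ne {χ θ η : G → ℂ} (hχ : IsIrrCharacter G χ) (hθ : IsExt θ) (hη : IsExt η)
    (h1 : ∑ y, χ y * conj (θ y) ≠ 0) (h2 : ∑ y, χ y * conj (η y) ≠ 0) :
    ∃ x : G, ∑ y, θ (x * y * x⁻¹) * conj (η y) ≠ 0 := by
  obtain ⟨H, θ, hθ, rfl⟩ := hθ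
  obtain ⟨K, η, hη, rfl⟩ := hη
  have a1 := isCharacter_indFun H hθ
  have a2 := isCharacter_indFun K hη
  have b1 : classInner (indFun H θ) χ ≠ 0 := by
    rw [a1.inner_symm hχ.isCharacter, inner_ind_ext H θ hχ.isClassFunction]
    exact mul_ne_zero (inv_ne_zero (card_ne_zero _)) h1
  obtain ⟨m, hm⟩ := hχ.isCharacter.exists_nat_inner a2
  obtain ⟨k, hk⟩ := (a1.sub_irr hχ b1).exists_nat_inner a2
  have b2 : m ≠ 0 := fun e => mul_ne_zero (inv_ne_zero (card_ne_zero _)) h2 (by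
    rw [← inner_ind_ext K η hχ.isClassFunction, hm, e, Nat.cast_zero])
  by_contra! h
  rw [classInner_sub_left, hm, inner_ind_ind, Finset.sum_eq_zero fun x _ => h x, mul_zero, zero_sub,
    neg_eq_iff_add_eq_zero, ← Nat.cast_add, Nat.cast_eq_zero] at hk
  omega

theorem sum_mul_eq_zero {H : Type*} [Group H] [Fintype H] (φ : H →* G) {χ : G → ℂ}
    (hχ : IsCharacter G χ) (h : ∑ u, χ (φ u) = 0) (g : G) : ∑ u, χ (g * φ u) = 0 := by
  obtain ⟨n, π, rfl⟩ := hχ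
  have h1 : IsIdempotentElem ((Nat.card H : ℂ)⁻¹ • ∑ u, π (φ u)) := by
    have : ∀ u, π (φ u) * ∑ u, π (φ u) = ∑ u, π (φ u) := fun u => by
      simp only [Finset.mul_sum, ← map_mul]
      exact Fintype.sum_equiv (Equiv.mulLeft u) _ _ fun _ => rfl
    rw [IsIdempotentElem, smul_mul_smul_comm, Finset.sum_mul]
    simp [this, ← Nat.cast_smul_eq_nsmul ℂ, smul_smul]
  have h2 := LinearMap.IsIdempotentElem.eq_zero_of_trace_eq_zero h1 (by
    simpa [Representation.character] using h)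
  rw [smul_eq_zero, or_iff_right (inv_ne_zero (card_ne_zero _))] at h2
  simp only [Representation.character, map_mul, ← map_sum, ← Finset.mul_sum, h2, mul_zero, map_zero]

theorem sum_eq_zero_of_avg {M T : Type*} [Monoid M] [Fintype M] [Fintype T] [Nonempty T] (z : T → Mˣ)
    {θ η : M → ℂ} (h1 : ∀ y t, η (y * z t) = η y) (h2 : ∀ y, ∑ t, θ (y * z t) = 0) :
    ∑ y, θ y * η y = 0 := by
  have : ∀ t, ∑ y, θ y * η y = ∑ y, θ (y * z t) * η y := fun t =>
    (Fintype.sum_equiv (Units.mulRight (z t)) _ _ fun y => by simp [h1]).symm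
  have h3 := Finset.sum_congr rfl fun t (_ : t ∈ Finset.univ) => this t
  rw [Finset.sum_comm (f := fun t y => θ (y * z t) * η y)] at h3
  simpa [← Finset.sum_mul, h2] using h3

/-- A submonoid of a finite group is a subgroup. -/
def sg {G : Type*} [Group G] [Finite G] (S : Submonoid G) : Subgroup G :=
  { S with
    inv_mem' := fun {a} ha => show a⁻¹ ∈ S by
      rw [← one_mul a⁻¹, ← pow_one a, ← pow_orderOf_eq_one a, ← pow_sub a (orderOf_pos a)]
      exact pow_mem ha (orderOf a - 1) }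

theorem IsExt.comp {G' : Type*} [Group G'] {θ : G → ℂ} (h : IsExt θ) (e : G' ≃* G) :
    IsExt fun g => θ (e g) := by
  classical
  obtain ⟨H, θ, h, rfl⟩ := h
  refine ⟨H.comap e.toMonoidHom, _, h.comp (e.toMonoidHom.subgroupComap H), funext fun g => ?_⟩
  simp only [extendByZero_apply]
  rfl

end General

variable {F : Type*} [Field F] {ι κ α β γ α' β' : Type} [Fintype ι] [DecidableEq ι] [Fintype κ]
  [DecidableEq κ] [Fintype α] [DecidableEq α] [Fintype β] [DecidableEq β] [Fintype γ] [DecidableEq γ]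
  [Fintype α'] [DecidableEq α'] [Fintype β'] [DecidableEq β']

theorem exists_bruhat_lab (l l' : ι → ℕ) (x : GL ι F) : ∃ (p p' : GL ι F) (w : Equiv.Perm ι),
    p.1.BlockTriangular l ∧ p'.1.BlockTriangular l' ∧ x = p * pm F w * p' := by
  let e := (Fintype.equivFin ι).symm
  let s := (Tuple.sort (l ∘ e)).trans e
  let s' := (Tuple.sort (l' ∘ e)).trans e
  obtain ⟨b, hb, w, b', hb', h⟩ := exists_bruhat_GL (rx s x * pm F (s'.trans s.symm))
  refine ⟨rx s.symm b, rx s'.symm b', (s'.symm.trans w).trans s, fun i j hij => hb ?_,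
    fun i j hij => hb' ?_, ?_⟩
  · exact (Tuple.monotone_sort (l ∘ e)).reflect_lt (by simpa [s] using hij)
  · exact (Tuple.monotone_sort (l' ∘ e)).reflect_lt (by simpa [s'] using hij)
  have h1 : ((pm F ((s'.symm.trans w).trans s) : GL ι F) : Matrix ι ι F) =
      (pm F w).1.submatrix s.symm s'.symm := by
    ext i j; simp only [pm_apply, submatrix_apply]; exact if_congr s.symm_apply_eq.symm rfl rfl
  ext1
  simp only [Units.val_mul, coe_rx, h1, submatrix_mul_equiv]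
  rw [← Units.val_mul, ← Units.val_mul, ← h]
  ext i j
  simp [mul_pm_apply]

theorem blocks_mul {y z : Matrix (α ⊕ β) (α ⊕ β) F} (hz : z.toBlocks₂₁ = 0) :
    (y * z).toBlocks₂₁ = y.toBlocks₂₁ * z.toBlocks₁₁ ∧ (y * z).toBlocks₁₁ = y.toBlocks₁₁ * z.toBlocks₁₁ ∧
      (y * z).toBlocks₂₂ = y.toBlocks₂₁ * z.toBlocks₁₂ + y.toBlocks₂₂ * z.toBlocks₂₂ := by
  rw [← fromBlocks_toBlocks y, ← fromBlocks_toBlocks z, fromBlocks_multiply, hz]
  simp

variable [Fintype F] [DecidableEq F]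

/-- The maximal parabolic subgroup. -/
def Par (F : Type*) [Field F] [Finite F] (α β : Type) [Fintype α] [DecidableEq α] [Fintype β]
    [DecidableEq β] : Subgroup (GL (α ⊕ β) F) :=
  sg {
    carrier := {y | y.1.toBlocks₂₁ = 0}
    one_mem' := by simp [← fromBlocks_one]
    mul_mem' {a b} ha hb := by simp [(blocks_mul hb).1, show a.1.toBlocks₂₁ = 0 from ha] }

theorem mem_Par {y : GL (α ⊕ β) F} : y ∈ Par F α β ↔ y.1.toBlocks₂₁ = 0 := Iff.rfl

/-- First projection. -/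
def p1 : Par F α β →* Matrix α α F where
  toFun y := y.1.1.toBlocks₁₁
  map_one' := by simp [← fromBlocks_one]
  map_mul' _ b := (blocks_mul b.2).2.1

/-- Second projection. -/
def p2 : Par F α β →* Matrix β β F where
  toFun y := y.1.1.toBlocks₂₂
  map_one' := by simp [← fromBlocks_one]
  map_mul' a b := (blocks_mul b.2).2.2.trans (by simp [mem_Par.1 a.2])

/-- Inflated product, extended by zero. -/
noncomputable def th (σ ρ : Fam F) (y : Matrix (α ⊕ β) (α ⊕ β) F) : ℂ :=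
  if y.toBlocks₂₁ = 0 then ev σ y.toBlocks₁₁ * ev ρ y.toBlocks₂₂ else 0

variable {Φ Ψ ρ σ τ : Fam F}

theorem ext_th : extendByZero (Par F α β) (fun y => ev σ (p1 y) * ev ρ (p2 y)) = fun y => th σ ρ y.1 := by
  funext y
  by_cases h : y ∈ Par F α β
  · rw [extendByZero_of_mem _ _ h, th, if_pos (mem_Par.1 h)]; rfl
  · rw [extendByZero_of_not_mem _ _ h, th, if_neg (mt mem_Par.2 h)]

theorem isChar_th (hσ : Ch σ) (hρ : Ch ρ) :
    IsCharacter (Par F α β) fun y => ev σ (p1 y) * ev ρ (p2 y) :=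
  ((hσ.ev α).comp p1.toHomUnits).mul ((hρ.ev β).comp p2.toHomUnits)

theorem th_of_not {y : Matrix (α ⊕ β) (α ⊕ β) F} (h : ¬IsUnit y) : th σ ρ y = 0 := by
  rw [th]
  split_ifs with h1
  · rw [← fromBlocks_toBlocks y, h1, isUnit_fromBlocks_zero₂₁, not_and_or] at h
    rcases h with h | h <;> simp [ev_of_not h]
  · rfl

theorem th_sub (hσ : Cl σ) (hρ : Cl ρ) (e : α' ≃ α) (e' : β' ≃ β) (y : Matrix (α ⊕ β) (α ⊕ β) F) :
    th σ ρ (y.submatrix (e.sumCongr e') (e.sumCongr e')) = th σ ρ y := by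
  rw [th, th, ← ev_sub hσ e, ← ev_sub hρ e']
  exact if_congr ((reindex e'.symm e.symm).apply_eq_iff_eq (x := y.toBlocks₂₁) (y := 0)) rfl rfl

theorem sum_th (f : Matrix (α ⊕ β) (α ⊕ β) F → ℂ) : ∑ y, f y * conj (th σ ρ y) =
    ∑ c, ∑ b, ∑ u, f (fromBlocks c u 0 b) * conj (ev σ c * ev ρ b) := by
  simp only [th, apply_ite conj, map_zero, mul_ite, mul_zero]
  exact sum_par _

theorem card_mat : Fintype.card (Matrix α β F) = Nat.card F ^ (Fintype.card α * Fintype.card β) := by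
  rw [Fintype.card_congr Matrix.of.symm]; simp [pow_mul']

theorem card_Par : (Nat.card (Par F α β) : ℂ) = Nat.card (GL α F) * kk F (Fintype.card α) (Fintype.card β) := by
  classical
  have h1 : ∀ (ι : Type) [Fintype ι] [DecidableEq ι],
      ∑ A : Matrix ι ι F, (if IsUnit A then 1 else 0 : ℂ) = Nat.card (GL ι F) := fun ι _ _ => by
    rw [← sum_GL fun A hA => if_neg hA]; simp
  have h2 := sum_GL (f := fun y : Matrix (α ⊕ β) (α ⊕ β) F =>
    if y.toBlocks₂₁ = 0 then (if IsUnit y then 1 else 0) else 0) fun A hA => by simp [hA]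
  rw [sum_par] at h2
  have h3 : ∀ (c : Matrix α α F) (b : Matrix β β F) (u : Matrix α β F), (if IsUnit (fromBlocks c u 0 b)
      then 1 else 0 : ℂ) = (if IsUnit c then 1 else 0) * if IsUnit b then 1 else 0 := fun c b u => by
    rw [ite_zero_mul_ite_zero, one_mul]; exact if_congr isUnit_fromBlocks_zero₂₁ rfl rfl
  simp only [h3, ← Finset.mul_sum, ← Finset.sum_mul, h1, Finset.sum_const, nsmul_eq_mul] at h2
  simp only [Units.isUnit, if_true, Finset.sum_boole, ← mem_Par] at h2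
  rw [kk, ← card_GL_congr (Fintype.card_fin _).symm, Nat.card_eq_fintype_card, Fintype.card_subtype, h2]
  simp [card_mat, mul_comm]

theorem inner_D (hρ : Cl ρ) (hσ : Cl σ) (h : Cl Φ) {a d : ℕ} (ha : Fintype.card α = a)
    (hd : Fintype.card β = d) : classInner (D d ρ Φ a) (σ a) =
      (Nat.card (Par F α β) : ℂ)⁻¹ * ∑ y : Matrix (α ⊕ β) (α ⊕ β) F, ev Φ y * conj (th σ ρ y) := by
  rw [sum_th, card_Par, hd, mul_inv, mul_assoc, eq_inv_mul_iff_mul_eq₀ (card_ne_zero _),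
    ← sum_ev_mul (h.D d ρ) hσ ha, Finset.mul_sum]
  simp only [ev_D hρ h hd, S, mul_assoc, Finset.sum_mul, map_mul, mul_comm (conj (ev σ _))]

/-- Irreducible characters of all general linear groups. -/
abbrev Ir (F : Type*) [Field F] := Σ n, IrrCharacter (GL (Fin n) F)

/-- An irreducible character as a family. -/
noncomputable def fam (x : Ir F) : Fam F := Pi.single x.1 x.2.1

theorem fam_self (x : Ir F) : fam x x.1 = x.2.1 := Pi.single_eq_same _ _

theorem fam_ne {x : Ir F} {n : ℕ} (h : n ≠ x.1) : fam x n = 0 := Pi.single_eq_of_ne h _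

theorem ch_fam (x : Ir F) : Ch (fam x) := fun n => by
  by_cases e : n = x.1
  · subst e; rw [fam_self]; exact x.2.2.isCharacter
  · rw [fam_ne e]; exact isCharacter_zero

theorem cl_fam (x : Ir F) : Cl (fam x) := (ch_fam x).cl

theorem ev_fam_ne {x : Ir F} (h : Fintype.card ι ≠ x.1) (A : Matrix ι ι F) : ev (fam x) A = 0 := by
  rw [ev, fam_ne h, hat, Function.extend_zero]; rfl

theorem irr_ev {x : Ir F} (h : Fintype.card ι = x.1) :
    IsIrrCharacter _ fun g : GL ι F => ev (fam x) g.1 := by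
  simp only [ev_rx (cl_fam x) (Fintype.equivFinOfCardEq h).symm, fam_self]
  exact x.2.2.comp_mulEquiv _

theorem Ch.D (h : Ch Φ) (hρ : Ch ρ) (d : ℕ) : Ch (D d ρ Φ) := fun a => by
  classical
  refine (h.cl.D d ρ a).isCharacter_of_inner fun σ hσ => ?_
  have h1 := ch_fam ⟨a, σ, hσ⟩
  have := inner_D hρ.cl h1.cl h.cl (Fintype.card_fin a) (Fintype.card_fin d)
  rw [fam_self ⟨a, σ, hσ⟩, ← sum_GL fun A hA => by simp [ev_of_not hA]] at this
  rw [this]
  simpa only [inner_ind_ext _ _ (h.cl.ev _), ext_th] using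
    (h.ev _).exists_nat_inner (isCharacter_indFun _ (isChar_th (α := Fin a) (β := Fin d) h1 hρ))

/-- `x` is a constituent of `Φ`. -/
def Le (x : Ir F) (Φ : Fam F) : Prop := classInner (Φ x.1) x.2.1 ≠ 0

/-- `σ ⊗ ρ` occurs in the Harish-Chandra restriction of `χ`. -/
def R (ρ σ χ : Ir F) : Prop := Le σ (D ρ.1 (fam ρ) (fam χ))

theorem ev_expand (h : Cl Φ) {n : ℕ} (e : Fintype.card ι = n) (A : Matrix ι ι F) : ev Φ A =
    ∑ τ : IrrCharacter (GL (Fin n) F), classInner (Φ n) τ * ev (fam ⟨n, τ⟩) A := by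
  by_cases hA : IsUnit A
  · obtain ⟨g, rfl⟩ := hA
    simp only [ev_rx h (Fintype.equivFinOfCardEq e).symm, fam_self ⟨n, _⟩,
      ev_rx (cl_fam ⟨n, _⟩) (Fintype.equivFinOfCardEq e).symm]
    exact (h n).apply_eq_sum_irr _
  · simp [ev_of_not hA]

theorem D_expand (h : Cl Φ) (d a : ℕ) : D d ρ Φ a = ∑ τ : IrrCharacter (GL (Fin (a + d)) F),
    classInner (Φ (a + d)) τ • D d ρ (fam ⟨_, τ⟩) a := by
  funext c
  simp only [D, S, ev_expand h (show Fintype.card (Fin a ⊕ Fin d) = a + d by simp), Finset.sum_apply,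
    Pi.smul_apply, smul_eq_mul, Finset.mul_sum, Finset.sum_mul]
  refine (Finset.sum_congr rfl fun _ _ => Finset.sum_comm).trans (Finset.sum_comm.trans ?_)
  simp only [mul_assoc, mul_left_comm (kk F a d)⁻¹]

theorem R.deg {ρ σ χ : Ir F} (h : R ρ σ χ) : χ.1 = σ.1 + ρ.1 := by_contra fun e => h (by
  rw [show D ρ.1 (fam ρ) (fam χ) σ.1 = 0 from funext fun c => by
    simp [D, S, ev_fam_ne (ι := Fin σ.1 ⊕ Fin ρ.1) (by simpa using Ne.symm e)], classInner_zero_left])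

theorem exists_expand (h : Ch Φ) (ρ σ : Ir F) : ∃ k : IrrCharacter (GL (Fin (σ.1 + ρ.1)) F) → ℕ,
    (∀ τ, k τ ≠ 0 ↔ Le ⟨_, τ⟩ Φ ∧ R ρ σ ⟨_, τ⟩) ∧
      classInner (D ρ.1 (fam ρ) Φ σ.1) σ.2.1 = (∑ τ, k τ : ℕ) := by
  choose m hm using fun τ : IrrCharacter (GL (Fin (σ.1 + ρ.1)) F) =>
    (h _).exists_nat_inner τ.2.isCharacter
  choose k hk using fun τ : IrrCharacter (GL (Fin (σ.1 + ρ.1)) F) =>
    ((ch_fam ⟨_, τ⟩).D (ch_fam ρ) ρ.1 _).exists_nat_inner σ.2.2.isCharacter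
  refine ⟨fun τ => m τ * k τ, fun τ => by simp [Le, R, hm, hk], ?_⟩
  simp [D_expand h.cl, classInner_sum_left, classInner_smul_left, hm, hk]

theorem Le_D_iff (h : Ch Φ) {ρ σ : Ir F} : Le σ (D ρ.1 (fam ρ) Φ) ↔ ∃ τ, Le τ Φ ∧ R ρ σ τ := by
  obtain ⟨k, h1, h2⟩ := exists_expand h ρ σ
  rw [Le, h2, Nat.cast_ne_zero, Ne, Finset.sum_eq_zero_iff]
  push Not
  refine ⟨fun ⟨τ, _, h⟩ => ⟨_, (h1 τ).1 h⟩, fun ⟨⟨n, τ⟩, h⟩ => ?_⟩
  obtain rfl : n = _ := h.2.deg
  exact ⟨τ, Finset.mem_univ _, (h1 τ).2 h⟩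

theorem eq_of_inner_D (h : Ch Φ) {ρ σ τ τ' : Ir F} (H : classInner (D ρ.1 (fam ρ) Φ σ.1) σ.2.1 = 1)
    (h1 : Le τ Φ) (h2 : R ρ σ τ) (h1' : Le τ' Φ) (h2' : R ρ σ τ') : τ = τ' := by
  classical
  obtain ⟨k, h3, h4⟩ := exists_expand h ρ σ
  obtain ⟨n, τ⟩ := τ
  obtain ⟨n', τ'⟩ := τ'
  obtain rfl : n = _ := h2.deg
  obtain rfl : n' = _ := h2'.deg
  by_contra e
  have := Finset.sum_le_sum_of_subset (f := k) (Finset.subset_univ {τ, τ'})
  rw [Finset.sum_pair fun e' => e (by rw [e']), ← Nat.cast_inj.1 (Nat.cast_one.trans (H.symm.trans h4))] at this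
  have := (h3 τ).2 ⟨h1, h2⟩
  have := (h3 τ').2 ⟨h1', h2'⟩
  omega

theorem R.swap {ρ ρ' σ η χ : Ir F} (h : R ρ σ χ) (h' : R ρ' η σ) : ∃ σ', R ρ' σ' χ ∧ R ρ η σ' := by
  have := (Le_D_iff ((ch_fam χ).D (ch_fam ρ) _)).2 ⟨σ, h, h'⟩
  rw [D_comm (cl_fam _) (cl_fam _) (cl_fam _)] at this
  exact (Le_D_iff ((ch_fam χ).D (ch_fam ρ') _)).1 this

theorem R_iff {ρ σ χ : Ir F} (ha : Fintype.card α = σ.1) (hd : Fintype.card β = ρ.1) : R ρ σ χ ↔
    ∑ y : Matrix (α ⊕ β) (α ⊕ β) F, ev (fam χ) y * conj (th (fam σ) (fam ρ) y) ≠ 0 := by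
  rw [R, Le, ← fam_self, inner_D (cl_fam _) (cl_fam _) (cl_fam _) ha hd, mul_ne_zero_iff,
    and_iff_right (inv_ne_zero (card_ne_zero _))]

theorem R.symm {ρ σ χ : Ir F} (h : R ρ σ χ) : R σ ρ χ := by
  rw [R_iff (Fintype.card_fin _) (Fintype.card_fin _), sum_th] at h ⊢
  rw [Finset.sum_comm]
  convert h using 2 with c
  simp only [map_mul, ← mul_assoc, ← Finset.sum_mul, mul_right_comm _ (conj (ev (fam σ) c))]
  simp only [Finset.sum_mul, ← S_left (cl_fam ρ) (cl_fam χ), S]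

/-- The trivial character of `GL_0`. -/
noncomputable def u0 (F : Type*) [Field F] : Ir F := ⟨0, irrOne _⟩

theorem eq_u0 {χ : Ir F} (h : χ.1 = 0) : χ = u0 F := by
  obtain ⟨n, χ⟩ := χ
  obtain rfl : n = 0 := h
  refine congrArg _ (Subtype.ext (funext fun g => ?_))
  rw [Subsingleton.elim g 1, χ.2.one_eq_one_of_comm fun _ _ => Subsingleton.elim _ _]; rfl

theorem R_u0 (χ : Ir F) : R χ (u0 F) χ := by
  rw [R_iff (σ := u0 F) (Fintype.card_fin 0) (Fintype.card_fin _), sum_th]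
  have h1 : ∀ c u b, ev (fam χ) (fromBlocks (c : Matrix (Fin 0) (Fin 0) F) u 0
      (b : Matrix (Fin χ.1) (Fin χ.1) F)) = ev (fam χ) b := fun c u b =>
    (ev_sub (cl_fam χ) (Equiv.emptySum _ _).symm _).symm
  have h2 : ∀ c : Matrix (Fin 0) (Fin 0) F, ev (fam (u0 F)) c = 1 := fun c => by
    rw [Subsingleton.elim c (1 : GL (Fin 0) F).1, ev_fin (cl_fam _)]; exact congrFun (fam_self _) _
  simp [h1, h2, ← Finset.mul_sum, sum_ev_mul (cl_fam χ) (cl_fam χ) (Fintype.card_fin _), fam_self,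
    χ.2.2.inner_self]

/-- Cuspidal characters. -/
def Cusp (ρ : Ir F) : Prop := 0 < ρ.1 ∧ ∀ σ τ, R σ τ ρ → σ.1 = 0 ∨ τ.1 = 0

/-- Iterated restriction. -/
def Has : List (Ir F) → Ir F → Prop
  | [], χ => χ.1 = 0
  | ρ :: L, χ => ∃ σ, R ρ σ χ ∧ Has L σ

theorem Has.deg {L : List (Ir F)} : ∀ {χ : Ir F}, Has L χ → χ.1 = (L.map Sigma.fst).sum := by
  induction L with
  | nil => exact id
  | cons ρ L ih => exact fun ⟨σ, h1, h2⟩ => by simp [h1.deg, ih h2, add_comm]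

theorem Has.perm {L L' : List (Ir F)} (h : L.Perm L') : ∀ {χ : Ir F}, Has L χ → Has L' χ := by
  induction h with
  | nil => exact id
  | cons _ _ ih => exact fun ⟨σ, h1, h2⟩ => ⟨σ, h1, ih h2⟩
  | swap => exact fun ⟨σ, h1, η, h2, h3⟩ => (h1.swap h2).imp fun _ h => ⟨h.1, η, h.2, h3⟩
  | trans _ _ ih ih' => exact fun h => ih' (ih h)

theorem exists_Has (χ : Ir F) : ∃ L, (∀ ρ ∈ L, Cusp ρ) ∧ Has L χ := by
  classical
  induction h : χ.1 using Nat.strong_induction_on generalizing χ with | _ n ih => ?_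
  subst h
  by_cases h0 : χ.1 = 0
  · exact ⟨[], by simp, h0⟩
  have H : ∃ d, ∃ ρ σ : Ir F, ρ.1 = d ∧ 0 < d ∧ R ρ σ χ := ⟨_, χ, _, rfl, by omega, R_u0 χ⟩
  obtain ⟨ρ, σ, h1, h2, h3⟩ := Nat.find_spec H
  have := h3.deg
  obtain ⟨L, h4, h5⟩ := ih σ.1 (by omega) σ rfl
  refine ⟨ρ :: L, List.forall_mem_cons.2 ⟨⟨by omega, fun σ' τ' h => by_contra fun h6 => ?_⟩, h4⟩,
    σ, h3, h5⟩
  obtain ⟨ξ, h7, -⟩ := h3.symm.swap h
  have := h.deg
  exact Nat.find_min H (show σ'.1 < _ by omega) ⟨σ', ξ, rfl, by omega, h7⟩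

/-- Unipotent block matrices. -/
def un (u : Matrix α β F) : GL (α ⊕ β) F :=
  ⟨fromBlocks 1 u 0 1, fromBlocks 1 (-u) 0 1, by simp [fromBlocks_multiply], by simp [fromBlocks_multiply]⟩

theorem Cusp.sum_un {ρ : Ir F} (h : Cusp ρ) [Nonempty α] [Nonempty β] (e : ι ≃ α ⊕ β)
    (y : Matrix ι ι F) : ∑ u : Matrix α β F, ev (fam ρ) (y * (rx e (un u)).1) = 0 := by
  classical
  by_cases hy : IsUnit y
  swap
  · exact Finset.sum_eq_zero fun u _ => ev_of_not (by simpa using hy)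
  obtain ⟨y, rfl⟩ := hy
  let δ : Fam F := fun n g => if g = 1 then 1 else 0
  have hδ : Cl δ := fun n g k => by simp [δ, mul_inv_eq_iff_eq_mul]
  have h1 : ∀ b : Matrix β β F, ev δ b = if b = 1 then 1 else 0 := fun b => by
    by_cases hb : IsUnit b
    · obtain ⟨b, rfl⟩ := hb
      simp [ev_rx hδ (Fintype.equivFin β).symm, δ]
    · rw [ev_of_not hb, if_neg (by rintro rfl; simp at hb)]
  have h2 : ∀ τ, S (fam ⟨Fintype.card β, τ⟩) (fam ρ) β (1 : Matrix α α F) = 0 := fun τ => by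
    have := ev_D (cl_fam ⟨_, τ⟩) (cl_fam ρ) (rfl : Fintype.card β = _) (1 : Matrix α α F)
    rw [ev, ((cl_fam ρ).D _ _ _).eq_zero_of_inner fun σ hσ => by_contra fun h' => by
      simpa using h.2 ⟨_, τ⟩ ⟨_, σ, hσ⟩ h', hat, Function.extend_zero] at this
    simpa [kk_ne] using this
  have h3 : S δ (fam ρ) β (1 : Matrix α α F) = 0 := by
    simp only [S, ev_expand hδ rfl, map_sum, map_mul, Finset.mul_sum] at h2 ⊢
    refine (Finset.sum_congr rfl fun _ _ => Finset.sum_comm).trans (Finset.sum_comm.trans ?_)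
    simp only [mul_left_comm _ (conj (classInner _ _)), ← Finset.mul_sum, h2, mul_zero,
      Finset.sum_const_zero]
  let φ : Multiplicative (Matrix α β F) →* GL (α ⊕ β) F :=
    ⟨⟨fun u => un u.toAdd, by ext1; simp [un]⟩, fun _ _ => by ext1; simp [un, fromBlocks_multiply, add_comm]⟩
  refine (Fintype.sum_equiv Multiplicative.ofAdd _ _ fun _ => rfl).trans
    (sum_mul_eq_zero ((rx e).toMonoidHom.comp φ) ((ch_fam ρ).ev ι) ?_ y)
  rw [S, Finset.sum_comm] at h3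
  refine (Fintype.sum_equiv Multiplicative.toAdd _ (fun u => ev (fam ρ) (fromBlocks 1 u 0 1))
    fun _ => ev_sub (cl_fam ρ) e _).trans ?_
  simpa [h1, apply_ite conj] using h3

theorem exists_sumCongr (e : α' ⊕ β' ≃ α ⊕ β) (h : ∀ i, (e i).isLeft = i.isLeft) :
    ∃ e1 e2, e = Equiv.sumCongr e1 e2 :=
  ⟨Equiv.sumIsLeft.symm.trans ((e.subtypeEquiv fun i => by rw [h]).trans Equiv.sumIsLeft),
    Equiv.sumIsRight.symm.trans ((e.subtypeEquiv fun i => by
      rw [← Sum.not_isLeft, ← Sum.not_isLeft, h]).trans Equiv.sumIsRight), by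
    ext (i | i) <;> simp⟩

theorem Cusp.mackey {ρ : Ir F} (h : Cusp ρ) {σ σ' ρ' : Fam F} (e : α' ⊕ β' ≃ α ⊕ β) {s s' : β}
    (h1 : (e.symm (.inr s)).isLeft) (h2 : ¬(e.symm (.inr s')).isLeft) :
    ∑ y, th σ (fam ρ) y * conj (th σ' ρ' (y.submatrix e e)) = 0 := by
  let p : β → Prop := fun s => (e.symm (.inr s)).isLeft
  have : Nonempty {s // p s} := ⟨⟨s, h1⟩⟩
  have : Nonempty {s // ¬p s} := ⟨⟨s', h2⟩⟩
  let z : Matrix {s // p s} {s // ¬p s} F → GL (α ⊕ β) F := fun u =>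
    ⟨fromBlocks 1 0 0 (rx (Equiv.sumCompl p).symm (un u)).1,
      fromBlocks 1 0 0 (rx (Equiv.sumCompl p).symm (un u))⁻¹.1,
      by simp [fromBlocks_multiply, -coe_rx], by simp [fromBlocks_multiply, -coe_rx]⟩
  refine sum_eq_zero_of_avg z (fun y u => congrArg _ ?_) fun y => ?_
  · have k : ∀ i j, ¬(i.isLeft ∧ ¬j.isLeft) → (z u).1 (e i) (e j) = (1 : Matrix _ _ F) i j := by
      intro i j hij
      obtain ⟨i, rfl⟩ := e.symm.surjective i
      obtain ⟨j, rfl⟩ := e.symm.surjective j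
      rcases i with i | i <;> rcases j with j | j
      iterate 3 simp [z, one_apply]
      obtain ⟨i, rfl⟩ := (Equiv.sumCompl p).surjective i
      obtain ⟨j, rfl⟩ := (Equiv.sumCompl p).surjective j
      rcases i with i | i <;> rcases j with j | j
      · simp [z, un, one_apply, Subtype.ext_iff]
      · exact absurd ⟨i.2, j.2⟩ hij
      · simp [z, un, one_apply, show i.1 ≠ j.1 from fun e => i.2 (e ▸ j.2)]
      · simp [z, un, one_apply, Subtype.ext_iff]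
    have k1 : ((z u).1.submatrix e e).toBlocks₂₁ = 0 := by
      ext i j; simpa [toBlocks₂₁] using k (.inr i) (.inl j)
    have k2 : ((z u).1.submatrix e e).toBlocks₁₁ = 1 := by
      ext i j; simpa [toBlocks₁₁, one_apply] using k (.inl i) (.inl j)
    have k3 : ((z u).1.submatrix e e).toBlocks₂₂ = 1 := by
      ext i j; simpa [toBlocks₂₂, one_apply] using k (.inr i) (.inr j)
    rw [← submatrix_mul_equiv _ _ _ e, th, th, (blocks_mul k1).1, (blocks_mul k1).2.1,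
      (blocks_mul k1).2.2, k2, k3]
    split_ifs <;> simp_all
  · have k1 : ∀ u, (z u).1.toBlocks₂₁ = 0 := fun _ => rfl
    simp only [th, (blocks_mul (k1 _)).1, (blocks_mul (k1 _)).2.1, (blocks_mul (k1 _)).2.2]
    simp [z, ← Finset.mul_sum, h.sum_un, -coe_rx]

theorem isExt_th (hσ : Ch σ) (hρ : Ch ρ) : IsExt fun y : GL (α ⊕ β) F => th σ ρ y.1 :=
  ⟨_, _, isChar_th hσ hρ, ext_th.symm⟩

theorem th_conj (hσ : Ch σ) (hρ : Ch ρ) {p : GL (α ⊕ β) F} (hp : p.1.toBlocks₂₁ = 0)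
    (y : GL (α ⊕ β) F) : th σ ρ (p * y * p⁻¹).1 = th σ ρ y.1 := by
  simpa only [ext_th] using
    extendByZero_conj _ (isChar_th hσ hρ).isClassFunction (mem_Par.2 hp) y

theorem eq_of_sum_ne {σ τ : Ir F} (h : ∑ c : Matrix α α F, ev (fam σ) c * conj (ev (fam τ) c) ≠ 0) :
    σ = τ := by
  obtain ⟨n, σ⟩ := σ
  obtain ⟨m, τ⟩ := τ
  obtain rfl : Fintype.card α = n := by_contra fun e => h (by simp [ev_fam_ne (x := ⟨n, σ⟩) e])
  obtain rfl : Fintype.card α = m := by_contra fun e => h (by simp [ev_fam_ne (x := ⟨m, τ⟩) e])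
  rw [sum_ev_mul (cl_fam _) (cl_fam _) rfl, fam_self ⟨_, σ⟩, fam_self ⟨_, τ⟩] at h
  exact congrArg _ (Subtype.ext (σ.2.eq_of_inner_ne_zero τ.2 (right_ne_zero_of_mul h)))

theorem exists_mackey {ρ ρ' σ τ χ : Ir F} (h : R ρ σ χ) (h' : R ρ' τ χ) :
    ∃ e : Fin τ.1 ⊕ Fin ρ'.1 ≃ Fin σ.1 ⊕ Fin ρ.1,
      ∑ y, th (fam σ) (fam ρ) y * conj (th (fam τ) (fam ρ') (y.submatrix e e)) ≠ 0 := by
  have d1 := h.deg
  have d2 := h'.deg
  obtain ⟨e⟩ : Nonempty (Fin τ.1 ⊕ Fin ρ'.1 ≃ Fin σ.1 ⊕ Fin ρ.1) :=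
    Fintype.card_eq.1 (by simp; omega)
  rw [R_iff (Fintype.card_fin _) (Fintype.card_fin _), ← sum_GL fun A hA => by simp [th_of_not hA]] at h h'
  obtain ⟨x, hx⟩ := mackey_ne (irr_ev (x := χ) (by simp [d1]))
    ((isExt_th (ch_fam τ) (ch_fam ρ')).comp (rx e)) (isExt_th (ch_fam σ) (ch_fam ρ))
    (by rwa [← Fintype.sum_equiv (rx e).toEquiv (fun y => ev (fam χ) y.1 * conj (th (fam τ) (fam ρ') (rx e y).1)) _
      fun y => by simp [ev_sub (cl_fam χ)]] at h') h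
  obtain ⟨p, p', w, hp, hp', rfl⟩ := exists_bruhat_lab (fun i => (e.symm i).elim 0 1) (Sum.elim 0 1) x
  have k : (rx e p).1.toBlocks₂₁ = 0 := by ext i j; exact hp (by simp)
  have k' : p'.1.toBlocks₂₁ = 0 := by ext i j; exact hp' (by simp)
  refine ⟨e.trans w.symm, fun H => hx ?_⟩
  rw [← sum_GL fun A hA => by simp [th_of_not hA]] at H
  refine (Fintype.sum_equiv (MulAut.conj p').toEquiv _ _ fun y => ?_).trans (by
    simpa [mul_comm] using congrArg conj H)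
  have : p * pm F w * p' * y * (p * pm F w * p')⁻¹ = p * (pm F w⁻¹⁻¹ * (p' * y * p'⁻¹) * pm F w⁻¹) * p⁻¹ := by
    simp [mul_assoc]
  rw [this, map_mul, map_mul, map_inv (rx e), th_conj (ch_fam _) (ch_fam _) k, ← th_conj (ch_fam _) (ch_fam _) k' y,
    coe_rx, Units.val_mul, Units.val_mul, pm_conj, mul_comm]
  rfl

theorem sum_disj {σ ρ τ ρ' : Fam F} : ∑ y : Matrix ((γ ⊕ α) ⊕ β) ((γ ⊕ α) ⊕ β) F, th σ ρ y * conj (th τ ρ'
    (y.submatrix (Sum.elim (Sum.elim (.inl ∘ .inl) .inr) (.inl ∘ .inr))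
      (Sum.elim (Sum.elim (.inl ∘ .inl) .inr) (.inl ∘ .inr)))) =
    ∑ r : Matrix γ γ F, S ρ' σ α r * conj (S ρ τ β r) := by
  simp only [th, ite_mul, zero_mul]
  rw [sum_par, sum_fromBlocks]
  refine Finset.sum_congr rfl fun r _ => ?_
  simp only [S, map_sum, Finset.sum_mul_sum, sum_fromRows (α := γ)]
  refine Finset.sum_congr rfl fun a _ => Finset.sum_comm.trans ((Finset.sum_eq_single 0 (fun x _ hx =>
    Finset.sum_eq_zero fun v _ => Finset.sum_eq_zero fun b _ => Finset.sum_eq_zero fun u1 _ =>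
      Finset.sum_eq_zero fun u2 _ => ?_) (by simp)).trans (Finset.sum_comm.trans
        (Finset.sum_congr rfl fun b _ => Finset.sum_congr rfl fun v _ => Finset.sum_congr rfl
          fun u1 _ => (Finset.sum_eq_single 0 (fun x _ hx => ?_) (by simp)).trans ?_)))
  · rw [if_neg fun e => hx (by ext i j; exact congrFun (congrFun e i) (.inl j)), map_zero, mul_zero]
  · rw [if_neg fun e => hx (by ext i j; exact congrFun (congrFun e i) (.inr j)), map_zero, mul_zero]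
  rw [if_pos (by ext i (j | j) <;> rfl), show toBlocks₁₁ _ = fromBlocks r u1 0 b by
    ext (i | i) (j | j) <;> rfl]
  simp only [toBlocks_fromBlocks₁₁, toBlocks_fromBlocks₂₂, map_mul, Complex.conj_conj]
  rw [show toBlocks₂₂ _ = a from rfl]
  ring

theorem diamond {ρ ρ' σ τ χ : Ir F} (c : Cusp ρ) (c' : Cusp ρ') (h : R ρ σ χ) (h' : R ρ' τ χ) :
    ρ = ρ' ∧ σ = τ ∨ ∃ η, R ρ' η σ ∧ R ρ η τ := by
  obtain ⟨e, H⟩ := exists_mackey h h'
  have h1 : ∀ s s', (e.symm (.inr s)).isLeft → (e.symm (.inr s')).isLeft := fun s s' h =>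
    by_contra fun h' => H (c.mackey e h h')
  have h2 : ∀ s s', (e (.inr s)).isLeft → (e (.inr s')).isLeft := fun s s' h =>
    by_contra fun h' => H (by
      have := congrArg conj (c'.mackey (σ := fam τ) (σ' := fam σ) (ρ' := fam ρ) e.symm h h')
      rw [← (reindex e.symm e.symm).sum_comp] at this
      simpa [mul_comm] using this)
  by_cases h3 : ∀ s, (e (.inr s)).isLeft
  · let p : Fin τ.1 → Prop := fun a => (e (.inl a)).isLeft
    let e0 : ({a // p a} ⊕ {a // ¬p a}) ⊕ Fin ρ'.1 ≃ ({a // p a} ⊕ Fin ρ'.1) ⊕ {a // ¬p a} :=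
      (Equiv.sumAssoc _ _ _).trans (((Equiv.refl _).sumCongr (Equiv.sumComm _ _)).trans
        (Equiv.sumAssoc _ _ _).symm)
    obtain ⟨f, g, hfg⟩ := exists_sumCongr (e0.symm.trans (((Equiv.sumCompl p).sumCongr (.refl _)).trans e))
      (by rintro ((i | i) | i); exacts [i.2, h3 i, by simpa [e0, p] using i.2])
    rw [← (reindex (f.sumCongr g) (f.sumCongr g)).sum_comp] at H
    simp only [reindex_apply, Equiv.sumCongr_symm, th_sub (cl_fam _) (cl_fam _)] at H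
    simp only [← th_sub (cl_fam τ) (cl_fam ρ') (Equiv.sumCompl p) (.refl _)] at H
    have h4 : ((Equiv.sumCompl p).sumCongr (.refl _)).trans (e.trans (f.symm.sumCongr g.symm)) = e0 := by
      rw [← Equiv.sumCongr_symm, ← hfg]; ext1; simp
    have h5 : ∑ r : Matrix {a // p a} {a // p a} F, S (fam ρ') (fam σ) (Fin ρ'.1) r *
        conj (S (fam ρ) (fam τ) {a // ¬p a} r) ≠ 0 := by
      rw [← sum_disj, show Sum.elim (Sum.elim (.inl ∘ .inl) .inr) (.inl ∘ .inr) = ⇑e0 by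
        ext ((i | i) | i) <;> rfl, ← h4]
      exact H
    have k1 := fun r : Matrix {a // p a} {a // p a} F => ev_D (cl_fam ρ') (cl_fam σ)
      (Fintype.card_fin ρ'.1) r
    have k2 := fun r : Matrix {a // p a} {a // p a} F => ev_D (cl_fam ρ) (cl_fam τ)
      ((Fintype.card_congr g).trans (Fintype.card_fin _)) r
    simp only [eq_inv_mul_iff_mul_eq₀ (kk_ne _ _)] at k1 k2
    simp only [← k1, ← k2, map_mul, mul_mul_mul_comm _ (ev _ _) (conj (kk F _ _)), ← Finset.mul_sum,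
      sum_ev_mul ((cl_fam σ).D _ _) ((cl_fam τ).D _ _) rfl] at h5
    obtain ⟨η, h6, h7⟩ := ((cl_fam σ).D _ _ _).exists_common_irr (right_ne_zero_of_mul
      (right_ne_zero_of_mul h5))
    exact Or.inr ⟨⟨_, η, h6⟩, h7⟩
  obtain ⟨f, g, rfl⟩ := exists_sumCongr e (by
    push Not at h3
    obtain ⟨s, hs⟩ := h3
    obtain ⟨t, ht⟩ := Sum.isRight_iff.1 (Sum.not_isLeft.1 hs)
    rintro (i | i)
    · by_contra h4
      obtain ⟨t', ht'⟩ := Sum.isRight_iff.1 (Sum.not_isLeft.1 h4)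
      simpa [← ht] using h1 t' t (by simp [← ht'])
    · simpa using fun h => hs (h2 i s h))
  simp only [th_sub (cl_fam _) (cl_fam _), sum_th] at H
  simp only [th, toBlocks_fromBlocks₂₁, toBlocks_fromBlocks₁₁, toBlocks_fromBlocks₂₂, if_true,
    Finset.sum_const, nsmul_eq_mul, map_mul, mul_mul_mul_comm (ev (fam σ) _) (ev (fam ρ) _),
    ← Finset.mul_sum, ← Finset.sum_mul] at H
  exact Or.inl ⟨eq_of_sum_ne (right_ne_zero_of_mul (right_ne_zero_of_mul H)),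
    eq_of_sum_ne (left_ne_zero_of_mul (right_ne_zero_of_mul H))⟩

theorem Has.unique {L L' : List (Ir F)} {χ : Ir F} (c : ∀ ρ ∈ L, Cusp ρ) (c' : ∀ ρ ∈ L', Cusp ρ)
    (h : Has L χ) (h' : Has L' χ) : L.Perm L' := by
  induction hn : χ.1 using Nat.strong_induction_on generalizing χ L L' with | _ n ih => ?_
  subst hn
  rcases L with _ | ⟨ρ, L⟩ <;> rcases L' with _ | ⟨ρ', L'⟩
  · rfl
  · obtain ⟨σ, h1, -⟩ := h'
    have := h1.deg; have := (c' ρ' (by simp)).1; have : χ.1 = 0 := h; omega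
  · obtain ⟨σ, h1, -⟩ := h
    have := h1.deg; have := (c ρ (by simp)).1; have : χ.1 = 0 := h'; omega
  obtain ⟨σ, h1, h2⟩ := h
  obtain ⟨τ, h1', h2'⟩ := h'
  rw [List.forall_mem_cons] at c c'
  have := h1.deg; have := h1'.deg; have := c.1.1; have := c'.1.1
  rcases diamond c.1 c'.1 h1 h1' with ⟨rfl, rfl⟩ | ⟨η, h3, h4⟩
  · exact (ih _ (by omega) c.2 c'.2 h2 h2' rfl).cons _
  obtain ⟨M, h5, h6⟩ := exists_Has η
  exact ((ih _ (by omega) c.2 (List.forall_mem_cons.2 ⟨c'.1, h5⟩) h2 ⟨η, h3, h6⟩ rfl).cons _).trans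
    ((List.Perm.swap _ _ _).trans ((ih _ (by omega) (List.forall_mem_cons.2 ⟨c.1, h5⟩) c'.2
      ⟨η, h4, h6⟩ h2' rfl).cons _))

end Cfsg.Agent.KSG.HC
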