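import Mathlib
import Cfsg.Agent.KSG.HCSupp
import Cfsg.Agent.KSG.WeightBound
import Cfsg.Agent.Grp.CardProduct

/-!
# The Gelfand-Graev character of `GL_n(F)`: Harish-Chandra restriction, degrees of cuspidals
-/

set_option autoImplicit false
set_option linter.unusedSectionVars false

namespace Cfsg.Agent.KSG.HC

open Matrix Cfsg Cfsg.Agent.Char Cfsg.Agent.KSG.GLn
open scoped ComplexConjugate Pointwise

variable {F : Type*} [Field F] {ι κ α β : Type} [Fintype ι] [DecidableEq ι] [Fintype κ]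
  [DecidableEq κ] [Fintype α] [DecidableEq α] [Fintype β] [DecidableEq β] {p : ι → ℕ}
  {ψ : AddChar F ℂ}

/-- Unitriangular matrices for the position function `p`. -/
def IsU (p : ι → ℕ) (y : Matrix ι ι F) : Prop := ∀ i j, ¬p i < p j → y i j = (1 : Matrix ι ι F) i j

theorem IsU.mul {a b : Matrix ι ι F} (ha : IsU p a) (hb : IsU p b) : IsU p (a * b) := fun i j h => by
  rw [← mul_one (1 : Matrix ι ι F), mul_apply, mul_apply]
  refine Finset.sum_congr rfl fun k _ => ?_
  by_cases h1 : p i < p k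
  · rw [hb k j (by omega), one_apply_ne (by rintro rfl; omega), mul_zero, mul_zero]
  rw [ha i k h1]
  by_cases h2 : i = k
  · rw [← h2, hb i j h]
  · simp [h2]

theorem IsU.det {a : Matrix ι ι F} (ha : IsU p a) : a.det = 1 := by
  rw [BlockTriangular.det (b := p) fun i j h => (ha i j (by omega)).trans
    (one_apply_ne (by rintro rfl; omega))]
  exact Finset.prod_eq_one fun k _ => by
    rw [show a.toSquareBlock p k = 1 from ext fun i j => (ha i j (by rw [i.2, j.2]; omega)).trans
      (by simp [one_apply, Subtype.ext_iff]), det_one]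

theorem IsU.isUnit {a : Matrix ι ι F} (ha : IsU p a) : IsUnit a := by
  simp [isUnit_iff_isUnit_det, ha.det]

/-- Sum of the superdiagonal entries. -/
def sd (p : ι → ℕ) (y : Matrix ι ι F) : F := ∑ i, ∑ j, if p i + 1 = p j then y i j else 0

theorem sd_one : sd p (1 : Matrix ι ι F) = 0 :=
  Finset.sum_eq_zero fun i _ => Finset.sum_eq_zero fun j _ => by
    split_ifs with h
    exacts [one_apply_ne (by rintro rfl; omega), rfl]

theorem IsU.sd_mul {a b : Matrix ι ι F} (ha : IsU p a) (hb : IsU p b) :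
    sd p (a * b) = sd p a + sd p b := by
  simp only [sd, ← Finset.sum_add_distrib]
  refine Finset.sum_congr rfl fun i _ => Finset.sum_congr rfl fun j _ => ?_
  split_ifs with h
  swap
  · simp
  rw [← mul_one a, ← one_mul b, mul_one a, one_mul b, mul_apply, ← congrFun (congrFun (mul_one a) i) j,
    ← congrFun (congrFun (one_mul b) i) j, mul_apply, mul_apply, ← Finset.sum_add_distrib]
  refine Finset.sum_congr rfl fun k _ => ?_
  by_cases h1 : p i < p k
  · rw [hb k j (by omega), one_apply_ne (i := i) (by rintro rfl; omega), zero_mul, add_zero]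
  rw [ha i k h1]
  by_cases h2 : i = k
  · rw [← h2, one_apply_ne (j := j) (by rintro rfl; omega), mul_zero, zero_add]
  · simp [h2]

open Classical in
/-- The generic character of the unitriangular group, extended by zero. -/
noncomputable def wh (ψ : AddChar F ℂ) (p : ι → ℕ) (y : Matrix ι ι F) : ℂ :=
  if IsU p y then ψ (sd p y) else 0

theorem wh_of_not {y : Matrix ι ι F} (h : ¬IsUnit y) : wh ψ p y = 0 := if_neg (mt IsU.isUnit h)

theorem isU_sub (e : κ ≃ ι) {y : Matrix ι ι F} : IsU (p ∘ e) (y.submatrix e e) ↔ IsU p y := by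
  simp only [IsU, e.surjective.forall]
  simp [one_apply]

theorem wh_sub (e : κ ≃ ι) (y : Matrix ι ι F) : wh ψ (p ∘ e) (y.submatrix e e) = wh ψ p y := by
  rw [wh, wh, isU_sub, sd, sd, ← e.sum_comp]
  simp only [← e.sum_comp]; rfl

theorem sd_fromBlocks (p : α → ℕ) (r : β → ℕ) (c : Matrix α α F) (u : Matrix α β F) (x : Matrix β α F)
    (b : Matrix β β F) : sd (Sum.elim p r) (fromBlocks c u x b) = sd p c +
      (∑ i, ∑ j, if p i + 1 = r j then u i j else 0) +
        ((∑ i, ∑ j, if r i + 1 = p j then x i j else 0) + sd r b) := by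
  simp only [sd, Fintype.sum_sum_type, Finset.sum_add_distrib]
  rw [add_add_add_comm]; rfl

theorem wh_low {p : α → ℕ} {r : β → ℕ} (h : ∀ i j, r j < p i) (c : Matrix α α F) (u : Matrix α β F)
    (b : Matrix β β F) [Decidable (u = 0)] : wh ψ (Sum.elim p r) (fromBlocks c u 0 b) =
      if u = 0 then wh ψ p c * wh ψ r b else 0 := by
  have h1 : IsU (Sum.elim p r) (fromBlocks c u 0 b) ↔ u = 0 ∧ IsU p c ∧ IsU r b := by
    simp [IsU, ← fromBlocks_one, (h _ _).le, ← ext_iff, forall_and, and_comm, and_left_comm]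
  simp only [wh, h1, ite_and, ite_zero_mul_ite_zero, ← AddChar.map_add_eq_mul, sd_fromBlocks]
  split_ifs with h2 <;> simp_all

theorem wh_up {p : α → ℕ} {r : β → ℕ} (h : ∀ i j, p i < r j) (c : Matrix α α F) (u : Matrix α β F)
    (x : Matrix β α F) (b : Matrix β β F) [Decidable (x = 0)] :
    wh ψ (Sum.elim p r) (fromBlocks c u x b) = if x = 0 then wh ψ p c *
      (ψ (∑ i, ∑ j, if p i + 1 = r j then u i j else 0) * wh ψ r b) else 0 := by
  have h1 : IsU (Sum.elim p r) (fromBlocks c u x b) ↔ x = 0 ∧ IsU p c ∧ IsU r b := by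
    simp [IsU, ← fromBlocks_one, h, (h _ _).le, ← ext_iff, forall_and, and_comm, and_left_comm, and_assoc]
  simp only [wh, h1, ite_and, mul_ite, mul_zero, ite_mul, zero_mul, ← AddChar.map_add_eq_mul,
    sd_fromBlocks]
  split_ifs with h2 <;> simp_all [add_assoc]

variable [Fintype F] [DecidableEq F]

/-- The unitriangular group. -/
def Uni (F : Type*) [Field F] [Finite F] (p : ι → ℕ) : Subgroup (GL ι F) :=
  sg ⟨⟨{y | IsU p y.1}, IsU.mul⟩, fun _ _ _ => rfl⟩

theorem mem_Uni {y : GL ι F} : y ∈ Uni F p ↔ IsU p y.1 := Iff.rfl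

theorem isChar_wh : IsCharacter (Uni F p) fun y => ψ (sd p y.1.1) :=
  (isIrrCharacter_linear (MonoidHom.toHomUnits ⟨⟨fun y : Uni F p => ψ (sd p y.1.1), by simp [sd_one]⟩,
    fun a b => (congrArg ψ (IsU.sd_mul a.2 b.2)).trans (ψ.map_add_eq_mul _ _)⟩)).isCharacter

theorem ext_wh : extendByZero (Uni F p) (fun y => ψ (sd p y.1.1)) = fun y => wh ψ p y.1 := by
  funext y
  by_cases h : y ∈ Uni F p
  · rw [extendByZero_of_mem _ _ h, wh, if_pos (mem_Uni.1 h)]
  · rw [extendByZero_of_not_mem _ _ h, wh, if_neg (mt mem_Uni.2 h)]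

theorem sum_wh_one : ∑ y : Matrix ι ι F, wh 1 p y = Nat.card (Uni F p) := by
  classical
  rw [← sum_GL fun _ => wh_of_not]
  simp [wh, Fintype.card_subtype, mem_Uni]

/-- The Gelfand-Graev character. -/
noncomputable def gam (ψ : AddChar F ℂ) (p : ι → ℕ) : GL ι F → ℂ :=
  indFun (Uni F p) fun y => ψ (sd p y.1.1)

/-- The family of Gelfand-Graev characters. -/
noncomputable def Gam (ψ : AddChar F ℂ) : Fam F := fun _ => gam ψ Fin.val

theorem ch_Gam : Ch (Gam ψ) := fun _ => isCharacter_indFun _ isChar_wh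

theorem ev_Gam {n : ℕ} (e : Fin n ≃ ι) (h : p ∘ e = Fin.val) (y : GL ι F) :
    ev (Gam ψ) y.1 = gam ψ p y := by
  rw [ev_rx ch_Gam.cl e, Gam, gam, gam, indFun_apply', indFun_apply', ext_wh, ext_wh, ← h,
    ← sum_wh_one, ← sum_wh_one, ← (reindex e.symm e.symm).sum_comp, ← (rx e).toEquiv.sum_comp]
  congr 3
  · exact funext fun y => wh_sub e y
  · exact funext fun x => by beta_reduce; rw [← wh_sub e, ← coe_rx]; simp

theorem inner_Gam {n : ℕ} {Φ : Fam F} (h : Cl Φ) : classInner (Gam ψ n) (Φ n) =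
    (Nat.card (Uni F (Fin.val : Fin n → ℕ)) : ℂ)⁻¹ *
      ∑ y : Matrix (Fin n) (Fin n) F, wh ψ Fin.val y * conj (ev Φ y) := by
  rw [← classInner_conj_symm, Gam, gam, inner_ind_ext _ _ (h n), ext_wh,
    ← sum_GL fun A hA => by simp [wh_of_not hA]]
  simp [ev_fin h, mul_comm]

theorem sum_wh_th (hψ : ψ ≠ 1) {p : α ⊕ β → ℕ} {i : α} {j : β} (h : p (.inl i) + 1 = p (.inr j))
    (σ ρ : Fam F) : ∑ y, wh ψ p y * conj (th σ ρ y) = 0 := by
  refine sum_eq_zero_of_avg (fun t : F => un (single i j t)) (fun y t => congrArg _ ?_) fun y => ?_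
  · have k : (un (single i j t)).1.toBlocks₂₁ = 0 := rfl
    rw [th, th, (blocks_mul k).1, (blocks_mul k).2.1, (blocks_mul k).2.2]
    split_ifs <;> simp_all [un]
  have h1 : ∀ t : F, IsU p (un (single i j t)).1 := by
    rintro t (a | a) (b | b) hab <;> simp [un, one_apply, single_apply]
    rintro rfl rfl; omega
  have h2 : ∀ t : F, sd p (un (single i j t)).1 = t := fun t => by
    rw [← Sum.elim_comp_inl_inr p, un, sd_fromBlocks, sd_one, sd_one, Finset.sum_eq_single i
      (fun a _ ha => by simp [single_apply, ha.symm]) (by simp), Finset.sum_eq_single j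
      (fun a _ ha => by simp [single_apply, ha.symm]) (by simp)]
    simp [h]
  by_cases hy : IsU p y
  · simp only [wh, hy.mul (h1 _), hy.sd_mul (h1 _), h2, if_true, AddChar.map_add_eq_mul,
      ← Finset.mul_sum, AddChar.sum_eq_zero_iff_ne_zero.2 hψ, mul_zero]
  · refine Finset.sum_eq_zero fun t _ => if_neg fun h => hy ?_
    simpa [un, mul_assoc, fromBlocks_multiply, ← single_add] using h.mul (h1 (-t))

theorem exists_adj {p : α ⊕ β → ℕ} (hp : ∀ x k, k < p x → ∃ y, p y = k) {j : β}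
    (hj : Fintype.card β ≤ p (.inr j)) : ∃ i j, p (.inl i) + 1 = p (.inr j) := by
  by_contra! H
  have : ∀ k, k ≤ p (.inr j) → p (.inr j) - k ∈ Finset.univ.image (p ∘ .inr) := fun k => by
    induction k with
    | zero => simp
    | succ k ih =>
      intro hk
      obtain ⟨j', -, h1⟩ := Finset.mem_image.1 (ih (by omega))
      obtain ⟨i | i, h2⟩ := hp (.inr j) (p (.inr j) - (k + 1)) (by omega)
      · exact absurd (by simp at h1; omega) (H i j')
      · exact Finset.mem_image.2 ⟨i, by simp, h2⟩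
  have h1 := Finset.card_le_card (show Finset.range (p (.inr j) + 1) ⊆ _ from fun k hk => by
    simpa only [Nat.sub_sub_self (Finset.mem_range_succ_iff.1 hk)] using this _ (Nat.sub_le _ k))
  have := Finset.card_image_le (s := Finset.univ) (f := p ∘ .inr)
  simp only [Finset.card_range, Finset.card_univ] at h1 this
  omega

theorem exists_uni_mul_diag (hp : Function.Injective p) {b : GL ι F} (hb : b.1.BlockTriangular p) :
    ∃ u ∈ Uni F p, ∃ t : GL ι F, (∀ i j, i ≠ j → t.1 i j = 0) ∧ b = u * t := by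
  have h1 : ∀ i, b.1 i i ≠ 0 := fun i h => by
    have := b.det_ne_zero
    rw [hb.det] at this
    refine Finset.prod_ne_zero_iff.1 this (p i) (by simp) (det_eq_zero_of_row_eq_zero ⟨i, rfl⟩ fun j => ?_)
    simpa [toSquareBlock_def, hp j.2] using h
  let t : GL ι F := ⟨diagonal fun i => b.1 i i, diagonal fun i => (b.1 i i)⁻¹, by simp [h1], by simp [h1]⟩
  refine ⟨b * t⁻¹, fun i j h => ?_, t, fun i j h => diagonal_apply_ne _ h, by simp⟩
  by_cases e : i = j
  · subst e; simp [t, h1]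
  · simp [t, e, hb (show p j < p i from lt_of_le_of_ne (by omega) fun e' => e (hp e').symm)]

theorem inner_D_Gam (hψ : ψ ≠ 1) {ρ σ : Fam F} (hρ : Ch ρ) (hσ : Ch σ) (a d : ℕ) :
    classInner (D d ρ (Gam ψ) a) (σ a) = classInner (Gam ψ a) (σ a) * classInner (Gam ψ d) (ρ d) := by
  classical
  let p : Fin a ⊕ Fin d → ℕ := Sum.elim (fun i => d + i) Fin.val
  let e : Fin (d + a) ≃ Fin a ⊕ Fin d := finSumFinEquiv.symm.trans (Equiv.sumComm _ _)
  have he : p ∘ e = Fin.val := funext fun i => by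
    obtain ⟨i | i, rfl⟩ := finSumFinEquiv.surjective i <;> simp [p, e]
  have hp : ∀ x, p x = e.symm x := fun x => by rw [← he]; simp
  have hl : ∀ (i : Fin a) (j : Fin d), j.val < d + i := fun i j => by omega
  let M : GL (Fin a ⊕ Fin d) F → ℂ := fun x =>
    ∑ y : GL (Fin a ⊕ Fin d) F, wh ψ p (x * y * x⁻¹).1 * conj (th σ ρ y.1)
  have M1 : ∀ u ∈ Uni F p, ∀ x, ∀ k ∈ Par F (Fin a) (Fin d), M (u * x * k) = M x := fun u hu x k hk =>
    Fintype.sum_equiv (MulAut.conj k).toEquiv _ _ fun y => by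
      have := extendByZero_conj _ (isChar_wh (ψ := ψ)).isClassFunction hu (x * (k * y * k⁻¹) * x⁻¹)
      rw [ext_wh] at this
      rw [← th_conj hσ hρ hk y]
      exact congrArg (· * _) (by simpa [mul_assoc] using this)
  have M2 : ∀ x, M x = if x ∈ (Uni F p : Set (GL _ F)) * (Par F (Fin a) (Fin d) : Set (GL _ F))
      then M 1 else 0 := by
    intro x
    split_ifs with h
    · obtain ⟨u, hu, k, hk, rfl⟩ := h
      simpa using M1 u hu 1 k hk
    obtain ⟨b, k, w, hb, hk, rfl⟩ := exists_bruhat_lab p (Sum.elim 0 1) x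
    obtain ⟨u, hu, t, ht, rfl⟩ := exists_uni_mul_diag (fun x y h => e.symm.injective
      (Fin.ext (by rwa [hp, hp] at h))) hb
    have h1 : (pm F w)⁻¹ * t * pm F w * k ∈ Par F (Fin a) (Fin d) := mul_mem (by
      rw [mem_Par, ← map_inv, Units.val_mul, Units.val_mul, pm_conj]
      ext i j; exact ht _ _ (by simp)) (by ext i j; exact hk (by simp))
    rw [show u * t * pm F w * k = u * pm F w * ((pm F w)⁻¹ * t * pm F w * k) by simp [mul_assoc]] at h ⊢
    obtain ⟨j, hj⟩ : ∃ j, d ≤ p (w (.inr j)) := by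
      by_contra! H
      refine h ⟨u, hu, _, mul_mem (inv_mem_iff.1 ?_) h1, (mul_assoc _ _ _).symm⟩
      rw [mem_Par, ← map_inv]
      ext j i
      have := H j
      refine (pm_apply _ _ _).trans (if_neg fun e' => ?_)
      simp [e', p] at this
    obtain ⟨i, j, hij⟩ := exists_adj (p := p ∘ w) (j := j) (fun x k hk => ⟨w.symm (e ⟨k, hk.trans
      (by simp [hp])⟩), by simp [hp]⟩) (by simpa)
    rw [M1 u hu _ _ h1, ← sum_wh_th hψ hij σ ρ, ← sum_GL fun A hA => by simp [wh_of_not hA]]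
    refine Finset.sum_congr rfl fun y _ => congrArg (· * _) ?_
    rw [← wh_sub w, ← pm_conj]
    simp [mul_assoc]
  have M3 : ∀ (ψ : AddChar F ℂ) (f g : _ → ℂ), ∑ c : Matrix (Fin a) (Fin a) F,
      ∑ b : Matrix (Fin d) (Fin d) F, ∑ u, wh ψ p (fromBlocks c u 0 b) * (f c * g b) =
      (∑ c, wh ψ Fin.val c * f c) * ∑ b, wh ψ Fin.val b * g b := fun ψ f g => by
    have : ∀ c : Matrix (Fin a) (Fin a) F, wh ψ (fun i : Fin a => d + i) c = wh ψ Fin.val c := fun c => by
      simp [wh, IsU, sd, add_assoc]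
    simp [p, wh_low hl, this, Finset.sum_mul_sum, mul_mul_mul_comm]
  have c1 := Grp.card_mul_card_eq (Uni F p) (Par F (Fin a) (Fin d))
  have c2 : (Nat.card (Uni F p ⊓ Par F (Fin a) (Fin d) :) : ℂ) = Nat.card (Uni F (Fin.val : Fin a → ℕ)) *
      Nat.card (Uni F (Fin.val : Fin d → ℕ)) := by
    have := M3 1 1 1
    simp only [Pi.one_apply, mul_one, sum_wh_one] at this
    rw [← this, ← sum_par, ← sum_GL fun A hA => by simp [wh_of_not hA]]
    simp [wh, Fintype.card_subtype, mem_Uni, mem_Par, ← ite_and, and_comm]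
  rw [inner_D hρ.cl hσ.cl ch_Gam.cl (Fintype.card_fin a) (Fintype.card_fin d),
    ← sum_GL fun A hA => by simp [th_of_not hA]]
  simp only [ev_Gam e he]
  have h1 := inner_ind_ext (Par F (Fin a) (Fin d)) (fun y => ev σ (p1 y) * ev ρ (p2 y))
    (isClassFunction_indFun (Uni F p) fun y => ψ (sd p y.1.1))
  rw [inner_ind_ind, ext_th, ext_wh] at h1
  rw [gam, ← h1, Finset.sum_congr rfl fun x _ => M2 x, inner_Gam hσ.cl, inner_Gam hρ.cl,
    mul_mul_mul_comm, ← M3, ← mul_inv, ← mul_inv, ← c2, ← Nat.cast_mul, c1, ← Finset.sum_filter,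
    Finset.sum_const, ← Fintype.card_subtype, ← Nat.card_eq_fintype_card]
  simp only [M, one_mul, inv_one, mul_one]
  rw [sum_GL (f := fun y => wh ψ p y * conj (th σ ρ y)) fun A hA => by simp [wh_of_not hA], sum_th]
  simp only [map_mul, Nat.cast_mul, nsmul_eq_mul, mul_inv, mul_assoc]
  exact congrArg _ (inv_mul_cancel_left₀ (Nat.cast_ne_zero.2 (Nat.card_pos_iff.2
    ⟨⟨1, 1, one_mem _, 1, one_mem _, mul_one _⟩, inferInstance⟩).ne') _)

end Cfsg.Agent.KSG.HC
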