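import Mathlib
import Cfsg.Agent.KSG.GGWh

/-!
# Degree of a cuspidal character of `GL_n(F)` in terms of its Gelfand-Graev multiplicity
-/

set_option autoImplicit false
set_option linter.unusedSectionVars false

namespace Cfsg.Agent.KSG.HC

open Matrix Cfsg Cfsg.Agent.Char Cfsg.Agent.KSG.GLn
open scoped ComplexConjugate

variable {F : Type*} [Field F] {α β β' : Type} [Fintype α] [DecidableEq α] [Fintype β] [DecidableEq β]
  [Fintype β'] [DecidableEq β'] {ψ : AddChar F ℂ} {Φ : Fam F}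

theorem exists_vecMul_eq {r r' : α → F} (h : r ≠ 0) (h' : r' ≠ 0) : ∃ g : GL α F, r ᵥ* g.1 = r' := by
  obtain ⟨c, h1, h2⟩ : ∃ c, r ⬝ᵥ c ≠ 0 ∧ r' ⬝ᵥ c ≠ 0 := by
    obtain ⟨i, hi⟩ := Function.ne_iff.1 h
    obtain ⟨j, hj⟩ := Function.ne_iff.1 h'
    by_cases a : r' i = 0
    · by_cases b : r j = 0
      · exact ⟨Pi.single i 1 + Pi.single j 1, by simpa [b] using hi, by simpa [a] using hj⟩
      · exact ⟨Pi.single j 1, by simpa using b, by simpa using hj⟩
    · exact ⟨Pi.single i 1, by simpa using hi, by simpa using a⟩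
  refine ⟨GeneralLinearGroup.mkOfDetNeZero (1 + vecMulVec ((r ⬝ᵥ c)⁻¹ • c) (r' - r)) ?_, ?_⟩
  · rw [vecMulVec_eq Unit, det_one_add_replicateCol_mul_replicateRow]
    simp [h1, h2, mul_sub]
  · simp [vecMul_add, vecMul_smul, vecMul_vecMulVec, smul_smul, h1]

variable [Fintype F] [DecidableEq F]

/-- Partial Whittaker sums. -/
noncomputable def EE (ψ : AddChar F ℂ) (Φ : Fam F) (p : β → ℕ) (r : α → F) : ℂ :=
  ∑ y : Matrix β β F, ∑ u : Matrix α β F, ev Φ (fromBlocks 1 u 0 y) *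
    conj (ψ (∑ j, if p j = 0 then (r ᵥ* u) j else 0) * wh ψ p y)

theorem EE_sub (h : Cl Φ) (e : β' ≃ β) (p : β → ℕ) (r : α → F) : EE ψ Φ (p ∘ e) r = EE ψ Φ p r := by
  refine Fintype.sum_equiv (reindex e e) _ _ fun b => Fintype.sum_equiv (reindex (.refl _) e) _ _
    fun u => ?_
  rw [← wh_sub e, ← ev_sub h ((Equiv.refl _).sumCongr e), ← e.sum_comp]
  congr 2
  · ext (i | i) (j | j) <;> simp [one_apply]
  · simp [vecMul, dotProduct]

theorem EE_eq (h : Cl Φ) (p : β → ℕ) {r r' : α → F} (h1 : r ≠ 0) (h2 : r' ≠ 0) :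
    EE ψ Φ p r = EE ψ Φ p r' := by
  obtain ⟨k, rfl⟩ := exists_vecMul_eq h1 h2
  refine (Finset.sum_congr rfl fun b _ => Fintype.sum_bijective (fun u => (k : Matrix α α F) * u)
    ⟨fun u v e => by simpa [← Matrix.mul_assoc] using congrArg ((k⁻¹).1 * ·) e, fun u =>
      ⟨(k⁻¹).1 * u, by simp [← Matrix.mul_assoc]⟩⟩ _ _ fun u => ?_).symm
  have := ev_mul_comm h (fromBlocks (k⁻¹).1 u 0 b) (fromBlocks k.1 0 0 1)
  simp only [fromBlocks_multiply] at this
  simpa using Or.inl this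

theorem EE_zero {ρ : Ir F} (h : Cusp ρ) [Nonempty α] [Nonempty β] (p : β → ℕ) :
    EE ψ (fam ρ) p (0 : α → F) = 0 := Finset.sum_eq_zero fun y _ => by
  have := h.sum_un (α := α) (β := β) (.refl _) (fromBlocks 1 0 0 y)
  simp only [coe_rx, un, fromBlocks_multiply, Equiv.coe_refl, submatrix_id_id] at this
  simpa [← Finset.sum_mul] using Or.inl this

theorem EE_sum (hψ : ψ ≠ 1) (h : Cl Φ) (p : β → ℕ) :
    ∑ r : α → F, EE ψ Φ (Sum.elim (fun _ : Unit => 0) (p · + 1)) r =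
      Fintype.card F ^ Fintype.card α * EE ψ Φ p (Sum.elim 0 1 : α ⊕ Unit → F) := by
  have h1 : ∀ u : Matrix α Unit F, ∑ r : α → F, conj (ψ ((r ᵥ* u) ())) =
      if u = 0 then (Fintype.card F : ℂ) ^ Fintype.card α else 0 := fun u => by
    split_ifs with hu
    · simp [hu]
    rw [← map_sum, map_eq_zero]
    exact sum_addChar_dual_eq_zero hψ (f := LinearMap.proj () ∘ₗ u.vecMulLinear) fun e => hu <| by
      ext i j; simpa using LinearMap.congr_fun e (Pi.single i 1)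
  have h2 : ∀ c : Matrix Unit Unit F, wh ψ (fun _ => 0) c = if c = 1 then 1 else 0 := fun c => by
    simp [wh, IsU, sd, ← ext_iff]
  have h3 : ∀ c : Matrix β β F, wh ψ (p · + 1) c = wh ψ p c := fun c => by
    classical exact if_congr (by simp [IsU]) (by simp [sd]) rfl
  have h4 : ∀ (f : Matrix α (Unit ⊕ β) F → ℂ) (z : ℂ), ∑ r : α → F, ∑ u, f u * conj (ψ (∑ j,
      if Sum.elim (fun _ : Unit => 0) (p · + 1) j = 0 then (r ᵥ* u) j else 0) * z) =
      Fintype.card F ^ Fintype.card α * ∑ y, f (fromCols 0 y) * conj z := fun f z => by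
    rw [Finset.sum_comm, sum_fromCols, Finset.sum_comm, Finset.mul_sum]
    refine Finset.sum_congr rfl fun y _ => ?_
    simp [← Finset.mul_sum, ← Finset.sum_mul, vecMul_fromCols, -map_sum, h1, mul_left_comm]
  simp only [EE]
  rw [Finset.sum_comm, sum_fromBlocks]
  simp only [wh_up (p := fun _ : Unit => 0) (r := (p · + 1)) (fun _ _ => by simp), h2, h3, h4,
    sum_fromRows (β := Unit) (α := α), ← Finset.mul_sum]
  rw [Finset.sum_eq_single 1 (fun c _ hc => by simp [hc]) (by simp)]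
  refine congrArg _ (Finset.sum_congr rfl fun b _ => Eq.trans ?_ Finset.sum_comm)
  refine Finset.sum_congr rfl fun w _ => (Finset.sum_eq_single 0 (fun c _ hc => by simp [hc])
    (by simp)).trans (Finset.sum_congr rfl fun u _ => ?_)
  rw [← ev_sub h (Equiv.sumAssoc _ _ _)]
  congr 2
  · ext ((i | i) | i) ((j | j) | j) <;> simp [one_apply]
  · simp [vecMul, dotProduct]

theorem ev_one : ev Φ (1 : Matrix α α F) = Φ (Fintype.card α) 1 := by
  rw [ev, submatrix_one_equiv]; exact hat_coe _ 1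

theorem EE_succ (hψ : ψ ≠ 1) (h : Cl Φ) (k : ℕ) : ∑ r : α → F, EE ψ Φ (Fin.val : Fin (k + 1) → ℕ) r =
    Fintype.card F ^ Fintype.card α * EE ψ Φ (Fin.val : Fin k → ℕ) (Sum.elim 0 1 : α ⊕ Unit → F) := by
  let e : Unit ⊕ Fin k ≃ Fin (k + 1) := ((Equiv.sumComm _ _).trans
    (Equiv.optionEquivSumPUnit _).symm).trans (finSuccEquiv k).symm
  simp only [← EE_sum hψ h, ← EE_sub h e]
  congr! 2
  ext (i | i) <;> simp [e]

theorem EE_one (hψ : ψ ≠ 1) {ρ : Ir F} (h : Cusp ρ) (n k : ℕ) : ∀ (α : Type) [Fintype α] [DecidableEq α]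
    (r : α → F), r ≠ 0 → ∀ a, Fintype.card α = a → a + k = n →
      (∏ j ∈ Finset.Ico a n, (Fintype.card F : ℂ) ^ j) * fam ρ n 1 =
        (∏ j ∈ Finset.Ico a n, ((Fintype.card F : ℂ) ^ j - 1)) * EE ψ (fam ρ) (Fin.val : Fin k → ℕ) r := by
  induction k with
  | zero =>
    rintro α _ _ r _ _ rfl rfl
    have := ev_one (Φ := fam ρ) (α := α ⊕ Fin 0)
    rw [Fintype.card_sum, Fintype.card_fin] at this
    rw [← this, EE, Fintype.sum_subsingleton _ 1, Fintype.sum_subsingleton _ 0]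
    simp [wh, IsU, sd]
  | succ k ih =>
    intro α _ _ r hr a ha hn
    have : Nonempty α := (Function.ne_iff.1 hr).nonempty
    have h1 := EE_succ (α := α) hψ (cl_fam ρ) k
    have h2 := ih (α ⊕ Unit) (Sum.elim 0 1) (fun e => by simpa using congrFun e (.inr ())) (a + 1)
      (by simp [ha]) (by omega)
    rw [← Finset.add_sum_erase _ _ (Finset.mem_univ 0), EE_zero h, zero_add, Finset.sum_congr rfl
      fun s hs => EE_eq (cl_fam ρ) _ (Finset.ne_of_mem_erase hs) hr, ha] at h1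
    rw [Finset.prod_eq_prod_Ico_succ_bot (show a < n by omega), mul_assoc, h2, mul_left_comm, ← h1,
      Finset.prod_eq_prod_Ico_succ_bot (show a < n by omega)]
    simp [Fintype.card_pos, mul_comm, mul_left_comm, mul_assoc, ha]

theorem Cusp.degree (hψ : ψ ≠ 1) {ρ : Ir F} (h : Cusp ρ) :
    (∏ j ∈ Finset.Ico 1 ρ.1, (Fintype.card F : ℂ) ^ j) * ρ.2.1 1 =
      (∏ j ∈ Finset.Ico 1 ρ.1, ((Fintype.card F : ℂ) ^ j - 1)) *
        (Nat.card (Uni F (Fin.val : Fin ρ.1 → ℕ)) * conj (classInner (Gam ψ ρ.1) ρ.2.1)) := by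
  have h0 := fam_self ρ
  obtain ⟨k, hk⟩ : ∃ k, ρ.1 = k + 1 := Nat.exists_eq_succ_of_ne_zero h.1.ne'
  have h1 := EE_succ (α := Fin 0) hψ (cl_fam ρ) k
  have h2 := EE_one hψ h (k + 1) k (Fin 0 ⊕ Unit) (Sum.elim 0 1)
    (fun e => by simpa using congrFun e (.inr ())) 1 (by simp) (by omega)
  rw [Fintype.card_fin, pow_zero, one_mul] at h1
  rw [← h0, inner_Gam (cl_fam ρ), map_mul, map_inv₀, map_natCast, mul_inv_cancel_left₀ (card_ne_zero _),
    hk, h2, ← h1, Fintype.sum_subsingleton _ 0, EE, map_sum]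
  refine congrArg _ (Finset.sum_congr rfl fun y _ => ?_)
  rw [Fintype.sum_subsingleton _ 0, ← ev_sub (cl_fam ρ) (Equiv.emptySum _ _).symm, map_mul, map_mul,
    Complex.conj_conj, mul_comm]
  congr 1
  simp

end Cfsg.Agent.KSG.HC
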