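import Mathlib
import Cfsg.Agent.Char.Irr

/-!
# The Gelfand trick for a linear character of a subgroup
-/

set_option autoImplicit false

namespace Cfsg.Agent.KSG

open Cfsg Cfsg.Agent.Char Module

/-- Gelfand trick: `w` is a linear character of `H` extended by zero, `σ` an anti-involution fixing
the relevant double cosets. -/
theorem gelfand_trick {G : Type*} [Group G] [Fintype G] (H : Subgroup G) (w : G → ℂ) (σ : G → G)
    (h0 : ∀ g ∉ H, w g = 0) (h1 : w 1 = 1) (hl : ∀ u ∈ H, ∀ g, w (u * g) = w u * w g)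
    (hr : ∀ u ∈ H, ∀ g, w (g * u) = w g * w u) (hσ : ∀ a b, σ (a * b) = σ b * σ a)
    (hσσ : ∀ a, σ (σ a) = a) (hw : ∀ g, w (σ g) = w g)
    (hrel : ∀ g, (∃ y ∈ H, ∃ y' ∈ H, g * y = y' * g ∧ w y ≠ w y') ∨
      ∃ u ∈ H, ∃ u' ∈ H, σ g = u * g * u' ∧ w u * w u' = 1) {χ : G → ℂ} (hχ : IsIrrCharacter G χ) :
    ∑ g, w g * χ g⁻¹ = 0 ∨ ∑ g, w g * χ g⁻¹ = Nat.card H := by
  classical
  obtain ⟨n, ρ, hρ, rfl⟩ := hχ
  have hH : (Nat.card H : ℂ) ≠ 0 := card_ne_zero _
  let E : End ℂ (Fin n → ℂ) := ∑ g, w g • ρ g⁻¹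
  have e1 : ∀ u ∈ H, ρ u * E = w u • E := fun u hu => by
    simp only [E, Finset.mul_sum, Finset.smul_sum, mul_smul_comm, ← map_mul, smul_smul]
    exact Fintype.sum_equiv (Equiv.mulRight u⁻¹) _ _ fun g => by simp [mul_comm (w u), ← hr u hu]
  have e2 : ∀ u ∈ H, E * ρ u = w u • E := fun u hu => by
    simp only [E, Finset.sum_mul, Finset.smul_sum, smul_mul_assoc, ← map_mul, smul_smul]
    exact Fintype.sum_equiv (Equiv.mulLeft u⁻¹) _ _ fun g => by simp [← hl u hu]
  have e3 : E * E = (Nat.card H : ℂ) • E := by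
    rw [Nat.card_eq_fintype_card, Fintype.card_subtype, Finset.card_filter, Nat.cast_sum, Finset.sum_smul]
    refine (Finset.sum_mul _ _ _).trans (Finset.sum_congr rfl fun g _ => ?_)
    by_cases h : g ∈ H
    · simp [h, e1 _ (inv_mem h), smul_smul, ← hl g h, h1]
    · simp [h, h0 g h]
  let A : G → End ℂ (Fin n → ℂ) := fun g => E * ρ g * E
  have a1 : ∀ u ∈ H, ∀ g, A (u * g) = w u • A g := fun u hu g => by
    simp only [A, map_mul, ← mul_assoc, e2 u hu, smul_mul_assoc]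
  have a2 : ∀ u ∈ H, ∀ g, A (g * u) = w u • A g := fun u hu g => by
    simp only [A, map_mul, mul_assoc, e1 u hu, mul_smul_comm]
  have a3 : ∀ g, A g ≠ 0 → A (σ g) = A g := fun g hg => by
    obtain ⟨y, hy, y', hy', e, h⟩ | ⟨u, hu, u', hu', e, h⟩ := hrel g
    · exact absurd (smul_left_injective ℂ hg (by simp only [← a2 y hy, ← a1 y' hy', e])) h
    · rw [e, a2 _ hu', a1 _ hu, smul_smul, mul_comm, h, one_smul]
  have a4 : ∀ g, A (σ g) = A g := fun g => by
    by_contra h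
    exact h ((a3 _ fun e => h (e.trans (by_contra fun e' => h (a3 g (Ne.symm e'))))).symm.trans
      (congrArg A (hσσ g)))
  have σ1 : σ 1 = 1 := by simpa using hσ 1 1
  have a5 : ∀ g h, A g * ρ h * E = ∑ x, w x • A (g * x⁻¹ * h) := fun g h => by
    simp only [A, map_mul]
    conv_lhs => rw [show E * ρ g * E = E * ρ g * ∑ g, w g • ρ g⁻¹ from rfl]
    simp [Finset.mul_sum, Finset.sum_mul, mul_assoc]
  have a6 : ∀ g h, A g * A h = A h * A g := fun g h => by
    have : ∀ g h, A g * A h = (Nat.card H : ℂ) • (A g * ρ h * E) := fun g h => by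
      simp only [A, mul_assoc, ← mul_assoc E E, e3, smul_mul_assoc, mul_smul_comm]
    rw [this, ← a4 h, ← a4 g, this (σ h), a4, a5, a5]
    refine congrArg _ (Fintype.sum_equiv (Function.Involutive.toPerm σ hσσ) _ _ fun x => ?_)
    have : σ x⁻¹ = (σ x)⁻¹ := eq_inv_of_mul_eq_one_right (by rw [← hσ, inv_mul_cancel, σ1])
    rw [← a4 (g * x⁻¹ * h), hσ, hσ, this, ← hw, ← mul_assoc]; rfl
  have a7 : ∀ g y, A g (E y) = (Nat.card H : ℂ) • A g y := fun g y => by
    rw [← End.mul_apply, mul_assoc, e3, mul_smul_comm, LinearMap.smul_apply]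
  have b1 : ∀ (U : Submodule ℂ (Fin n → ℂ)) (x), E x ≠ 0 → (∀ g, A g x ∈ U) → ∀ y, E y ∈ U :=
    fun U x hx h y => by
    have := (((isIrreducible_iff ρ).1 hρ).2 (⨅ g, U.comap (E * ρ g)) fun g v hv => by
      simpa [← End.mul_apply, mul_assoc, ← map_mul] using fun k => (Submodule.mem_iInf _).1 hv (k * g))
    obtain e | e := this
    · exact absurd (e.le ((Submodule.mem_iInf _).2 h)) hx
    · simpa using (Submodule.mem_iInf _).1 (e.ge (Submodule.mem_top (x := y))) 1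
  rw [show ∑ g, w g * ρ.character g⁻¹ = LinearMap.trace ℂ _ E by simp [E, Representation.character]]
  obtain e | e := eq_or_ne E 0
  · simp [e]
  obtain ⟨x, hx⟩ := DFunLike.ne_iff.1 e
  have b2 : ∀ h, ∃ μ : ℂ, A h (E x) = μ • E x := fun h => by
    have : Nontrivial (LinearMap.range E) := Submodule.nontrivial_iff_ne_bot.2 (mt LinearMap.range_eq_bot.1 e)
    obtain ⟨μ, hμ⟩ := End.exists_eigenvalue ((A h).restrict (p := LinearMap.range E)
      (q := LinearMap.range E) fun y _ => ⟨_, rfl⟩)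
    obtain ⟨⟨_, v, rfl⟩, hv⟩ := hμ.exists_hasEigenvector
    have h2 : A h (E v) = μ • E v := congrArg Subtype.val hv.apply_eq_smul
    refine ⟨μ, End.mem_eigenspace_iff.1 (b1 _ v (fun e => hv.2 (Subtype.ext e)) (fun g => ?_) x)⟩
    refine (Submodule.smul_mem_iff _ hH).1 (End.mem_eigenspace_iff.2 ?_)
    rw [← a7, ← End.mul_apply, a6, End.mul_apply, h2, map_smul]
  have b3 : LinearMap.IsProj (ℂ ∙ E x) ((Nat.card H : ℂ)⁻¹ • E) := ⟨fun y => Submodule.smul_mem _ _
    (b1 _ x hx (fun g => (Submodule.smul_mem_iff _ hH).1 (by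
      obtain ⟨μ, h⟩ := b2 g
      exact Submodule.mem_span_singleton.2 ⟨μ, by rw [← a7, h]⟩)) y), fun y hy => by
    obtain ⟨c, rfl⟩ := Submodule.mem_span_singleton.1 hy
    simp [← End.mul_apply, e3, smul_smul, hH]⟩
  have := b3.trace
  rw [finrank_span_singleton hx, map_smul, smul_eq_mul, inv_mul_eq_iff_eq_mul₀ hH] at this
  simp [this]

end Cfsg.Agent.KSG
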