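import Mathlib
import Cfsg.Agent.KSG.GGDeg
import Cfsg.Agent.KSG.Gelfand
import Cfsg.Agent.KSG.CoprimeCount

/-!
# The Gelfand-Graev character of `GL_n(F)`: norm and multiplicity one, through Hessenberg matrices
-/

set_option autoImplicit false
set_option linter.unusedSectionVars false

namespace Cfsg.Agent.KSG.HC

open Matrix Polynomial Cfsg Cfsg.Agent.Char Cfsg.Agent.KSG.GLn
open scoped ComplexConjugate

variable {F : Type*} [Field F] {n r s : ℕ} {ψ : AddChar F ℂ}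

/-- `y` agrees with the `r`-th lower shift on and below the `r`-th subdiagonal. -/
def T (r : ℕ) (y : Matrix (Fin n) (Fin n) F) : Prop :=
  ∀ i j : Fin n, j.val + r ≤ i.val → y i j = if i.val = j.val + r then 1 else 0

theorem T_zero {y : Matrix (Fin n) (Fin n) F} : T 0 y ↔ IsU Fin.val y := by
  simp [T, IsU, one_apply, Fin.ext_iff]

theorem T.mul {a b : Matrix (Fin n) (Fin n) F} (ha : T r a) (hb : T s b) : T (r + s) (a * b) :=
  fun i j h => by
  rw [mul_apply, Finset.sum_eq_single ⟨j + s, by omega⟩ (fun k _ hk => ?_) (by simp),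
    hb _ _ le_rfl, if_pos rfl, mul_one, ha _ _ (by simp; omega), add_assoc, add_comm s]
  by_cases h1 : j + s ≤ k
  · rw [hb _ _ h1, if_neg fun e => hk (Fin.ext e), mul_zero]
  · rw [ha _ _ (by omega), if_neg (by omega), zero_mul]

theorem T.pow {a : Matrix (Fin n) (Fin n) F} (ha : T 1 a) : ∀ k, T k (a ^ k)
  | 0 => T_zero.2 fun _ _ _ => rfl
  | k + 1 => pow_succ a k ▸ (ha.pow k).mul ha

/-- The anti-automorphism `g ↦ w₀ gᵀ w₀`. -/
def tw (A : Matrix (Fin n) (Fin n) F) : Matrix (Fin n) (Fin n) F :=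
  (A.submatrix Fin.revPerm Fin.revPerm)ᵀ

theorem tw_mul (A B : Matrix (Fin n) (Fin n) F) : tw (A * B) = tw B * tw A := by
  simp [tw, ← transpose_mul]

theorem tw_tw (A : Matrix (Fin n) (Fin n) F) : tw (tw A) = A := by ext; simp [tw]

theorem tw_one : tw (1 : Matrix (Fin n) (Fin n) F) = 1 := by simp [tw]

theorem T.tw {a : Matrix (Fin n) (Fin n) F} (ha : T r a) : T r (tw a) := fun i j h =>
  (ha _ _ (by simp; omega)).trans (if_congr (by simp; omega) rfl rfl)

theorem wh_tw (y : Matrix (Fin n) (Fin n) F) : wh ψ Fin.val (tw y) = wh ψ Fin.val y := by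
  classical
  refine if_congr ⟨fun h => ?_, fun h => T_zero.1 (T_zero.2 h).tw⟩ (congrArg _ ?_) rfl
  · exact T_zero.1 (tw_tw y ▸ (T_zero.2 h).tw)
  refine Finset.sum_comm.trans (Fintype.sum_equiv Fin.revPerm _ _ fun i =>
    Fintype.sum_equiv Fin.revPerm _ _ fun j => if_congr (by simp; omega) rfl rfl)

theorem tw_aeval (A : Matrix (Fin n) (Fin n) F) (f : F[X]) : tw (aeval A f) = aeval (tw A) f := by
  rw [tw, tw, aeval_transpose]
  exact congrArg _ (aeval_algHom_apply (reindexAlgEquiv F F Fin.revPerm.symm) A f).symm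

theorem charpoly_tw (A : Matrix (Fin n) (Fin n) F) : (tw A).charpoly = A.charpoly :=
  (charpoly_transpose _).trans (charpoly_reindex Fin.revPerm.symm A)

/-- Krylov matrix. -/
def Kr (A : Matrix (Fin n) (Fin n) F) (v : Fin n → F) : Matrix (Fin n) (Fin n) F :=
  of fun i j => (A ^ j.val *ᵥ v) i

theorem mul_Kr {g A A' : Matrix (Fin n) (Fin n) F} (h : g * A = A' * g) (v : Fin n → F) :
    g * Kr A v = Kr A' (g *ᵥ v) := by
  ext i j
  rw [Kr, Kr, of_apply, mulVec_mulVec, ← (SemiconjBy.pow_right h j).eq, ← mulVec_mulVec]; rfl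

/-- Companion matrix. -/
def Cm (n : ℕ) (f : F[X]) : Matrix (Fin (n + 1)) (Fin (n + 1)) F :=
  of fun i j => if j = Fin.last n then -f.coeff i else if i.val = j.val + 1 then 1 else 0

theorem T_Cm (f : F[X]) : T 1 (Cm n f) := fun i j h => if_neg (by rintro rfl; simp at h; omega)

theorem mul_Kr_self (A : Matrix (Fin (n + 1)) (Fin (n + 1)) F) (v : Fin (n + 1) → F) :
    A * Kr A v = Kr A v * Cm n A.charpoly := by
  rw [mul_Kr rfl]
  ext i j
  rw [Kr, of_apply, mulVec_mulVec, ← pow_succ, mul_apply]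
  induction j using Fin.lastCases with
  | last =>
    have := A.aeval_self_charpoly
    rw [A.charpoly_monic.as_sum, charpoly_natDegree_eq_dim, Fintype.card_fin, map_add,
      add_eq_zero_iff_eq_neg, map_sum, Finset.sum_range] at this
    simp only [map_pow, aeval_X, map_mul, aeval_C, ← Algebra.smul_def] at this
    simp [this, Cm, Kr, neg_mulVec, sum_mulVec, smul_mulVec, mul_comm]
  | cast j =>
    rw [Finset.sum_eq_single j.succ (fun k _ hk => by simpa [Cm] using fun e => absurd (Fin.ext e) hk)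
      (by simp)]
    simp [Cm, Kr]

theorem T.isU_Kr {A : Matrix (Fin (n + 1)) (Fin (n + 1)) F} (h : T 1 A) :
    IsU Fin.val (Kr A (Pi.single 0 1)) := fun i j hij => by
  simpa [Kr, one_apply, Fin.ext_iff] using h.pow j i 0 (by simpa using hij)

theorem Cm_pow (f : F[X]) (j : Fin (n + 1)) : Cm n f ^ j.val *ᵥ Pi.single 0 1 = Pi.single j 1 := by
  induction j using Fin.induction with
  | zero => exact one_mulVec _
  | succ j ih =>
    rw [Fin.val_succ, pow_succ', ← mulVec_mulVec, show Cm n f ^ j.val *ᵥ _ = _ from ih]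
    ext i; simp [Cm, Pi.single_apply, Fin.ext_iff, j.2.ne]

theorem Kr_Cm (f : F[X]) : Kr (Cm n f) (Pi.single 0 1) = 1 := by
  ext i j; rw [Kr, of_apply, Cm_pow, Pi.single_apply, one_apply]

theorem Mon.ext {f g : Mon F n} (h : ∀ i : Fin n, f.1.coeff i = g.1.coeff i) : f = g :=
  (monEquiv n).injective <| funext fun i => by
    simpa [monEquiv, monicEquivDegreeLT, degreeLTEquiv, eraseLead_coeff, f.2.2, g.2.2, i.2.ne] using h i

theorem charpoly_Cm (f : Mon F (n + 1)) : (Cm n f.1).charpoly = f := by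
  have := mul_Kr_self (Cm n f.1) (Pi.single 0 1)
  rw [Kr_Cm, mul_one, one_mul] at this
  exact congrArg Subtype.val (Mon.ext (f := ⟨_, charpoly_monic _, by simp⟩) fun i => by
    simpa [Cm] using (congrFun (congrFun this i) (Fin.last n)).symm)

theorem aeval_Cm (f : F[X]) {h : F[X]} (hh : h.natDegree < n + 1) :
    aeval (Cm n f) h *ᵥ Pi.single 0 1 = fun i : Fin (n + 1) => h.coeff i := by
  rw [aeval_eq_sum_range' hh, Finset.sum_range, sum_mulVec]
  ext i
  simp only [smul_mulVec, Cm_pow]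
  simp [Pi.single_apply]

theorem aeval_Cm_self (f : Mon F (n + 1)) : aeval (Cm n f.1) f.1 = 0 := by
  simpa only [charpoly_Cm] using (Cm n f.1).aeval_self_charpoly

theorem aeval_semiconj {g A A' : Matrix (Fin n) (Fin n) F} (h : g * A = A' * g) (f : F[X]) :
    g * aeval A f = aeval A' f * g := by
  simp [aeval_eq_sum_range, Finset.mul_sum, Finset.sum_mul, (SemiconjBy.pow_right h _).eq]

theorem exists_aeval_Cm (f : Mon F (n + 1)) {g : Matrix (Fin (n + 1)) (Fin (n + 1)) F}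
    (h : g * Cm n f.1 = Cm n f.1 * g) : ∃ f' : Mon F (n + 1), aeval (Cm n f.1) f'.1 = g := by
  classical
  have h1 := (ofFn_degree_lt (g *ᵥ Pi.single 0 1)).trans_eq
    ((degree_eq_natDegree f.2.1.ne_zero).trans (congrArg _ f.2.2)).symm
  refine ⟨⟨f.1 + ofFn _ (g *ᵥ Pi.single 0 1), f.2.1.add_of_left h1,
    (natDegree_add_eq_left_of_degree_lt h1).trans f.2.2⟩, ?_⟩
  rw [map_add, aeval_Cm_self, zero_add, ← mul_one (aeval _ _), ← Kr_Cm f.1,
    mul_Kr (by simpa using (aeval_semiconj rfl _).symm), aeval_Cm _ (ofFn_natDegree_lt (by simp) _)]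
  simp only [ofFn_coeff_eq_val_of_lt _ (Fin.is_lt _)]
  rw [← mul_Kr h, Kr_Cm, mul_one]

theorem charpoly_conj (g : GL (Fin n) F) (A : Matrix (Fin n) (Fin n) F) :
    (g.1 * A * (g⁻¹).1).charpoly = A.charpoly := by rw [charpoly_mul_comm, g.inv_mul_cancel_left]

theorem card_comm_Cm (f f' : Mon F (n + 1)) :
    Nat.card {g : GL (Fin (n + 1)) F // Cm n f'.1 * g.1 = g.1 * Cm n f.1} =
      Nat.card {h : Mon F (n + 1) // f = f' ∧ IsCoprime f.1 h.1} := by
  by_cases e : f = f'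
  swap
  · refine (@Nat.card_of_isEmpty _ ⟨fun ⟨g, h⟩ => e (Subtype.ext ?_)⟩).trans
      (@Nat.card_of_isEmpty _ ⟨fun x => e x.2.1⟩).symm
    rw [← charpoly_Cm, ← charpoly_Cm f', ← g.mul_inv_cancel_right (Cm n f'.1), h, charpoly_conj]
  subst e
  have h1 : ∀ h, IsUnit (aeval (Cm n f.1) h) ↔ IsCoprime f.1 h := fun h => by
    rw [isUnit_aeval_iff_mdiv, isCoprime_comm]
    conv_rhs => rw [← charpoly_Cm f, ← prod_mdiv]
    induction mdiv (Cm n f.1) using Multiset.induction <;> simp [*, IsCoprime.mul_right_iff, isCoprime_one_right]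
  refine (Nat.card_eq_of_bijective (fun h => ⟨((h1 _).2 h.2.2).unit, aeval_semiconj rfl _⟩)
    ⟨fun h h' e => Subtype.ext (Mon.ext fun i => ?_), fun ⟨g, h⟩ => ?_⟩).symm
  · have e1 : aeval (Cm n f.1) (h.1.1 - h'.1.1) = 0 := by
      simpa [sub_eq_zero] using congrArg (·.1.1) e
    have := congrFun (aeval_Cm (n := n) f.1 (h := h.1.1 - h'.1.1) (Nat.lt_succ_iff.2
      (natDegree_le_iff_coeff_eq_zero.2 fun k hk => ?_))) i
    · simpa [e1, sub_eq_zero] using this.symm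
    have k : ∀ g : Mon F (n + 1), g.1.coeff k = if k = n + 1 then 1 else 0 := fun g => by
      split_ifs with e
      exacts [(congrArg _ (e.trans g.2.2.symm)).trans g.2.1.coeff_natDegree,
        coeff_eq_zero_of_natDegree_lt (by rw [g.2.2]; omega)]
    rw [coeff_sub, k, k, sub_self]
  obtain ⟨f', e⟩ := exists_aeval_Cm f h.symm
  exact ⟨⟨f', rfl, (h1 _).1 (e ▸ g.isUnit)⟩, Subtype.ext (Units.ext e)⟩

theorem IsU.mulVec {u : Matrix (Fin (n + 1)) (Fin (n + 1)) F} (h : IsU Fin.val u) :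
    u *ᵥ Pi.single 0 1 = Pi.single 0 1 := by
  ext i; simpa [one_apply, Pi.single_apply] using h i 0 (by simp)

variable [Fintype F] [DecidableEq F]

/-- Kostant's cross-section. -/
noncomputable def hessEquiv : Uni F (Fin.val : Fin (n + 1) → ℕ) × Mon F (n + 1) ≃
    {A : Matrix (Fin (n + 1)) (Fin (n + 1)) F // T 1 A} where
  toFun x := ⟨x.1.1.1 * Cm n x.2.1 * (x.1.1⁻¹).1,
    ((T_zero.2 x.1.2).mul (T_Cm _)).mul (T_zero.2 (inv_mem x.1.2))⟩
  invFun A := (⟨A.2.isU_Kr.isUnit.unit, A.2.isU_Kr⟩, ⟨_, A.1.charpoly_monic, by simp⟩)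
  left_inv x := Prod.ext (Subtype.ext (Units.ext (show Kr _ _ = _ by
    rw [← IsU.mulVec x.1.2, ← mul_Kr (A := Cm n x.2.1) (by simp), Kr_Cm, mul_one])))
    (Subtype.ext ((charpoly_conj _ _).trans (charpoly_Cm _)))
  right_inv A := Subtype.ext (Units.mul_inv_eq_iff_eq_mul _ |>.2 (mul_Kr_self _ _).symm)

open Classical in
theorem sum_hess (hψ : ψ ≠ 1) (y : Matrix (Fin n) (Fin n) F) :
    ∑ A : {A // T 1 A}, ψ (A.1 * (y - 1)).trace =
      Nat.card {A : Matrix (Fin n) (Fin n) F // T 1 A} * wh ψ Fin.val y := by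
  by_cases h : IsU Fin.val y
  · rw [wh, if_pos h, Nat.card_eq_fintype_card, ← nsmul_eq_mul, ← Finset.card_univ, ← Finset.sum_const]
    refine Finset.sum_congr rfl fun A _ => congrArg _ (Eq.trans Finset.sum_comm
      (Finset.sum_congr rfl fun j _ => Finset.sum_congr rfl fun i _ => ?_) :
        ∑ i, ∑ j, A.1 i j * (y - 1) j i = _)
    by_cases h1 : j.val < i
    · simp [A.2 i j h1, (Fin.ne_of_lt h1), eq_comm]
    · rw [Matrix.sub_apply, h j i h1, sub_self, mul_zero, if_neg (by omega)]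
  rw [wh, if_neg h, mul_zero]
  simp only [IsU, not_forall] at h
  obtain ⟨j, i, h1, h2⟩ := h
  obtain ⟨t, ht⟩ := DFunLike.ne_iff.1 hψ
  let e : Equiv.Perm {A : Matrix (Fin n) (Fin n) F // T 1 A} :=
    (Equiv.addRight (single i j (t / (y - 1) j i))).subtypeEquiv fun A => forall₃_congr fun a b _ => by
      simp [single_apply_of_ne _ _ _ _ _ (show ¬(i = a ∧ j = b) by rintro ⟨rfl, rfl⟩; omega)]
  refine eq_zero_of_mul_eq_self_left ht ?_
  rw [Finset.mul_sum]
  refine Fintype.sum_equiv e _ _ fun A => ?_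
  simp [e, add_mul, trace_single_mul, AddChar.map_add_eq_mul, mul_comm, mul_div_cancel₀ _ (sub_ne_zero.2 h2)]

theorem sum_trace (hψ : ψ ≠ 1) (B : Matrix (Fin n) (Fin n) F) : ∑ y, ψ (B * (y - 1)).trace =
    if B = 0 then (Fintype.card (Matrix (Fin n) (Fin n) F) : ℂ) else 0 := by
  split_ifs with h
  · simp [h]
  rw [← Equiv.sum_comp (Equiv.addRight 1)]
  simpa using sum_addChar_dual_eq_zero hψ (f := traceLinearMap _ F F ∘ₗ LinearMap.mulLeft F B)
    fun e => h (ext_iff_trace_mul_right.2 fun x => by simpa using LinearMap.congr_fun e x)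

theorem sum_wh_conj (hψ : ψ ≠ 1) (g : GL (Fin n) F) :
    (Nat.card {A : Matrix (Fin n) (Fin n) F // T 1 A} : ℂ) ^ 2 *
      ∑ y : GL (Fin n) F, wh ψ Fin.val (g * y * g⁻¹).1 * conj (wh ψ Fin.val y.1) =
    Fintype.card (Matrix (Fin n) (Fin n) F) * Nat.card {x : {A // T 1 A} × {A // T 1 A} //
      x.1.1 * g.1 = g.1 * x.2.1} := by
  classical
  simp only [Units.val_mul]
  rw [sum_GL (f := fun y => wh ψ Fin.val (g.1 * y * (g⁻¹).1) * conj (wh ψ Fin.val y))
    fun A hA => by simp [wh_of_not hA], Finset.mul_sum, Finset.sum_congr rfl fun y _ => by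
      rw [sq, mul_mul_mul_comm, ← sum_hess hψ, ← map_natCast (starRingEnd ℂ), ← map_mul, ← sum_hess hψ,
        map_sum, Finset.sum_mul_sum, ← Fintype.sum_prod_type'], Finset.sum_comm,
    Nat.card_eq_fintype_card, Fintype.card_subtype, Finset.card_filter, Nat.cast_sum, Finset.mul_sum]
  refine Finset.sum_congr rfl fun x _ => Eq.trans (Finset.sum_congr rfl fun y _ => ?_)
    ((sum_trace hψ ((g⁻¹).1 * x.1.1 * g.1 - x.2.1)).trans ?_)
  · rw [← AddChar.map_neg_eq_conj, ← AddChar.map_add_eq_mul, sub_mul, trace_sub, mul_assoc _ g.1,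
      mul_assoc (g⁻¹).1, trace_mul_comm (g⁻¹).1, ← sub_eq_add_neg]
    simp [mul_sub, sub_mul, mul_assoc]
  · simp [-coe_units_inv, sub_eq_zero, mul_assoc, Units.inv_mul_eq_iff_eq_mul]

theorem card_hess : Nat.card {A : Matrix (Fin (n + 1)) (Fin (n + 1)) F // T 1 A} =
    Nat.card (Uni F (Fin.val : Fin (n + 1) → ℕ)) * Nat.card F ^ (n + 1) := by
  rw [← Nat.card_congr hessEquiv, Nat.card_prod, card_Mon]

theorem wh_mul_conj {y : Matrix (Fin n) (Fin n) F} (h : IsU Fin.val y) :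
    wh ψ Fin.val y * conj (wh ψ Fin.val y) = 1 := by
  simp [wh, h, ← AddChar.map_neg_eq_conj, ← AddChar.map_add_eq_mul]

theorem card_hess_ne : (Nat.card {A : Matrix (Fin n) (Fin n) F // T 1 A} : ℂ) ≠ 0 :=
  Nat.cast_ne_zero.2 (Nat.card_pos_iff.2 ⟨⟨of fun i j => if i.val = j.val + 1 then 1 else 0,
    fun _ _ _ => rfl⟩, inferInstance⟩).ne'

theorem card_Uni_mul (hψ : ψ ≠ 1) : (Nat.card {A : Matrix (Fin n) (Fin n) F // T 1 A} : ℂ) *
    Nat.card (Uni F (Fin.val : Fin n → ℕ)) = Fintype.card (Matrix (Fin n) (Fin n) F) := by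
  have := sum_wh_conj hψ (1 : GL (Fin n) F)
  rw [Nat.card_eq_of_bijective (fun x : {x : {A // T 1 A} × {A // T 1 A} // _} => x.1.1) ⟨fun x y e =>
    Subtype.ext (Prod.ext e (Subtype.ext (by
      simpa [show x.1.1.1 = x.1.2.1 by simpa using x.2, ← show x.1.1 = y.1.1 from e] using y.2))),
    fun A => ⟨⟨(A, A), by simp⟩, rfl⟩⟩, sq, mul_assoc,
    mul_comm (Fintype.card _ : ℂ), mul_right_inj' card_hess_ne] at this
  rw [← this, ← sum_wh_one, ← sum_GL fun _ => wh_of_not]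
  refine congrArg _ (Finset.sum_congr rfl fun y _ => ?_)
  by_cases h : IsU Fin.val y.1
  · simp [wh_mul_conj h, show wh 1 Fin.val y.1 = 1 from if_pos h]
  · simp [wh, h]

theorem sum_card_pairs : ∑ g : GL (Fin (n + 1)) F, Nat.card {x : {A // T 1 A} × {A // T 1 A} //
      x.1.1 * g.1 = g.1 * x.2.1} =
    Nat.card (Uni F (Fin.val : Fin (n + 1) → ℕ)) ^ 2 * Nat.card (Cop F (n + 1)) := by
  classical
  have := Fintype.ofFinite (Mon F (n + 1))
  have h1 : ∀ {A B : Type _} [Fintype A] [Fintype B] (P : A → B → Prop),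
      ∑ a, Nat.card {b // P a b} = Nat.card {x : A × B // P x.1 x.2} := fun P => by
    rw [Nat.card_congr (Equiv.subtypeProdEquivSigmaSubtype P), Nat.card_sigma]
  rw [h1, ← Nat.card_congr (Equiv.subtypeEquivOfSubtype (Equiv.prodComm _ _))]
  refine (h1 fun (x : {A : Matrix _ _ F // T 1 A} × {A : Matrix _ _ F // T 1 A}) (g : GL (Fin (n + 1)) F) =>
    x.1.1 * g.1 = g.1 * x.2.1).symm.trans ?_
  rw [← (hessEquiv.prodCongr hessEquiv).sum_comp, Finset.sum_congr rfl fun x _ => (Nat.card_congr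
      (((Equiv.mulLeft x.1.1.1⁻¹).trans (Equiv.mulRight x.2.1.1)).subtypeEquiv fun g => ?_)).trans
        (card_comm_Cm x.2.2 x.1.2), ← h1 fun f h : Mon F (n + 1) => IsCoprime f.1 h.1]
  · simp only [Fintype.sum_prod_type, Finset.sum_const, smul_eq_mul, ← Finset.mul_sum, Finset.card_univ,
      ← Nat.card_eq_fintype_card, sq, mul_assoc]
    congr 3 with f
    rw [Finset.sum_eq_single f (fun g _ h => by simp [h]) (by simp)]
    simp
  rw [← x.1.1.1⁻¹.mul_right_inj, ← x.2.1.1.mul_left_inj]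
  simp [-coe_units_inv, hessEquiv, mul_assoc]

theorem inner_Gam_self (hψ : ψ ≠ 1) : classInner (Gam ψ (n + 1)) (Gam ψ (n + 1)) =
    (Nat.card F : ℂ) ^ (n + 1) - Nat.card F ^ n := by
  have h1 := Finset.sum_congr (s₁ := Finset.univ) rfl fun g _ => sum_wh_conj (n := n + 1) hψ g
  have h2 := congrArg (Nat.cast (R := ℂ)) (card_Cop (F := F) n)
  have h3 : (Nat.card F : ℂ) ≠ 0 := Nat.cast_ne_zero.2 Nat.card_pos.ne'
  have h4 := card_ne_zero (Uni F (Fin.val : Fin (n + 1) → ℕ))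
  rw [← Finset.mul_sum, ← Finset.mul_sum, ← Nat.cast_sum, sum_card_pairs, ← card_Uni_mul hψ, sq,
    mul_assoc, mul_assoc, mul_right_inj' card_hess_ne, card_hess] at h1
  rw [Gam, gam, inner_ind_ind, ext_wh, ← mul_inv, inv_mul_eq_iff_eq_mul₀ (mul_ne_zero h4 h4)]
  simp only [Nat.cast_mul, Nat.cast_pow, Nat.cast_add] at h1 h2
  refine mul_left_cancel₀ (mul_ne_zero h4 (pow_ne_zero (n + 1) h3)) (h1.trans ?_)
  rw [eq_sub_of_add_eq h2]; ring

theorem card_Uni (hψ : ψ ≠ 1) :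
    Nat.card (Uni F (Fin.val : Fin (n + 1) → ℕ)) = ∏ j ∈ Finset.Ico 1 (n + 1), Fintype.card F ^ j := by
  have := card_Uni_mul (n := n + 1) hψ
  rw [card_hess, card_mat, ← Nat.cast_mul, Nat.cast_inj, Fintype.card_fin, mul_right_comm, ← sq,
    show (n + 1) * (n + 1) = (∑ j ∈ Finset.Ico 1 (n + 1), j) * 2 + (n + 1) from ?_, pow_add _ _ (n + 1),
    mul_left_inj' (pow_ne_zero _ Nat.card_pos.ne'), pow_mul, pow_left_inj₀ (by simp) (by simp) two_ne_zero]
    at this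
  · rw [this, Finset.prod_pow_eq_pow_sum, Nat.card_eq_fintype_card]
  have := Finset.sum_range_id_mul_two (n + 1)
  rw [Finset.range_eq_Ico, Finset.sum_eq_sum_Ico_succ_bot (by simp), zero_add] at this
  rw [this]; simp [mul_add]

theorem Gam_mult_one (hψ : ψ ≠ 1) {χ : GL (Fin (n + 1)) F → ℂ} (hχ : IsIrrCharacter _ χ) :
    classInner (Gam ψ (n + 1)) χ = 0 ∨ classInner (Gam ψ (n + 1)) χ = 1 := by
  classical
  let σ : GL (Fin (n + 1)) F → GL (Fin (n + 1)) F := fun g =>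
    ⟨tw g.1, tw (g⁻¹).1, by rw [← tw_mul, g.inv_mul, tw_one], by rw [← tw_mul, g.mul_inv, tw_one]⟩
  have hσ : ∀ a b, σ (a * b) = σ b * σ a := fun a b => Units.ext (tw_mul _ _)
  have h0 : ∀ g : GL (Fin (n + 1)) F, g ∉ Uni F Fin.val → wh ψ Fin.val g.1 = 0 := fun g h => if_neg h
  have hl : ∀ u ∈ Uni F Fin.val, ∀ g : GL (Fin (n + 1)) F,
      wh ψ Fin.val (u * g).1 = wh ψ Fin.val u.1 * wh ψ Fin.val g.1 := fun u hu g => by
    by_cases h : g ∈ Uni F Fin.val
    · simp [wh, mem_Uni.1 hu, mem_Uni.1 h, IsU.mul, IsU.sd_mul, AddChar.map_add_eq_mul]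
    · rw [h0 _ (mt (mul_mem_cancel_left hu).1 h), h0 _ h, mul_zero]
  have hr : ∀ u ∈ Uni F Fin.val, ∀ g : GL (Fin (n + 1)) F,
      wh ψ Fin.val (g * u).1 = wh ψ Fin.val g.1 * wh ψ Fin.val u.1 := fun u hu g => by
    by_cases h : g ∈ Uni F Fin.val
    · exact hl g h u
    · rw [h0 _ (mt (mul_mem_cancel_right hu).1 h), h0 _ h, zero_mul]
  have h1 : wh ψ Fin.val (1 : GL (Fin (n + 1)) F).1 = 1 := by simp [wh, sd_one, IsU]
  have := gelfand_trick (Uni F Fin.val) (fun g => wh ψ Fin.val g.1) σ h0 h1 hl hr hσ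
    (fun a => Units.ext (tw_tw _)) (fun g => wh_tw _) (fun g => ?_) hχ
  · rw [← classInner_conj_symm, Gam, gam, inner_ind_ext _ _ hχ.isClassFunction, ext_wh]
    simp only [map_mul, map_inv₀, map_natCast, map_sum, Complex.conj_conj, ← hχ.map_inv, mul_comm (χ _)]
    exact this.imp (fun h => by rw [h, mul_zero]) fun h => by rw [h, inv_mul_cancel₀ (card_ne_zero _)]
  refine or_iff_not_imp_left.2 fun H => ?_
  push Not at H
  have h2 : ∑ y : GL (Fin (n + 1)) F, wh ψ Fin.val (g * y * g⁻¹).1 * conj (wh ψ Fin.val y.1) ≠ 0 := by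
    rw [Finset.sum_congr rfl fun y _ => (?_ : _ = ((if y ∈ Uni F Fin.val ∧ g * y * g⁻¹ ∈ Uni F Fin.val
      then 1 else 0 : ℕ) : ℂ)), ← Nat.cast_sum, Nat.cast_ne_zero]
    · exact fun h => by simpa using Finset.sum_eq_zero_iff.1 h 1 (by simp)
    split_ifs with h
    · rw [← H y h.1 _ h.2 (by simp), wh_mul_conj h.1, Nat.cast_one]
    · obtain h | h := not_and_or.1 h <;> rw [h0 _ h] <;> simp
  have h3 := mul_ne_zero (pow_ne_zero 2 (card_hess_ne (F := F) (n := n + 1))) h2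
  rw [sum_wh_conj hψ g] at h3
  obtain ⟨⟨A', A⟩, h4⟩ := (Nat.card_ne_zero.1 (Nat.cast_ne_zero.1 (right_ne_zero_of_mul h3))).1
  obtain ⟨⟨⟨u, hu⟩, f⟩, rfl⟩ := hessEquiv.surjective A
  obtain ⟨⟨⟨u', hu'⟩, f'⟩, rfl⟩ := hessEquiv.surjective A'
  obtain ⟨g, rfl⟩ : ∃ g', g = u' * g' * u⁻¹ := ⟨u'⁻¹ * g * u, by simp [mul_assoc]⟩
  have h5 : g.1 * Cm n f.1 = Cm n f'.1 * g.1 := by
    rw [← (u⁻¹).mul_left_inj]
    simpa [-coe_units_inv, hessEquiv, mul_assoc, eq_comm] using h4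
  obtain rfl : f = f' := Subtype.ext <| by
    rw [← charpoly_Cm, ← charpoly_Cm f', ← g.mul_inv_cancel_right (Cm n f'.1), ← h5, charpoly_conj]
  obtain ⟨h, h6⟩ := exists_aeval_Cm f h5
  have h7 := (T_Cm (n := n) f.1).tw
  have h8 := aeval_semiconj (mul_Kr_self (tw (Cm n f.1)) (Pi.single 0 1)).symm h.1
  rw [charpoly_tw, charpoly_Cm, ← tw_aeval, h6] at h8
  let k := h7.isU_Kr.isUnit.unit
  have hk : k ∈ Uni F Fin.val := h7.isU_Kr
  have h9 : σ g = k * g * k⁻¹ := eq_mul_inv_of_mul_eq (Units.ext h8.symm)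
  have hU : ∀ u ∈ Uni F Fin.val, σ u ∈ Uni F Fin.val := fun u hu => T_zero.1 (T_zero.2 hu).tw
  have hw : ∀ g, wh ψ Fin.val (σ g).1 = wh ψ Fin.val g.1 := fun g => wh_tw _
  have hi : ∀ u ∈ Uni F Fin.val, wh ψ Fin.val u.1 * wh ψ Fin.val (u⁻¹).1 = 1 := fun u hu => by
    rw [← hl u hu, mul_inv_cancel, h1]
  refine ⟨σ u⁻¹ * k * u'⁻¹, mul_mem (mul_mem (hU _ (inv_mem hu)) hk) (inv_mem hu'), u * k⁻¹ * σ u',
    mul_mem (mul_mem hu (inv_mem hk)) (hU _ hu'), by simp [hσ, h9, mul_assoc], ?_⟩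
  rw [hr _ (inv_mem hu'), hr _ hk, hr _ (hU _ hu'), hl _ hu, hw, hw]
  linear_combination (exp := 1) (wh ψ Fin.val k.1 * wh ψ Fin.val (k⁻¹).1) * (wh ψ Fin.val u'.1 *
    wh ψ Fin.val (u'⁻¹).1) * hi u hu + (wh ψ Fin.val k.1 * wh ψ Fin.val (k⁻¹).1) * hi u' hu' + hi k hk

end Cfsg.Agent.KSG.HC
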