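import Mathlib
import Cfsg.Agent.KSG.GGHess
import Cfsg.Agent.KSG.SimCount

/-!
# The number of cuspidal characters of `GL_n(F)`
-/

set_option autoImplicit false
set_option linter.unusedSectionVars false

namespace Cfsg.Agent.KSG.HC

open Matrix Polynomial Cfsg Cfsg.Agent.Char Cfsg.Agent.KSG.GLn
open scoped ComplexConjugate

section Graded

universe u

variable {A B : Type u} {P : A → Prop} {Q : B → Prop} {d : A → ℕ} {d' : B → ℕ}

/-- Multisets of elements satisfying `P` of total degree `n`. -/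
abbrev MS (P : A → Prop) (d : A → ℕ) (n : ℕ) := {s : Multiset A // (∀ a ∈ s, P a) ∧ (s.map d).sum = n}

theorem card_MS (n : ℕ) :
    Nat.card (MS P d n) = Nat.card {s : Multiset {a // P a} // (s.map fun a => d a.1).sum = n} := by
  symm
  refine Nat.card_eq_of_bijective (fun s => ⟨s.1.map Subtype.val, by simp +contextual, by simpa using s.2⟩)
    ⟨fun s t h => Subtype.ext (Multiset.map_injective Subtype.val_injective (Subtype.ext_iff.1 h)),
      fun ⟨s, h1, h2⟩ => ?_⟩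
  lift s to Multiset {a // P a} using h1
  exact ⟨⟨s, by simpa using h2⟩, rfl⟩

theorem MS_split (hd : ∀ a, P a → 0 < d a) {n : ℕ} (hn : 0 < n) :
    Nonempty ({a // P a ∧ d a = n} ⊕ MS (fun a => P a ∧ d a < n) d n ≃ MS P d n) := by
  refine ⟨Equiv.ofBijective (Sum.elim (fun a => ⟨{a.1}, by simpa using a.2⟩)
    fun s => ⟨s.1, fun a h => (s.2.1 a h).1, s.2.2⟩) ⟨?_, fun ⟨s, h1, h2⟩ => ?_⟩⟩
  · rintro (a | a) (b | b) h <;> simp only [Sum.elim_inl, Sum.elim_inr, Subtype.mk.injEq] at h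
    · simpa [Subtype.ext_iff] using h
    · exact absurd (b.2.1 a.1 (by simp [← h])).2 (by simp [a.2.2])
    · exact absurd (a.2.1 b.1 (by simp [h])).2 (by simp [b.2.2])
    · simpa [Subtype.ext_iff] using h
  by_cases h : ∀ a ∈ s, d a < n
  · exact ⟨.inr ⟨s, fun a ha => ⟨h1 a ha, h a ha⟩, h2⟩, rfl⟩
  push Not at h
  obtain ⟨a, ha, h⟩ := h
  obtain ⟨t, rfl⟩ := Multiset.exists_cons_of_mem ha
  simp only [Multiset.map_cons, Multiset.sum_cons] at h2
  obtain rfl : t = 0 := Multiset.eq_zero_of_forall_notMem fun b hb => by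
    have := Multiset.single_le_sum (s := t.map d) (by simp) _ (Multiset.mem_map_of_mem d hb)
    have := hd b (h1 b (by simp [hb]))
    omega
  exact ⟨.inl ⟨a, h1 a ha, by omega⟩, rfl⟩

theorem card_eq_of_MS (hd : ∀ a, P a → 0 < d a) (hd' : ∀ b, Q b → 0 < d' b)
    (h : ∀ n, 0 < n → Nat.card (MS P d n) = Nat.card (MS Q d' n))
    (h0 : ∀ n, 0 < n → Nat.card (MS P d n) ≠ 0) (n : ℕ) :
    Nonempty ({a // P a ∧ d a = n} ≃ {b // Q b ∧ d' b = n}) := by
  induction n using Nat.strong_induction_on with | _ n ih =>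
  obtain rfl | hn := n.eq_zero_or_pos
  · exact ⟨@Equiv.equivOfIsEmpty _ _ ⟨fun a => (hd _ a.2.1).ne' a.2.2⟩ ⟨fun a => (hd' _ a.2.1).ne' a.2.2⟩⟩
  obtain ⟨e1⟩ := MS_split hd hn
  obtain ⟨e2⟩ := MS_split hd' hn
  have := Nat.finite_of_card_ne_zero (h0 n hn)
  have := Nat.finite_of_card_ne_zero (h n hn ▸ h0 n hn)
  have := Finite.of_injective _ (e1.injective.comp Sum.inl_injective)
  have := Finite.of_injective _ (e1.injective.comp Sum.inr_injective)
  have := Finite.of_injective _ (e2.injective.comp Sum.inl_injective)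
  have := Finite.of_injective _ (e2.injective.comp Sum.inr_injective)
  have h1 := h n hn
  have g : ∀ {A : Type _} (P : A → Prop) (d : A → ℕ) {c}, c < n →
      {a : {a // P a ∧ d a < n} // d a.1 = c} ≃ {a // P a ∧ d a = c} := fun P d c hc =>
    ⟨fun a => ⟨a.1.1, a.1.2.1, a.2⟩, fun a => ⟨⟨a.1, a.2.1, a.2.2.trans_lt hc⟩, a.2.2⟩, fun _ => rfl, fun _ => rfl⟩
  let f : ∀ c, {a : {a // P a ∧ d a < n} // d a.1 = c} ≃ {b : {b // Q b ∧ d' b < n} // d' b.1 = c} :=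
    fun c => if hc : c < n then (g P d hc).trans ((ih c hc).some.trans (g Q d' hc).symm)
    else @Equiv.equivOfIsEmpty _ _ ⟨fun a => hc (a.2 ▸ a.1.2.2)⟩ ⟨fun a => hc (a.2 ▸ a.1.2.2)⟩
  let e := Equiv.ofFiberEquiv f
  rw [← Nat.card_congr e1, ← Nat.card_congr e2, Nat.card_sum, Nat.card_sum, card_MS, card_MS,
    Nat.card_congr ((⟨.map e, .map e.symm, fun _ => by simp, fun _ => by simp⟩ :
      Multiset _ ≃ Multiset _).subtypeEquiv fun s => ?_),
    add_left_inj] at h1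
  · exact Finite.card_eq.1 h1
  simp [show ∀ a, d' (e a).1 = d a.1 from Equiv.ofFiberEquiv_map f]

end Graded

variable {F : Type*} [Field F] [Fintype F] [DecidableEq F] {ψ : AddChar F ℂ}

theorem le_Gam_u0 : classInner (Gam ψ 0) (u0 F).2.1 = 1 := by
  rw [show (u0 F).2.1 = fam (u0 F) 0 from (fam_self _).symm, inner_Gam (cl_fam _), Fintype.sum_subsingleton _ 1, ev_one, Nat.card_unique]
  simp [wh, IsU, sd, show fam (u0 F) (Fintype.card (Fin 0)) 1 = 1 from congrFun (fam_self (u0 F)) 1]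

theorem Le.gam_one (hψ : ψ ≠ 1) {χ : Ir F} (h : Le χ (Gam ψ)) : classInner (Gam ψ χ.1) χ.2.1 = 1 := by
  obtain ⟨_ | n, χ⟩ := χ
  · rw [eq_u0 (χ := ⟨0, χ⟩) rfl]; exact le_Gam_u0
  · exact (Gam_mult_one hψ χ.2).resolve_left h

theorem Cusp.le_Gam (hψ : ψ ≠ 1) {ρ : Ir F} (h : Cusp ρ) : Le ρ (Gam ψ) := fun e => by
  have := h.degree hψ
  rw [e, map_zero, mul_zero, mul_zero] at this
  exact mul_ne_zero (Finset.prod_ne_zero_iff.2 fun _ _ => by simp) ρ.2.2.one_ne_zero this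

theorem Cusp.degree_eq (hψ : ψ ≠ 1) {ρ : Ir F} (h : Cusp ρ) :
    ρ.2.1 1 = ∏ j ∈ Finset.Ico 1 ρ.1, ((Fintype.card F : ℂ) ^ j - 1) := by
  have := h.degree hψ
  rw [(h.le_Gam hψ).gam_one hψ, map_one, mul_one, mul_comm] at this
  obtain ⟨_ | n, χ⟩ := ρ
  · exact absurd h.1 (lt_irrefl 0)
  rw [card_Uni hψ] at this
  push_cast at this
  exact mul_right_cancel₀ (Finset.prod_ne_zero_iff.2 fun _ _ => by simp) this

theorem inner_D_fam (hψ : ψ ≠ 1) (ρ σ : Ir F) : classInner (D ρ.1 (fam ρ) (Gam ψ) σ.1) σ.2.1 =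
    classInner (Gam ψ σ.1) σ.2.1 * classInner (Gam ψ ρ.1) ρ.2.1 := by
  simpa only [fam_self] using inner_D_Gam hψ (ch_fam ρ) (ch_fam σ) σ.1 ρ.1

theorem existsUnique_Has (hψ : ψ ≠ 1) :
    ∀ L : List (Ir F), (∀ ρ ∈ L, Cusp ρ) → ∃! χ, Le χ (Gam ψ) ∧ Has L χ
  | [], _ => ⟨u0 F, ⟨le_Gam_u0.trans_ne one_ne_zero, rfl⟩, fun _ h => eq_u0 h.2⟩
  | ρ :: L, h => by
    obtain ⟨σ, ⟨h1, h2⟩, h3⟩ := existsUnique_Has hψ L fun x hx => h x (by simp [hx])
    have h4 := inner_D_fam hψ ρ σ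
    rw [h1.gam_one hψ, ((h ρ (by simp)).le_Gam hψ).gam_one hψ, one_mul] at h4
    obtain ⟨τ, h5, h6⟩ := (Le_D_iff ch_Gam).1 (h4.trans_ne one_ne_zero)
    refine ⟨τ, ⟨h5, σ, h6, h2⟩, fun χ ⟨h7, σ', h8, h9⟩ => ?_⟩
    obtain rfl := h3 σ' ⟨left_ne_zero_of_mul
      ((inner_D_fam hψ ρ σ').symm.trans_ne ((Le_D_iff ch_Gam).2 ⟨χ, h7, h8⟩)), h9⟩
    exact eq_of_inner_D ch_Gam h4 h7 h8 h5 h6

theorem card_MS_cusp (hψ : ψ ≠ 1) (n : ℕ) : (Nat.card (MS (Cusp (F := F)) Sigma.fst (n + 1)) : ℂ) =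
    (Nat.card F : ℂ) ^ (n + 1) - Nat.card F ^ n := by
  classical
  choose f hf hf' using exists_Has (F := F)
  rw [← inner_Gam_self hψ, (ch_Gam.cl _).inner_eq_sum, ← Nat.card_eq_of_bijective
    (fun χ : {χ : IrrCharacter _ // Le ⟨n + 1, χ⟩ (Gam ψ)} => (⟨f ⟨_, χ.1⟩, hf _, (hf' _).deg.symm⟩ :
      MS (Cusp (F := F)) Sigma.fst (n + 1))) ⟨fun χ χ' e => ?_, fun ⟨s, h1, h2⟩ => ?_⟩,
    Nat.card_eq_fintype_card, Fintype.card_subtype, Finset.card_filter, Nat.cast_sum]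
  · refine Finset.sum_congr rfl fun χ _ => ?_
    split_ifs with h
    · simp [show classInner (Gam ψ (n + 1)) χ.1 = 1 from h.gam_one hψ]
    · simp [show classInner (Gam ψ (n + 1)) χ.1 = 0 from not_not.1 h]
  · simpa [Subtype.ext_iff] using (existsUnique_Has hψ _ (hf _)).unique ⟨χ.2, hf' _⟩
      ⟨χ'.2, (hf' _).perm (Multiset.coe_eq_coe.1 (Subtype.ext_iff.1 e)).symm⟩
  induction s using Quotient.inductionOn with | _ L =>
  obtain ⟨⟨_, χ⟩, ⟨h3, h4⟩, -⟩ := existsUnique_Has hψ L h1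
  obtain rfl := h4.deg.trans h2
  exact ⟨⟨χ, h3⟩, Subtype.ext (Multiset.coe_eq_coe.2 ((hf' _).unique (hf _) h1 h4))⟩

theorem card_MS_irr (n : ℕ) : (Nat.card (MS (fun f : F[X] => Irreducible f ∧ f.Monic ∧ f ≠ X)
    natDegree (n + 1)) : ℂ) = (Nat.card F : ℂ) ^ (n + 1) - Nat.card F ^ n := by
  have h1 := card_multiset_irreducible (F := F) (n + 1) fun _ => True
  have h2 := card_monic_coeff_zero (F := F) (N := n + 1) (by simp) (· ≠ 0)
  simp only [and_true] at h1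
  rw [Nat.card_congr (Equiv.subtypeEquivRight fun s => ?_), h1, h2]
  · simp [Fintype.card_pos, sub_mul, pow_succ']
  refine ⟨fun ⟨h, e⟩ => ⟨fun b hb => ⟨b, 1, (h b hb).1, (h b hb).2.1, by simp, by simp⟩, fun b hb hX =>
    (h b hb).2.2 ?_, e, fun b hb => (h b hb).1⟩, fun ⟨h1, h2, h3, h4⟩ =>
      ⟨fun b hb => ⟨h4 b hb, (h1 b hb).monic, fun e => h2 b hb (e ▸ dvd_rfl)⟩, h3⟩⟩
  exact eq_of_monic_of_associated (h b hb).2.1 monic_X (irreducible_X.associated_of_dvd (h b hb).1 hX).symm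

/-- Cuspidal characters of `GL_n` are as many as monic irreducible polynomials of degree `n`. -/
theorem card_cusp (hψ : ψ ≠ 1) (n : ℕ) : Nonempty ({ρ : Ir F // Cusp ρ ∧ ρ.1 = n} ≃
    {f : F[X] // (Irreducible f ∧ f.Monic ∧ f ≠ X) ∧ f.natDegree = n}) := by
  refine card_eq_of_MS (fun _ h => h.1) (fun _ h => h.1.natDegree_pos) (fun n hn => ?_) (fun n hn => ?_) n
  all_goals obtain ⟨n, rfl⟩ := Nat.exists_eq_succ_of_ne_zero hn.ne'
  · exact Nat.cast_injective (R := ℂ) ((card_MS_cusp hψ n).trans (card_MS_irr n).symm)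
  rw [← Nat.cast_ne_zero (R := ℂ), card_MS_cusp hψ, sub_ne_zero]
  exact_mod_cast (Nat.pow_lt_pow_right Finite.one_lt_card n.lt_succ_self).ne'

theorem totient_le {n : ℕ} (hn : 2 ≤ n) : (Fintype.card F ^ n - 1).totient ≤
    n * Nat.card {f : F[X] // (Irreducible f ∧ f.Monic ∧ f ≠ X) ∧ f.natDegree = n} := by
  classical
  obtain ⟨p, _⟩ := CharP.exists F
  have := Fact.mk (CharP.char_is_prime F p)
  have : NeZero n := ⟨by omega⟩
  let K := FiniteField.Extension F p n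
  have := Fintype.ofFinite K
  have hK : Fintype.card Kˣ = Fintype.card F ^ n - 1 := by
    rw [Fintype.card_units, ← Nat.card_eq_fintype_card, FiniteField.natCard_extension, Nat.card_eq_fintype_card]
  have : Finite {f : F[X] // (Irreducible f ∧ f.Monic ∧ f ≠ X) ∧ f.natDegree = n} :=
    .of_injective (fun f => (⟨f.1, f.2.1.2.1, f.2.2⟩ : Mon F n)) fun _ _ h => by simpa [Subtype.ext_iff] using h
  have := Fintype.ofFinite {f : F[X] // (Irreducible f ∧ f.Monic ∧ f ≠ X) ∧ f.natDegree = n}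
  have h1 : ∀ ζ : Kˣ, orderOf ζ = Fintype.card Kˣ → (minpoly F ζ.1).natDegree = n := fun ζ h => by
    refine ((Field.primitive_element_iff_minpoly_natDegree_eq _ _).1 (eq_top_iff.2 fun x _ => ?_)).trans
      (FiniteField.finrank_extension F p n)
    obtain rfl | hx := eq_or_ne x 0
    · exact zero_mem _
    obtain ⟨k, hk⟩ := (mem_powers_iff_mem_zpowers.2 (((Subgroup.zpowers ζ).card_eq_iff_eq_top).1
      (by rw [Nat.card_zpowers, h, Nat.card_eq_fintype_card]) ▸ Subgroup.mem_top (Units.mk0 x hx)) : Units.mk0 x hx ∈ Submonoid.powers ζ)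
    exact (show ζ.1 ^ k = x from congrArg Units.val hk) ▸
      pow_mem (IntermediateField.mem_adjoin_simple_self F _) k
  rw [← hK, ← IsCyclic.card_orderOf_eq_totient dvd_rfl, Nat.card_eq_fintype_card, ← Finset.card_univ (α := Subtype _),
    ← Finset.card_map (.subtype _) (s := Finset.univ)]
  refine Finset.card_le_mul_card_image_of_maps_to (f := fun ζ => minpoly F ζ.1) (fun ζ h => ?_) _
    fun f hf => ?_
  · have := h1 ζ (by simpa using h)
    simpa [minpoly.irreducible (.of_finite F ζ.1), minpoly.monic (.of_finite F ζ.1), this]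
      using fun e => by simp [e] at this; omega
  obtain ⟨f, -, rfl⟩ := Finset.mem_map.1 hf
  refine (Finset.card_le_card_of_injOn (t := (f.1.aroots K).toFinset) Units.val (fun ζ h => ?_)
    Units.val_injective.injOn).trans ((Multiset.toFinset_card_le _).trans
      ((card_roots' _).trans (natDegree_map_le.trans f.2.2.le)))
  simpa [f.2.1.1.ne_zero] using
    (show minpoly F ζ.1 = f.1 from (Finset.mem_filter.1 h).2) ▸ minpoly.aeval F ζ.1

end Cfsg.Agent.KSG.HC
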