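import Mathlib
import Cfsg.Agent.KSG.GLFlag
import Cfsg.Agent.Char.Irr

/-!
Orders of the standard parabolic subgroups of `GL_n(q)`; degrees and irreducibility of the
unipotent characters `unipotentCharacterGL`.
-/

set_option autoImplicit false

namespace Cfsg.Agent.KSG.GLn

open Matrix Finset Cfsg Cfsg.Agent.Char Cfsg.Agent.KSG.Cauchy

/-- The `q`-integer. -/
def qi (q r : ℕ) : ℕ := ∑ l ∈ range r, q ^ l

/-- The `q`-factorial. -/
def qf (q r : ℕ) : ℕ := ∏ j ∈ range r, qi q (j + 1)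

theorem qi_pos {q : ℕ} (r : ℕ) : 0 < qi q (r + 1) := by
  rw [qi, sum_range_succ']
  simp

theorem qf_pos (q r : ℕ) : 0 < qf q r := Finset.prod_pos fun j _ => qi_pos j

theorem sub_one_mul_qi {q : ℕ} (hq : 1 ≤ q) (r : ℕ) : (q - 1) * qi q r = q ^ r - 1 := by
  obtain ⟨q, rfl⟩ := Nat.exists_eq_add_of_le' hq
  rw [← geom_sum_mul_add q r, qi]
  simp [mul_comm]

theorem qi_add (q s t : ℕ) : qi q (s + t) = qi q s + q ^ s * qi q t := by
  simp only [qi, sum_range_add, mul_sum, pow_add]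

theorem qi_strictMono {q : ℕ} (hq : 0 < q) : StrictMono (qi q) :=
  strictMono_nat_of_lt_succ fun r => by
    rw [qi, qi, sum_range_succ]
    have := pow_pos hq r
    omega

theorem prod_pow_sub_pow {q : ℕ} (hq : 1 ≤ q) (m : ℕ) :
    ∏ i : Fin m, (q ^ m - q ^ i.val) = q ^ m.choose 2 * (q - 1) ^ m * qf q m := by
  rw [Fin.prod_univ_eq_prod_range (fun i => q ^ m - q ^ i), qf, ← prod_range_reflect _ m,
    Nat.choose_two_right, ← sum_range_id, ← prod_pow_eq_pow_sum, ← prod_range_reflect (q ^ ·) m]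
  conv_rhs => rw [← card_range m, ← prod_const (b := q - 1), card_range]
  rw [← prod_mul_distrib, ← prod_mul_distrib]
  refine prod_congr rfl fun j hj => ?_
  rw [mem_range] at hj
  rw [mul_assoc, sub_one_mul_qi hq, Nat.mul_sub_one, ← pow_add]
  congr 2
  omega

variable {F : Type*} [Field F] [Fintype F]

local notation "𝐪" => Fintype.card F

theorem card_GL_eq (ι : Type*) [Fintype ι] [DecidableEq ι] : Nat.card (GL ι F) =
    𝐪 ^ (Nat.card ι).choose 2 * (𝐪 - 1) ^ Nat.card ι * qf 𝐪 (Nat.card ι) := by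
  rw [← prod_pow_sub_pow Fintype.card_pos, ← Matrix.card_GL_field]
  exact Nat.card_congr (Units.mapEquiv
    (reindexAlgEquiv F F (Finite.equivFin ι)).toMulEquiv).toEquiv

variable {n : ℕ}

theorem card_lt_add_sum_choose {α : Type*} [Fintype α] [LinearOrder α] (a : Fin n → α) :
    Nat.card {p : Fin n × Fin n // a p.1 < a p.2} +
      ∑ k, (Nat.card {i // a i = k}).choose 2 = n.choose 2 := by
  classical
  have h1 : Nat.card {p : Fin n × Fin n // a p.2 < a p.1} =
      Nat.card {p : Fin n × Fin n // a p.1 < a p.2} :=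
    Nat.card_congr ((Equiv.prodComm _ _).subtypeEquiv fun _ => Iff.rfl)
  have h2 : Nat.card {p : Fin n × Fin n // a p.1 = a p.2} = ∑ k, Nat.card {i // a i = k} ^ 2 := by
    rw [← sum_card_fiber _ fun p => a p.2]
    refine sum_congr rfl fun k _ => ?_
    rw [sq, ← Nat.card_prod]
    exact Nat.card_congr ⟨fun p => (⟨p.1.1, p.2.1.trans p.2.2⟩, ⟨p.1.2, p.2.2⟩),
      fun p => ⟨(p.1, p.2), p.1.2.trans p.2.2.symm, p.2.2⟩, fun _ => rfl, fun _ => rfl⟩
  have h3 : Nat.card {p : Fin n × Fin n // a p.1 < a p.2} +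
      Nat.card {p : Fin n × Fin n // a p.2 < a p.1} +
      Nat.card {p : Fin n × Fin n // a p.1 = a p.2} = n ^ 2 := by
    simp only [Nat.card_eq_fintype_card, Fintype.card_subtype, card_filter, ← sum_add_distrib]
    rw [sum_congr rfl (g := fun _ => 1) fun p _ => by
      rcases lt_trichotomy (a p.1) (a p.2) with h | h | h
      · simp [h, h.ne, h.not_gt]
      · simp [h]
      · simp [h, h.ne', h.not_gt]]
    simp [sq]
  have h4 : ∑ k, Nat.card {i // a i = k} = n := by
    have := sum_card_fiber (fun _ => True) a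
    simpa using this
  have h5 : ∀ m : ℕ, m ^ 2 = 2 * m.choose 2 + m := fun m => by
    induction m with
    | zero => simp
    | succ m ih => rw [Nat.choose_succ_succ, Nat.choose_one_right]; nlinarith
  rw [h1, h2, h5 n, sum_congr rfl fun k _ => h5 _, sum_add_distrib, ← mul_sum, h4] at h3
  omega

theorem card_parabolic {μ : Fin n → ℕ} (hμ : ∑ i, μ i = n) :
    Nat.card (parabolicGL n F μ) = 𝐪 ^ n.choose 2 * (𝐪 - 1) ^ n * ∏ k, qf 𝐪 (μ k) := by
  classical
  have tri : ∀ {A : Matrix (Fin n) (Fin n) F},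
      A.BlockTriangular (compLabel μ) ↔ A.BlockTriangular (lab hμ) := Iff.rfl
  have h1 : Nat.card (parabolicGL n F μ) = Nat.card ((∀ k, GL {i // lab hμ i = k} F) ×
      ({p : Fin n × Fin n // lab hμ p.1 < lab hμ p.2} → F)) := by
    refine Nat.card_eq_of_bijective (fun g => (fun k => Matrix.GeneralLinearGroup.mkOfDetNeZero
      ((g.1 : Matrix (Fin n) (Fin n) F).toSquareBlock (lab hμ) k) (by
        have := Matrix.GeneralLinearGroup.det_ne_zero g.1
        rw [(tri.1 g.2).det_fintype] at this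
        exact prod_ne_zero_iff.1 this k (mem_univ _)),
      fun p => (g.1 : Matrix (Fin n) (Fin n) F) p.1.1 p.1.2)) ⟨fun g g' h => ?_, ?_⟩
    · refine Subtype.ext (Units.ext (Matrix.ext fun i j => ?_))
      rcases lt_trichotomy (lab hμ i) (lab hμ j) with e | e | e
      · exact congrFun (congrArg Prod.snd h) ⟨(i, j), e⟩
      · exact congrArg (fun x : GL {i // lab hμ i = lab hμ j} F => x.1 ⟨i, e⟩ ⟨j, rfl⟩)
          (congrFun (congrArg Prod.fst h) (lab hμ j))
      · rw [tri.1 g.2 e, tri.1 g'.2 e]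
    · rintro ⟨x, y⟩
      let A : Matrix (Fin n) (Fin n) F := fun i j =>
        if h : lab hμ i = lab hμ j then (x (lab hμ j)).1 ⟨i, h⟩ ⟨j, rfl⟩
        else if h : lab hμ i < lab hμ j then y ⟨(i, j), h⟩ else 0
      have hA : A.BlockTriangular (lab hμ) := fun i j h => by
        simp only [A, dif_neg h.ne', dif_neg h.not_gt]
      have hB : ∀ k, A.toSquareBlock (lab hμ) k = (x k).1 := fun k => by
        ext ⟨i, hi⟩ ⟨j, rfl⟩
        exact dif_pos hi
      have hd : A.det ≠ 0 := by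
        rw [hA.det_fintype]
        exact prod_ne_zero_iff.2 fun k _ => hB k ▸ Matrix.GeneralLinearGroup.det_ne_zero _
      refine ⟨⟨Matrix.GeneralLinearGroup.mkOfDetNeZero A hd, tri.2 hA⟩,
        Prod.ext (funext fun k => Units.ext (hB k)) (funext fun p => ?_)⟩
      change A p.1.1 p.1.2 = y p
      simp only [A, dif_neg p.2.ne, dif_pos p.2]
  rw [h1, Nat.card_prod, Nat.card_pi, Nat.card_fun, ← card_lt_add_sum_choose (lab hμ)]
  simp only [card_GL_eq, card_lab, prod_mul_distrib, prod_pow_eq_pow_sum, hμ,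
    Nat.card_eq_fintype_card (α := F)]
  ring

theorem index_parabolic {μ : Fin n → ℕ} (hμ : ∑ i, μ i = n) :
    Nat.card (GL (Fin n) F ⧸ parabolicGL n F μ) * ∏ k, qf 𝐪 (μ k) = qf 𝐪 n := by
  have h := Subgroup.card_eq_card_quotient_mul_card_subgroup (parabolicGL n F μ)
  rw [card_parabolic hμ, card_GL_eq, Nat.card_fin] at h
  have h1 : 1 < 𝐪 := Fintype.one_lt_card
  refine Nat.eq_of_mul_eq_mul_left (n := 𝐪 ^ n.choose 2 * (𝐪 - 1) ^ n)
    (Nat.mul_pos (pow_pos (zero_lt_one.trans h1) _) (pow_pos (Nat.sub_pos_of_lt h1) _)) ?_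
  rw [h]
  ring

theorem sum_sub_perm {ν : Fin n → ℕ} (hν : ∑ i, ν i = n) {κ : Equiv.Perm (Fin n)}
    (h : ∀ i, (κ i).val ≤ ν i + i.val) : ∑ i, (ν i + i.val - (κ i).val) = n := by
  have h1 : ∑ i, (ν i + i.val - (κ i).val) + ∑ i, (κ i).val = ∑ i, (ν i + i.val) := by
    rw [← sum_add_distrib]
    exact sum_congr rfl fun i _ => Nat.sub_add_cancel (h i)
  rw [sum_add_distrib, hν, Equiv.sum_comp κ Fin.val] at h1
  omega

theorem strictMono_add {ν : Fin n → ℕ} (h : Monotone ν) : StrictMono fun i : Fin n => ν i + i.val :=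
  fun _ _ hab => Nat.add_lt_add_of_le_of_lt (h hab.le) hab

omit [Fintype F] in
theorem unip_comp {G : Type*} (φ : G → GL (Fin n) F) (ν : Fin n → ℕ) :
    (fun g => unipotentCharacterGL n F ν (φ g)) = ∑ κ : Equiv.Perm (Fin n),
      if ∀ i : Fin n, (κ i).val ≤ ν i + i.val then ((Equiv.Perm.sign κ : ℤ) : ℂ) •
        (fun g => fixedPointCharacter (parabolicGL n F fun i => ν i + i.val - (κ i).val) (φ g))
      else 0 := by
  funext g
  rw [unipotentCharacterGL, Finset.sum_apply]
  refine sum_congr rfl fun κ _ => ?_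
  split_ifs <;> rfl

omit [Fintype F] in
open Classical in
theorem inner_unip_comp {G : Type*} [Group G] [Fintype G] (φ : G → GL (Fin n) F)
    (h : ∀ μ ν : Fin n → ℕ, ∑ i, μ i = n → ∑ i, ν i = n →
      classInner (fun g => fixedPointCharacter (parabolicGL n F μ) (φ g))
        (fun g => fixedPointCharacter (parabolicGL n F ν) (φ g)) = Nat.card (Tab μ ν))
    {ν ν' : Fin n → ℕ} (m : Monotone ν) (s : ∑ i, ν i = n) (m' : Monotone ν')
    (s' : ∑ i, ν' i = n) : classInner (fun g => unipotentCharacterGL n F ν (φ g))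
      (fun g => unipotentCharacterGL n F ν' (φ g)) = if ν = ν' then 1 else 0 := by
  rw [if_congr (Q := (fun i : Fin n => ν i + i.val) = fun i => ν' i + i.val)
    (by simp [funext_iff]) rfl rfl, ← sum_sign_card_tab _ _ (strictMono_add m) (strictMono_add m'),
    unip_comp, unip_comp, classInner_sum_left]
  refine sum_congr rfl fun κ _ => ?_
  rw [classInner_sum_right]
  refine sum_congr rfl fun κ' _ => ?_
  by_cases h1 : ∀ i : Fin n, (κ i).val ≤ ν i + i.val
  · by_cases h2 : ∀ i : Fin n, (κ' i).val ≤ ν' i + i.val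
    · rw [if_pos h1, if_pos h2, if_pos ⟨h1, h2⟩, classInner_smul_left, classInner_smul_right,
        h _ _ (sum_sub_perm s h1) (sum_sub_perm s' h2), map_intCast, mul_assoc]
    · rw [if_neg h2, classInner_zero_right, if_neg (fun h => h2 h.2)]
  · rw [if_neg h1, classInner_zero_left, if_neg (fun h => h1 h.1)]

theorem isGen_unip (ν : Fin n → ℕ) : IsGeneralizedCharacter _ (unipotentCharacterGL n F ν) := by
  rw [show unipotentCharacterGL n F ν = _ from unip_comp id ν]
  refine isGen_sum _ _ fun κ _ => ?_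
  split_ifs
  · exact (isCharacter_permChar _).isGen.intCast_smul _
  · exact isGen_zero

theorem prod_qi_sub {q : ℕ} (r : ℕ) : ∀ k : ℕ, k ≤ r →
    (∏ s ∈ range k, ((qi q r : ℂ) - qi q s)) * qf q (r - k) = (q : ℂ) ^ k.choose 2 * qf q r := by
  intro k
  induction k with
  | zero => simp
  | succ k ih =>
    intro hk
    obtain ⟨t, rfl⟩ := Nat.exists_eq_add_of_le hk
    have h := ih (by omega)
    rw [show k + 1 + t - k = t + 1 by omega, qf, prod_range_succ] at h
    rw [prod_range_succ, show k + 1 + t - (k + 1) = t by omega, Nat.choose_succ_succ,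
      Nat.choose_one_right, pow_add, mul_assoc ((q : ℂ) ^ k), ← h, add_assoc, qi_add q k,
      add_comm 1 t, qf]
    push_cast
    ring

theorem sum_choose_two (n : ℕ) : ∑ i : Fin n, i.val.choose 2 = n * (n - 1) * (n - 2) / 6 := by
  rw [Fin.sum_univ_eq_sum_range (fun i => i.choose 2)]
  have : ∀ n : ℕ, ∑ i ∈ range n, i.choose 2 = n.choose 3 := fun n => by
    induction n with
    | zero => simp
    | succ n ih => rw [sum_range_succ, ih, Nat.choose_succ_succ' n 2, add_comm]
  rw [this, Nat.choose_eq_descFactorial_div_factorial]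
  simp only [Nat.descFactorial_succ, Nat.descFactorial_zero, Nat.factorial]
  congr 1
  simp only [Nat.sub_zero, mul_one]
  ring

theorem unip_one_mul {ν : Fin n → ℕ} (hν : ∑ i, ν i = n) :
    unipotentCharacterGL n F ν 1 * (𝐪 : ℂ) ^ (n * (n - 1) * (n - 2) / 6) *
      ∏ i : Fin n, (qf 𝐪 (ν i + i.val) : ℂ) =
    qf 𝐪 n * ∏ i : Fin n, ∏ j ∈ Ioi i, ((qi 𝐪 (ν j + j.val) : ℂ) - qi 𝐪 (ν i + i.val)) := by
  rw [← det_vandermonde (fun i : Fin n => (qi 𝐪 (ν i + i.val) : ℂ)),
    det_eval_matrixOfPolynomials_eq_det_vandermonde _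
      (fun k => ∏ s ∈ range k.val, (Polynomial.X - Polynomial.C (qi 𝐪 s : ℂ)))
      (fun k => by rw [Polynomial.natDegree_finsetProd_X_sub_C_eq_card, card_range])
      (fun k => Polynomial.monic_prod_X_sub_C _ _), ← det_transpose, det_apply', mul_sum,
    unipotentCharacterGL, sum_mul, sum_mul]
  refine sum_congr rfl fun κ _ => ?_
  simp only [transpose_apply, of_apply, Polynomial.eval_prod, Polynomial.eval_sub,
    Polynomial.eval_X, Polynomial.eval_C]
  split_ifs with h
  · have h1 := index_parabolic (F := F) (sum_sub_perm hν h)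
    have h2 := prod_congr rfl fun i (_ : i ∈ univ) => prod_qi_sub (q := 𝐪) _ _ (h i)
    rw [prod_mul_distrib, prod_mul_distrib, prod_pow_eq_pow_sum,
      Equiv.sum_comp κ fun i => i.val.choose 2, sum_choose_two] at h2
    rw [fixedPointCharacter_one, ← h1]
    push_cast
    linear_combination (-((Equiv.Perm.sign κ : ℤ) : ℂ)) *
      (Nat.card (GL (Fin n) F ⧸ parabolicGL n F fun i => ν i + i.val - (κ i).val) : ℂ) * h2
  · push Not at h
    obtain ⟨i, hi⟩ := h
    rw [prod_eq_zero (f := fun i => ∏ _ ∈ range (κ i).val, _) (mem_univ i)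
      (prod_eq_zero (mem_range.2 hi) (sub_self _))]
    simp

theorem unip_one_re_nonneg {ν : Fin n → ℕ} (m : Monotone ν) (hν : ∑ i, ν i = n) :
    0 ≤ (unipotentCharacterGL n F ν 1).re := by
  obtain ⟨z, hz⟩ := (isGen_unip (F := F) ν).exists_int_one
  have h := unip_one_mul (F := F) hν
  rw [hz] at h ⊢
  have h' : z * (𝐪 : ℤ) ^ (n * (n - 1) * (n - 2) / 6) * ∏ i : Fin n, (qf 𝐪 (ν i + i.val) : ℤ) =
      qf 𝐪 n * ∏ i : Fin n, ∏ j ∈ Ioi i, ((qi 𝐪 (ν j + j.val) : ℤ) - qi 𝐪 (ν i + i.val)) := by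
    exact_mod_cast h
  rw [Complex.intCast_re, Int.cast_nonneg_iff]
  have h1 : (0 : ℤ) ≤
      qf 𝐪 n * ∏ i : Fin n, ∏ j ∈ Ioi i, ((qi 𝐪 (ν j + j.val) : ℤ) - qi 𝐪 (ν i + i.val)) :=
    mul_nonneg (by positivity) (prod_nonneg fun i _ => prod_nonneg fun j hj => sub_nonneg.2 (by
      exact_mod_cast (qi_strictMono Fintype.card_pos (strictMono_add m (mem_Ioi.1 hj))).le))
  rw [← h', mul_assoc] at h1
  exact nonneg_of_mul_nonneg_left h1 (mul_pos (pow_pos (by exact_mod_cast Fintype.card_pos) _)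
    (prod_pos fun i _ => by exact_mod_cast qf_pos _ _))

open Classical in
theorem inner_unip {ν ν' : Fin n → ℕ} (m : Monotone ν) (s : ∑ i, ν i = n) (m' : Monotone ν')
    (s' : ∑ i, ν' i = n) : classInner (unipotentCharacterGL n F ν)
      (unipotentCharacterGL n F ν') = if ν = ν' then 1 else 0 :=
  inner_unip_comp id (fun _ _ h h' => inner_parabolic h h') m s m' s'

theorem isIrr_unip {ν : Fin n → ℕ} (m : Monotone ν) (s : ∑ i, ν i = n) :
    IsIrrCharacter _ (unipotentCharacterGL n F ν) := by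
  classical
  exact (isGen_unip ν).isIrr_of_inner_self (by rw [inner_unip m s m s, if_pos rfl])
    (unip_one_re_nonneg m s)

theorem isIrr_unip_SL (hn : 0 < n) {ν : Fin n → ℕ} (m : Monotone ν) (s : ∑ i, ν i = n) :
    IsIrrCharacter (Matrix.SpecialLinearGroup (Fin n) F)
      fun g => unipotentCharacterGL n F ν (Matrix.SpecialLinearGroup.toGL g) := by
  classical
  exact ((isGen_unip ν).comp _).isIrr_of_inner_self (by
    rw [inner_unip_comp _ (fun _ _ h h' => inner_parabolic_SL h h' hn) m s m s, if_pos rfl])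
    (by rw [map_one]; exact unip_one_re_nonneg m s)

omit [Fintype F] in
theorem unip_of_mem_center (ν : Fin n → ℕ) {z : GL (Fin n) F} (hz : z ∈ Subgroup.center _)
    (h : z ∈ upperTriangularGL n F) :
    unipotentCharacterGL n F ν z = unipotentCharacterGL n F ν 1 := by
  simp only [unipotentCharacterGL,
    fixedPointCharacter_of_mem_center _ hz (upper_le_parabolic _ h)]

/-- The degree of the Steinberg character. -/
theorem unip_one_one : unipotentCharacterGL n F (fun _ => 1) 1 = (𝐪 : ℂ) ^ n.choose 2 := by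
  have h := unip_one_mul (F := F) (ν := fun _ : Fin n => 1) (by simp)
  have h1 : ∏ i : Fin n, ∏ j ∈ Ioi i, ((qi 𝐪 (1 + j.val) : ℂ) - qi 𝐪 (1 + i.val)) =
      ∏ j : Fin n, ((𝐪 : ℂ) ^ (j.val + j.val.choose 2) * qf 𝐪 j.val) := by
    rw [prod_comm' (t' := univ) (s' := fun j => Iio j) (by simp)]
    refine prod_congr rfl fun j _ => ?_
    have h2 := prod_qi_sub (q := 𝐪) j.val j.val le_rfl
    rw [Nat.sub_self, qf, prod_range_zero, Nat.cast_one, mul_one] at h2
    rw [pow_add, mul_assoc, ← h2]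
    conv_rhs => rw [← card_range j.val, ← prod_const, card_range, ← prod_mul_distrib]
    refine prod_bij (fun i _ => i.val) (by simp) (fun _ _ _ _ h => Fin.ext h)
      (fun i hi => ⟨⟨i, (mem_range.1 hi).trans j.2⟩, by simpa [Fin.lt_def] using hi, rfl⟩)
      fun i _ => ?_
    rw [qi_add, qi_add]
    push_cast
    ring
  have h2 : ∏ i : Fin n, (qf 𝐪 (1 + i.val) : ℂ) = qf 𝐪 n * ∏ i : Fin n, (qf 𝐪 i.val : ℂ) := by
    rw [qf, Nat.cast_prod, ← Fin.prod_univ_eq_prod_range fun j => (qi 𝐪 (j + 1) : ℂ),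
      ← prod_mul_distrib]
    refine prod_congr rfl fun i _ => ?_
    rw [add_comm, qf, prod_range_succ, Nat.cast_mul, mul_comm, qf]
  rw [h1, h2, prod_mul_distrib, prod_pow_eq_pow_sum, sum_add_distrib, sum_choose_two,
    Fin.sum_univ_eq_sum_range (fun i => i), sum_range_id, ← Nat.choose_two_right] at h
  refine mul_right_cancel₀ (b := (𝐪 : ℂ) ^ (n * (n - 1) * (n - 2) / 6) *
    (qf 𝐪 n * ∏ i : Fin n, (qf 𝐪 i.val : ℂ))) (mul_ne_zero (pow_ne_zero _ (by simp))
      (mul_ne_zero (by exact_mod_cast (qf_pos _ _).ne')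
        (prod_ne_zero_iff.2 fun i _ => by exact_mod_cast (qf_pos _ _).ne'))) ?_
  linear_combination h

end Cfsg.Agent.KSG.GLn
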