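import Cfsg.Agent.KSG.MultG
import Cfsg.Agent.TT.RowEng

/-!
Schur multiplier bounds for subgroups of a group given as a model `TM` (stored lookup tables).
-/

set_option autoImplicit false

namespace Cfsg.Agent.KSG.Pc

open Cfsg Cfsg.Agent.Comp Cfsg.Agent.TT.Row

variable {M : Dat} {G : Type} [Group G] {D : Set G} {t : TM M D}

/-- The elements of `H` named by the entries `E`. -/
noncomputable def xT {H : Subgroup G} {E : List (List ℕ)} (h : t.Mem H E) (i : ℕ) : H :=
  ⟨t.val (BN.nth [] E i), h.nth i⟩

theorem coe_evL_xT {H : Subgroup G} {E : List (List ℕ)} (h : t.Mem H E) (u : List ℕ) :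
    ((evL (xT h) u : H) : G) = t.valS E u := by
  induction u with
  | nil => rfl
  | cons a u ih => rw [evL_cons, Subgroup.coe_mul, ih, TM.valS_cons]; rfl

theorem eSound_eqC {H : Subgroup G} {E : List (List ℕ)} (h : t.Mem H E) :
    ESound (xT h) (eqC M E) := fun u v e =>
  Subtype.ext (by rw [coe_evL_xT, coe_evL_xT, t.eq_of e])

/-- The length is even. -/
noncomputable def evenL (w : List ℕ) : Bool :=
  List.rec (motive := fun _ => Bool) true (fun _ _ ih => Bool.rec true false ih) w

theorem ev_mem_comm (t : TM M D) (w : List ℕ) :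
    Abelianization.of (BN.ev t.x w) = if evenL w = true then 1 else Abelianization.of (t.x 0) := by
  have hD : ∀ k, t.x k ∈ D := fun k => (t.lok k).hp ▸ t.dp_mem (t.lok k).lt
  have h1 : ∀ k, Abelianization.of (t.x k) = Abelianization.of (t.x 0) := fun k =>
    isConj_iff_eq.1 (Abelianization.of.map_isConj (t.trans _ (hD k) _ (hD 0)))
  induction w with
  | nil => rw [BN.ev_nil, map_one]; rfl
  | cons a w ih =>
    have e : evenL (a :: w) = Bool.rec true false (evenL w) := rfl
    rw [BN.ev_cons, map_mul, ih, h1, e]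
    cases evenL w
    · simp [← map_mul, (t.lok 0).inv]
    · simp

/-- The entries `0 :: w`. -/
noncomputable def entW (ws : List (List ℕ)) : List (List ℕ) := mapR (fun w => 0 :: w) ws

theorem mem_comm (t : TM M D) {ws : List (List ℕ)} (h : allL ws evenL = true) :
    t.Mem (commutator G) (entW ws) := by
  intro e he
  rw [entW, mapR_eq] at he
  obtain ⟨w, hw, rfl⟩ := List.mem_map.1 he
  have := ev_mem_comm t w
  rw [if_pos ((allL_iff _ _).1 h w hw)] at this
  rw [TM.val_zero, ← Abelianization.ker_of]
  exact this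

/-- The entries of the list are distinct. -/
noncomputable def ndL (l : List ℕ) : Bool :=
  List.rec (motive := fun _ => Bool) true
    (fun a l ih => and' (allL l fun b => Bool.rec true false (Nat.beq a b)) ih) l

theorem nodup_of_ndL {l : List ℕ} (h : ndL l = true) : l.Nodup := by
  induction l with
  | nil => exact List.nodup_nil
  | cons a l ih =>
    have e : ndL (a :: l) = and' (allL l fun b => Bool.rec true false (Nat.beq a b)) (ndL l) := rfl
    rw [e, and'_eq_true, allL_iff] at h
    refine List.nodup_cons.2 ⟨fun ha => ?_, ih h.2⟩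
    have := h.1 a ha
    rw [Nat.beq_refl] at this
    exact absurd this (by simp)

/-- A chain of points with words in the letters `≤ n1` fixing the earlier points and moving the
point to distinct images. -/
noncomputable def lowC (M : Dat) (E : List (List ℕ)) (n1 : ℕ) (L : List (ℕ × List (List ℕ))) :
    List ℕ → Bool :=
  List.rec (motive := fun _ => List ℕ → Bool) (fun _ => true) (fun l _ ih ps =>
    and' (Nat.blt l.1 M.n) (and' (allL l.2 fun W => and' (allL W fun a => Nat.ble a n1)
      (allL ps fun q => Nat.beq (apS M E W q) q))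
      (and' (forceL (mapR (fun W => apS M E W l.1) l.2) ndL) (ih (l.1 :: ps))))) L

/-- The product of the numbers of words. -/
noncomputable def lowV (L : List (ℕ × List (List ℕ))) : ℕ :=
  List.rec (motive := fun _ => ℕ) 1 (fun l _ ih => Nat.mul (List.length l.2) ih) L

theorem low_le {E : List (List ℕ)} {n1 : ℕ} {S : Subgroup G}
    (hS : ∀ i ≤ n1, t.val (BN.nth [] E i) ∈ S) {L : List (ℕ × List (List ℕ))} {ps : List ℕ}
    (hp : ∀ q ∈ ps, q < M.n) (h : lowC M E n1 L ps = true) : lowV L ≤ Nat.card (t.St S ps) := by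
  have := t.fin
  induction L generalizing ps with
  | nil => exact Nat.card_pos
  | cons l L ih =>
    have e : lowC M E n1 (l :: L) ps = and' (Nat.blt l.1 M.n) (and' (allL l.2 fun W =>
      and' (allL W fun a => Nat.ble a n1) (allL ps fun q => Nat.beq (apS M E W q) q))
      (and' (forceL (mapR (fun W => apS M E W l.1) l.2) ndL) (lowC M E n1 L (l.1 :: ps)))) := rfl
    have e2 : lowV (l :: L) = l.2.length * lowV L := rfl
    rw [e] at h
    simp only [and'_eq_true, blt_iff, allL_iff, ble_iff, beq_iff, forceL_eq, mapR_eq] at h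
    obtain ⟨h1, h2, h3, h4⟩ := h
    have h5 := ih (List.forall_mem_cons.2 ⟨h1, hp⟩) h4
    rw [e2, BN.card_eq_orbit_mul t.ρ _ l.1, ← TM.st_cons]
    refine Nat.mul_le_mul ?_ h5
    rw [← List.length_map (fun W => apS M E W l.1), ← List.toFinset_card_of_nodup (nodup_of_ndL h3),
      ← Set.ncard_coe_finset]
    refine Set.ncard_le_ncard (fun j hj => ?_) ?_
    · rw [Finset.mem_coe, List.mem_toFinset] at hj
      obtain ⟨W, hW, rfl⟩ := List.mem_map.1 hj
      refine ⟨t.valS E W, ⟨?_, fun q hq => ?_⟩, (t.apS_eq E W h1).symm⟩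
      · have := (h2 W hW).1
        clear hW hj
        induction W with
        | nil => exact one_mem _
        | cons a W ih' =>
          rw [TM.valS_cons]
          exact mul_mem (hS a (this a List.mem_cons_self))
            (ih' fun b hb => this b (List.mem_cons_of_mem _ hb))
      · rw [← t.apS_eq E W (hp q hq)]; exact (h2 W hW).2 q hq
    · exact (Set.finite_range fun g : G => t.ρ g l.1).subset (by rintro _ ⟨g, -, rfl⟩; exact ⟨g, rfl⟩)

theorem multBound_tm {H : Subgroup G} {E : List (List ℕ)} (h : t.Mem H E) {n : ℕ}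
    (hn : Nat.card H = n) {P : Pd} {prs : Prs} {e : ℕ} {rels : List Rel} {ys : List (List ℕ)}
    {ss : List (List ℕ × ℕ × ℕ)} {cs : List (List ℕ)} {L : List (ℕ × List (List ℕ))}
    (hp : P.p.Prime) (hG : GOK P prs (xT h)) (hr : ∀ r ∈ rels, P.chkRel prs r = true)
    (hl : P.chkLin e rels ys ss cs = true) (hB : lowC M E P.n1 L [] = true)
    (hs : and' (Nat.ble (Nat.pow P.p (Nat.succ P.n1)) (lowV L)) (and' P.ok
      (and' (Nat.beq P.M (Nat.pow P.p (Nat.succ e)))
      (Nat.blt 0 (Nat.mod n (Nat.pow P.p (Nat.succ (Nat.succ P.n1))))))) = true) :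
    MultBound P.p e H := by
  simp only [and'_eq_true, beq_iff, blt_iff, ble_iff] at hs
  have h0 : ¬ P.p ^ (P.n1 + 1 + 1) ∣ Nat.card H := fun hd => by
    rw [hn] at hd
    exact absurd (Nat.mod_eq_zero_of_dvd hd) (Nat.pos_iff_ne_zero.1 hs.2.2.2)
  refine multBound_of hp hs.2.2.1 hs.2.1 hG hr hl (fun K hK => ?_) h0
  have := low_le (t := t) (S := K.map H.subtype) (fun i hi => ⟨_, hK i hi, rfl⟩) (by simp) hB
  rw [TM.st_nil, Subgroup.card_map_of_injective H.subtype_injective] at this
  exact hs.1.trans this

end Cfsg.Agent.KSG.Pc
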