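import Mathlib

set_option autoImplicit false

namespace Cfsg.Agent.KSG

/-- A map all of whose fibres are in bijection with a fixed type: the cardinality is the product. -/
theorem natCard_eq_mul_of_fibers {S A T : Type*} (f : S → A)
    (h : ∀ a : A, Nonempty ({s : S // f s = a} ≃ T)) :
    Nat.card S = Nat.card A * Nat.card T := by
  rw [← Nat.card_prod]
  refine Nat.card_congr ?_
  exact (Equiv.sigmaFiberEquiv f).symm.trans
    ((Equiv.sigmaCongrRight fun a => (h a).some).trans (Equiv.sigmaEquivProd A T))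

namespace Shintani

variable {X : Type*} [Group X]

theorem mem_fix (σ : MulAut X) (x : X) :
    x ∈ (MulEquiv.toMonoidHom σ).eqLocus (MonoidHom.id X) ↔ σ x = x := Iff.rfl

theorem pow_fix (σ : MulAut X) (e : ℕ) {x : X} (hx : σ x = x) : (σ ^ e) x = x := by
  induction e with
  | zero => simp
  | succ n ih => rw [pow_succ, MulAut.mul_apply, hx, ih]

theorem comm (σ : MulAut X) (e : ℕ) (x : X) : σ ((σ ^ e) x) = (σ ^ e) (σ x) := by
  rw [← MulAut.mul_apply, ← MulAut.mul_apply, ← pow_succ, ← pow_succ']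

theorem norm_eq (σ : MulAut X) (d : ℕ) (a : X) :
    ((List.range d).map (fun i => (σ ^ i) (a * (σ a)⁻¹))).prod = a * ((σ ^ d) a)⁻¹ := by
  induction d with
  | zero => simp
  | succ n ih =>
    rw [List.range_succ, List.map_append, List.prod_append, ih]
    simp [pow_succ]

theorem image_fix (σ : MulAut X) (e : ℕ) (a : X)
    (hg : (σ ^ e) (a * (σ a)⁻¹) = a * (σ a)⁻¹) :
    σ (((σ ^ e) a)⁻¹ * a) = ((σ ^ e) a)⁻¹ * a := by
  rw [map_mul, map_inv] at hg
  rw [map_mul, map_inv, comm]
  have : ((σ ^ e) (σ a))⁻¹ = ((σ ^ e) a)⁻¹ * (a * (σ a)⁻¹) := by rw [← hg]; group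
  rw [this]; group

end Shintani

end Cfsg.Agent.KSG
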