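import Mathlib
import Cfsg.Agent.KSG.GGCount
import Cfsg.Agent.KSG.GLUnip
import Cfsg.Agent.Char.PermChar
import Cfsg.Agent.Char.DefectZero

/-!
# The Steinberg character of `GL_n(F)`: Harish-Chandra restriction and semisimple values
-/

set_option autoImplicit false
set_option linter.unusedSectionVars false

namespace Cfsg.Agent.KSG.HC

open Matrix Polynomial Cfsg Cfsg.Agent.Char Cfsg.Agent.KSG.GLn
open scoped ComplexConjugate

variable {F : Type*} [Field F] [Fintype F] [DecidableEq F] {ψ : AddChar F ℂ} {n : ℕ}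

theorem wh_mul_right {u : GL (Fin n) F} (hu : u ∈ Uni F Fin.val) (g : GL (Fin n) F) :
    wh ψ Fin.val (g * u).1 = wh ψ Fin.val g.1 * wh ψ Fin.val u.1 := by
  by_cases h : g ∈ Uni F Fin.val
  · simp [wh, mem_Uni.1 hu, mem_Uni.1 h, IsU.mul, IsU.sd_mul, AddChar.map_add_eq_mul]
  · rw [show wh ψ _ g.1 = 0 from if_neg h, zero_mul]
    exact if_neg (mt (mul_mem_cancel_right hu).1 h)

theorem fixed_eq {G : Type*} [Group G] [Fintype G] (H : Subgroup G) :
    fixedPointCharacter H = indFun H fun _ => 1 :=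
  funext fun g => (PermChar.indFun_one_eq_card_fixedBy H g).symm

theorem inner_Gam_par (hψ : ψ ≠ 1) {μ : Fin n → ℕ} (h : ¬Function.Injective (compLabel μ)) :
    classInner (Gam ψ n) (fixedPointCharacter (parabolicGL n F μ)) = 0 := by
  classical
  rw [fixed_eq, Gam, gam, inner_ind_ind, ext_wh, Finset.sum_eq_zero fun x _ => ?_, mul_zero]
  obtain ⟨b, k, w, hb, hk, rfl⟩ := exists_bruhat_lab Fin.val (compLabel μ) x
  obtain ⟨u, hu, t, ht, rfl⟩ := exists_uni_mul_diag Fin.val_injective hb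
  obtain ⟨i, j, h1, h2⟩ : ∃ i j : Fin n, i.val + 1 = j ∧ compLabel μ (w⁻¹ i) ≤ compLabel μ (w⁻¹ j) := by
    by_contra! H
    obtain _ | n := n
    · exact h fun i => i.elim0
    exact h (Function.Injective.of_comp_right (g := w.symm) (Fin.strictAnti_iff_succ_lt.2 fun i =>
      H i.castSucc i.succ rfl).injective w.symm.surjective)
  have e1 : ∀ s : F, IsU Fin.val (1 + single i j s) := fun s a b hab => by
    simp [single_apply_of_ne _ _ _ _ _ (show ¬(i = a ∧ j = b) by rintro ⟨rfl, rfl⟩; omega)]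
  have e2 : ∀ s : F, wh ψ Fin.val (1 + single i j s) = ψ s := fun s => by
    rw [wh, if_pos (e1 s), sd, Finset.sum_eq_single i (fun a _ ha => Finset.sum_eq_zero fun b _ => by
      split_ifs with hab
      exacts [by simp [one_apply_ne (show a ≠ b by rintro rfl; omega), ha.symm], rfl]) (by simp),
      Finset.sum_eq_single j (fun a _ ha => if_neg fun e => ha (Fin.ext (e.symm.trans h1))) (by simp)]
    simp [h1, one_apply_ne (show i ≠ j by rintro rfl; omega)]
  have m : ∀ a : GL (Fin n) F, (∀ i j, compLabel μ (w⁻¹ j) < compLabel μ (w⁻¹ i) → a.1 i j = 0) →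
      (pm F w)⁻¹ * a * pm F w ∈ parabolicGL n F μ := fun a ha i j hij => by
    rw [← map_inv, Units.val_mul, Units.val_mul, pm_conj]; exact ha _ _ (by simpa)
  have m1 := mul_mem (m t fun i j h => ht i j (by rintro rfl; omega)) (show k ∈ parabolicGL n F μ from hk)
  refine sum_eq_zero_of_avg (fun s => toUnits ((t * pm F w * k)⁻¹ * (e1 s).isUnit.unit * (t * pm F w * k)))
    (fun y s => congrArg _ ?_) fun y => ?_
  · have := mul_mem (mul_mem (inv_mem m1) (m (e1 s).isUnit.unit fun a b h => by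
      simp [one_apply_ne (show a ≠ b by rintro rfl; omega),
        single_apply_of_ne _ _ _ _ _ (show ¬(i = a ∧ j = b) by rintro ⟨rfl, rfl⟩; omega)])) m1
    simp only [PermChar.extendByZero_one_apply]
    exact if_congr (mul_mem_cancel_right (by simpa [mul_assoc] using this)) rfl rfl
  have : ∀ s, u * t * pm F w * k * (y * toUnits ((t * pm F w * k)⁻¹ * (e1 s).isUnit.unit *
      (t * pm F w * k))) * (u * t * pm F w * k)⁻¹ = u * t * pm F w * k * y * (t * pm F w * k)⁻¹ *
        (e1 s).isUnit.unit * u⁻¹ := fun s => by simp [mul_assoc]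
  simp only [this, wh_mul_right (inv_mem hu), wh_mul_right (u := (e1 _).isUnit.unit) (e1 _),
    IsUnit.unit_spec, e2, ← Finset.sum_mul, ← Finset.mul_sum, AddChar.sum_eq_zero_iff_ne_zero.2 hψ,
    mul_zero, zero_mul]

theorem compLabel_one (i : Fin n) : compLabel (fun _ : Fin n => 1) i = i := by
  have : ∀ k : Fin n, compLabel (fun _ : Fin n => 1) i ≤ k.val ↔ i.val ≤ k := fun k => by
    simp [compLabel_le_iff, Finset.filter_ge_eq_Iic, Nat.lt_succ_iff]
  refine le_antisymm ((this i).2 le_rfl) ((this ⟨_, compLabel_lt (by simp) i⟩).1 le_rfl)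

/-- The permutation character on the Borel subgroup. -/
noncomputable def Bo (F : Type*) [Field F] : Fam F := fun n =>
  fixedPointCharacter (parabolicGL n F fun _ => 1)

theorem ch_Bo : Ch (Bo F) := fun _ => isCharacter_permChar _

open Classical in
theorem inner_Bo {Φ : Fam F} (h : Cl Φ) : Nat.card (parabolicGL n F fun _ => 1) *
    classInner (Φ n) (Bo F n) =
    ∑ y : Matrix (Fin n) (Fin n) F, if y.BlockTriangular Fin.val then ev Φ y else 0 := by
  rw [Bo, fixed_eq, inner_ind_ext _ _ (h n), mul_inv_cancel_left₀ (card_ne_zero _),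
    ← sum_GL fun A hA => by simp [ev_of_not hA]]
  simp [PermChar.extendByZero_one_apply, apply_ite conj, ev_fin h, parabolicGL,
    show compLabel (fun _ : Fin n => 1) = Fin.val from funext compLabel_one]

/-- The principal character of `GL_1`. -/
noncomputable def t1 (F : Type*) [Field F] : Ir F := ⟨1, irrOne _⟩

theorem cusp_t1 : Cusp (t1 F) := ⟨one_pos, fun _ _ h => by have := h.deg; simp [t1] at this; omega⟩

theorem inner_ne_of_common {G : Type*} [Group G] [Fintype G] {φ θ χ : G → ℂ} (h : IsCharacter G φ)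
    (h' : IsCharacter G θ) (hχ : IsIrrCharacter G χ) (h1 : classInner φ χ ≠ 0)
    (h2 : classInner θ χ ≠ 0) : classInner φ θ ≠ 0 := by
  obtain ⟨c, hc, -⟩ := h.exists_coeff
  obtain ⟨d, hd, -⟩ := h'.exists_coeff
  rw [h.isClassFunction.inner_eq_sum]
  simp only [hc, hd, map_natCast, ← Nat.cast_mul, ← Nat.cast_sum, Nat.cast_ne_zero]
  exact fun e => mul_ne_zero (by simpa [hc ⟨χ, hχ⟩] using h1) (by simpa [hd ⟨χ, hχ⟩] using h2)
    (Finset.sum_eq_zero_iff.1 e ⟨χ, hχ⟩ (by simp))

open Classical in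
theorem sum_Bo_succ {Φ : Fam F} (h : Cl Φ) : (∑ y : Matrix (Fin (n + 1)) (Fin (n + 1)) F,
    if y.BlockTriangular Fin.val then ev Φ y else 0) = ∑ c : Matrix (Fin n) (Fin n) F,
      if c.BlockTriangular Fin.val then S (fam (t1 F)) Φ (Fin 1) c else 0 := by
  rw [← (reindex finSumFinEquiv finSumFinEquiv).sum_comp, sum_fromBlocks]
  refine Finset.sum_congr rfl fun c _ => ?_
  have h5 : ∀ u x b, (reindex finSumFinEquiv finSumFinEquiv (fromBlocks c u x b) :
      Matrix (Fin (n + 1)) _ F).BlockTriangular Fin.val ↔ c.BlockTriangular Fin.val ∧ x = 0 :=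
    fun u x b => by
    simp only [BlockTriangular, finSumFinEquiv.surjective.forall, Sum.forall]
    simp [← ext_iff, forall_and, fun i : Fin n => i.2.le.not_gt]
  simp only [h5]
  simp only [ite_and, reindex_apply, ev_sub h, Finset.sum_ite_irrel, Finset.sum_const_zero,
    Finset.sum_ite_eq', Finset.mem_univ, if_true, S]
  refine if_congr Iff.rfl (Finset.sum_congr rfl fun b _ => Finset.sum_congr rfl fun u _ => ?_) rfl
  by_cases hb : IsUnit b
  · obtain ⟨b, rfl⟩ := hb
    simp [ev_fin (cl_fam _), show fam (t1 F) 1 b = 1 from congrFun (fam_self (t1 F)) b]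
  · simp [ev_of_not, isUnit_fromBlocks_zero₂₁, hb]

theorem Has.le_Bo : ∀ {n} {χ : Ir F}, Has (List.replicate n (t1 F)) χ → Le χ (Bo F)
  | 0, χ, h => by
    obtain rfl := eq_u0 h
    have := inner_Bo (n := 0) (cl_fam (u0 F))
    rw [Fintype.sum_subsingleton _ 1, if_pos blockTriangular_one, ev_one] at this
    rw [Le, ← fam_self, ← classInner_conj_symm, _root_.map_ne_zero]
    exact right_ne_zero_of_mul (this.trans_ne ((congrFun (fam_self (u0 F)) 1).trans_ne one_ne_zero))
  | n + 1, χ, ⟨σ, h1, h2⟩ => by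
    classical
    have h3 := inner_ne_of_common ((ch_fam χ).D (ch_fam _) _ _) (ch_Bo _) σ.2.2 h1 h2.le_Bo
    have h4 := mul_ne_zero (card_ne_zero (parabolicGL σ.1 F fun _ => 1)) h3
    obtain ⟨_, χ⟩ := χ
    obtain rfl := h1.deg
    rw [inner_Bo ((cl_fam _).D _ _)] at h4
    rw [Le, ← fam_self, ← classInner_conj_symm, _root_.map_ne_zero]
    refine right_ne_zero_of_mul ((inner_Bo (cl_fam _)).trans_ne fun e => h4 ?_)
    simp only [ev_D (cl_fam _) (cl_fam _) (Fintype.card_fin _), ← mul_ite_zero, ← Finset.mul_sum]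
    exact mul_eq_zero_of_right _ ((sum_Bo_succ (cl_fam _)).symm.trans e)

theorem D_zero {Φ : Fam F} (h : Cl Φ) : D 0 (fam (u0 F)) Φ = Φ := by
  funext n c
  rw [D, S, Fintype.sum_subsingleton _ 1, Fintype.sum_subsingleton _ 0, ev_one,
    ← ev_sub h (Equiv.sumEmpty _ _).symm, ← ev_fin h]
  simp [kk, show fam (u0 F) (Fintype.card (Fin 0)) 1 = 1 from congrFun (fam_self (u0 F)) 1]
  rfl

theorem Has.append {L : List (Ir F)} {σ : Ir F} (hσ : Has L σ) :
    ∀ {L' : List (Ir F)} {ρ χ : Ir F}, R ρ σ χ → Has L' ρ → Has (L' ++ L) χ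
  | [], ρ, χ, h, h' => by
    obtain rfl := eq_u0 h'
    obtain ⟨_, χ⟩ := χ
    obtain rfl : _ = σ.1 := h.deg
    rw [R, Le, show (u0 F).1 = 0 from rfl, D_zero (cl_fam _), fam_self ⟨_, χ⟩] at h
    obtain rfl : χ = σ.2 := Subtype.ext (χ.2.eq_of_inner_ne_zero σ.2.2 h)
    exact hσ
  | _ :: _, _, _, h, ⟨_, h1, h2⟩ =>
    let ⟨σ', h3, h4⟩ := h.symm.swap h1
    ⟨σ', h3, hσ.append h4.symm h2⟩

/-- The family of Steinberg characters. -/
noncomputable def St (F : Type*) [Field F] : Fam F := fun n => unipotentCharacterGL n F fun _ => 1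

theorem irr_St (n : ℕ) : IsIrrCharacter _ (St F n) := isIrr_unip monotone_const (by simp)

/-- The Steinberg character. -/
noncomputable abbrev st (F : Type*) [Field F] [Fintype F] [DecidableEq F] (n : ℕ) : Ir F := ⟨n, _, irr_St n⟩

theorem ch_St : Ch (St F) := fun n => (irr_St n).isCharacter

theorem st_spec (hψ : ψ ≠ 1) (n : ℕ) :
    Le (st F n) (Gam ψ) ∧ Has (List.replicate n (t1 F)) (st F n) := by
  obtain ⟨⟨_, χ⟩, ⟨h1, h2⟩, -⟩ := existsUnique_Has hψ (List.replicate n (t1 F)) fun _ h =>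
    List.eq_of_mem_replicate h ▸ cusp_t1
  obtain rfl : n = _ := ((h2.deg).trans (by simp [t1])).symm
  suffices classInner (St F n) χ.1 ≠ 0 by
    obtain rfl : (st F n).2 = χ := Subtype.ext ((st F n).2.2.eq_of_inner_ne_zero χ.2 this)
    exact ⟨h1, h2⟩
  rw [show St F n = _ from unip_comp id _, classInner_sum_left, Finset.sum_eq_single 1
    (fun κ _ hκ => ?_) (by simp)]
  · simpa [Le, Bo] using h2.le_Bo
  split_ifs with h
  swap
  · exact classInner_zero_left _
  rw [classInner_smul_left]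
  refine mul_eq_zero_of_right _ (by_contra fun h3 => inner_ne_of_common (ch_Gam _)
    (isCharacter_permChar _) χ.2 h1 h3 (inner_Gam_par hψ fun h4 => hκ ?_))
  have h5 := sum_sub_perm (ν := fun _ => 1) (by simp) h
  have h6 : ∀ i : Fin n, 1 + i.val - κ i ≤ 1 := fun i => by
    rw [← card_compLabel_eq h5 i]
    exact Finset.card_le_one.2 fun a ha b hb => h4 (by simp_all)
  ext i
  have := (Finset.sum_eq_sum_iff_of_le fun i _ => h6 i).1 (by simpa using h5) i (Finset.mem_univ i)
  have := h i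
  simp only [Equiv.Perm.coe_one, id]; omega

theorem eq_st (hψ : ψ ≠ 1) {ρ σ : Ir F} (h : R ρ σ (st F n)) : ρ = st F ρ.1 ∧ σ = st F σ.1 := by
  have h1 := mul_ne_zero_iff.1 ((inner_D_fam hψ ρ σ).symm.trans_ne
    ((Le_D_iff ch_Gam).2 ⟨_, (st_spec hψ n).1, h⟩))
  obtain ⟨L, c, hL⟩ := exists_Has σ
  obtain ⟨L', c', hL'⟩ := exists_Has ρ
  have h2 := ((hL.append h hL').unique (by grind) (fun _ h => List.eq_of_mem_replicate h ▸ cusp_t1)
    (st_spec hψ n).2).subset
  have h3 : ∀ {τ : Ir F} {L}, Le τ (Gam ψ) → Has L τ → L ⊆ List.replicate n (t1 F) → τ = st F τ.1 :=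
    fun {τ L} h1 h2 h3 => by
    obtain ⟨k, rfl⟩ : ∃ k, L = List.replicate k (t1 F) :=
      ⟨_, List.eq_replicate_of_mem fun _ h => List.eq_of_mem_replicate (h3 h)⟩
    obtain rfl : τ.1 = k := h2.deg.trans (by simp [t1])
    exact (existsUnique_Has hψ _ fun _ h => List.eq_of_mem_replicate h ▸ cusp_t1).unique ⟨h1, h2⟩
      (st_spec hψ _)
  exact ⟨h3 h1.2 hL' (List.append_subset.1 h2).1, h3 h1.1 hL (List.append_subset.1 h2).2⟩

theorem exists_psi : ∃ ψ : AddChar F ℂ, ψ ≠ 1 :=
  let ⟨ψ, h⟩ := (AddChar.exists_apply_ne_zero (α := F) (a := 1)).2 one_ne_zero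
  ⟨ψ, fun e => h (by simp [e])⟩

theorem D_St (a d : ℕ) (ρ : IrrCharacter (GL (Fin d) F)) :
    D d (fam ⟨d, ρ⟩) (fam (st F (a + d))) a = classInner (St F d) ρ.1 • St F a := by
  obtain ⟨ψ, hψ⟩ := exists_psi (F := F)
  refine (((cl_fam _).D _ _) a).ext_inner ((ch_St.cl a).smul _) fun σ hσ => ?_
  rw [classInner_smul_left]
  by_cases h : St F d = ρ.1 ∧ St F a = σ
  · obtain ⟨ρ, hρ⟩ := ρ
    obtain ⟨rfl, rfl⟩ := h
    have h1 := inner_D_fam hψ (st F d) (st F a)
    rw [(st_spec hψ _).1.gam_one hψ, (st_spec hψ _).1.gam_one hψ, D_expand ch_Gam.cl,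
      classInner_sum_left, Finset.sum_eq_single (st F (a + d)).2 (fun τ _ hτ => by_contra fun e => hτ ?_)
        (by simp), classInner_smul_left, (st_spec hψ _).1.gam_one hψ, one_mul] at h1
    · rw [h1, hρ.inner_self, hσ.inner_self]
    rw [classInner_smul_left, mul_eq_zero, not_or] at e
    have h2 : Has (List.replicate (a + d) (t1 F)) ⟨_, τ⟩ := by
      rw [show List.replicate (a + d) (t1 F) = _ from add_comm d a ▸ List.replicate_add d a _]
      exact (st_spec hψ a).2.append e.2 (st_spec hψ d).2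
    have h3 : (⟨_, τ⟩ : Ir F) = st F (a + d) := (existsUnique_Has hψ _ fun _ h =>
      List.eq_of_mem_replicate h ▸ cusp_t1).unique ⟨e.1, h2⟩ (st_spec hψ (a + d))
    exact eq_of_heq (Sigma.mk.inj h3).2
  rw [show classInner _ σ = 0 from by_contra fun e => h ?_]
  · obtain h | h := not_and_or.1 h
    · rw [(irr_St d).inner_eq_zero ρ.2 h, zero_mul]
    · rw [(irr_St a).inner_eq_zero hσ h, mul_zero]
  have := eq_st hψ (ρ := ⟨d, ρ⟩) (σ := ⟨a, σ, hσ⟩) e
  simpa [st, St, Subtype.ext_iff, eq_comm] using this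

theorem sum_St {a d : ℕ} (c : GL (Fin a) F) (b : GL (Fin d) F) :
    ∑ u, ev (St F) (fromBlocks c.1 u 0 b.1) = Nat.card F ^ (a * d) * St F a c * St F d b := by
  have h0 : ∀ y : Matrix (Fin a ⊕ Fin d) _ F, ev (St F) y = ev (fam (st F (a + d))) y := fun y => by
    rw [ev_eq ch_St.cl finSumFinEquiv.symm, ev_eq (cl_fam _) finSumFinEquiv.symm]
    exact congrArg (hat · _) (fam_self (st F (a + d))).symm
  refine congrFun (Cfsg.IsClassFunction.ext_inner (φ := fun b : GL (Fin d) F =>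
    ∑ u, ev (St F) (fromBlocks c.1 u 0 b.1)) (fun b k => ?_) ((ch_St.cl d).smul
      (Nat.card F ^ (a * d) * St F a c)) fun ρ hρ => ?_) b
  · refine Fintype.sum_bijective (fun u => u * k.1)
      ⟨fun u v e => by simpa [Matrix.mul_assoc] using congrArg (· * (k⁻¹).1) e, fun u =>
        ⟨u * (k⁻¹).1, by simp [Matrix.mul_assoc]⟩⟩ _ _ fun u => ?_
    have := ev_mul_comm ch_St.cl (fromBlocks 1 0 0 k.1) (fromBlocks c.1 u 0 ((k⁻¹).1 * (k * b * k⁻¹).1))
    simp only [fromBlocks_multiply] at this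
    simpa [mul_assoc] using this
  have := congrFun (D_St a d ⟨ρ, hρ⟩) c
  rw [D, S, ← sum_GL fun A hA => by simp [ev_of_not hA], kk] at this
  simp only [← Finset.sum_mul, ev_fin (cl_fam _), ← h0] at this
  rw [fam_self ⟨d, ρ, hρ⟩, sum_mul_conj_eq, mul_inv, mul_right_comm, mul_assoc, mul_assoc,
    inv_mul_cancel_left₀ (card_ne_zero _), mul_inv_eq_iff_eq_mul₀ (by simp)] at this
  rw [this, classInner_smul_left]
  simp [mul_comm, mul_left_comm]

end Cfsg.Agent.KSG.HC
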