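import Mathlib
import Cfsg.Agent.KSG.StGL
import Cfsg.Agent.KSG.SimCount

/-!
# Values of the Steinberg character of `GL_n(F)` at semisimple elements
-/

set_option autoImplicit false
set_option linter.unusedSectionVars false

namespace Cfsg.Agent.KSG.HC

open Matrix Polynomial Cfsg Cfsg.Agent.Char Cfsg.Agent.KSG.GLn

variable {F : Type*} [Field F] {n : ℕ} {α β : Type} [Fintype α] [DecidableEq α] [Fintype β]
  [DecidableEq β]

theorem fromBlocks_pow_succ (c : Matrix α α F) (u : Matrix α β F) (b : Matrix β β F) (k : ℕ) :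
    ∃ v : Matrix α β F, fromBlocks c u 0 b ^ (k + 1) =
      fromBlocks (c ^ (k + 1)) (((k + 1 : ℕ) : F) • (u * b ^ k) + (c * v - v * b)) 0 (b ^ (k + 1)) := by
  induction k with
  | zero => exact ⟨0, by simp⟩
  | succ k ih =>
    obtain ⟨v, h⟩ := ih
    refine ⟨((k + 1 : ℕ) : F) • (u * b ^ k) + c * v, ?_⟩
    rw [pow_succ', h, fromBlocks_multiply, pow_succ' c (k + 1), pow_succ' b (k + 1)]
    simp only [Matrix.mul_zero, Matrix.zero_mul, add_zero, zero_add, pow_succ b k, Matrix.mul_add,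
      Matrix.add_mul, Matrix.mul_sub, Matrix.mul_smul, Matrix.smul_mul, Matrix.mul_assoc,
      Nat.cast_succ (k + 1), add_smul, one_smul, smul_zero, sub_zero]
    congr 1; abel

theorem exists_sylv {c : Matrix α α F} {u : Matrix α β F} {b : Matrix β β F} {N : ℕ}
    (hN : (N : F) ≠ 0) (h : fromBlocks c u 0 b ^ N = 1) : ∃ v : Matrix α β F, c * v - v * b = u := by
  obtain _ | k := N
  · simp at hN
  obtain ⟨v, hv⟩ := fromBlocks_pow_succ c u b k
  rw [h, ← fromBlocks_one, fromBlocks_inj, eq_comm (a := 0), add_eq_zero_iff_eq_neg] at hv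
  have := congrArg (fun y => ((k + 1 : ℕ) : F)⁻¹ • (y * b)) hv.2.1
  simp only [Matrix.smul_mul, Matrix.mul_assoc, ← pow_succ, ← hv.2.2.2, Matrix.mul_one,
    inv_smul_smul₀ hN] at this
  exact ⟨-(((k + 1 : ℕ) : F)⁻¹ • (v * b)), by
    rw [this]; simp [Matrix.sub_mul, smul_sub, Matrix.mul_assoc]; abel⟩

theorem ev_sylv {Φ : Fam F} (h : Cl Φ) (c : Matrix α α F) (v : Matrix α β F) (b : Matrix β β F) :
    ev Φ (fromBlocks c (c * v - v * b) 0 b) = ev Φ (fromBlocks c 0 0 b) := by
  simpa [fromBlocks_multiply, sub_eq_add_neg] using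
    ev_mul_comm h (fromBlocks 1 (-v) 0 1) (fromBlocks c (c * v) 0 b)

theorem ev_congr {Φ : Fam F} (h : Cl Φ) {x : Matrix α α F} {y : Matrix β β F} {N : ℕ}
    (hN : Squarefree (X ^ N - 1 : F[X])) (hx : x ^ N = 1) (hy : y ^ N = 1)
    (e : x.charpoly = y.charpoly) : ev Φ x = ev Φ y := by
  obtain ⟨σ⟩ : Nonempty (α ≃ β) := Fintype.card_eq.1 (by
    rw [← charpoly_natDegree_eq_dim x, e, charpoly_natDegree_eq_dim])
  have h1 : y.submatrix σ σ ^ N = 1 :=
    (map_pow (reindexAlgEquiv F F σ.symm) y N).symm.trans (by rw [hy, map_one])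
  obtain ⟨k, hk⟩ := isConj_of_squarefree_of_charpoly hN hN (A := x) (B := y.submatrix σ σ)
    (by simp [hx]) (by simp [h1]) (e.trans (charpoly_reindex σ.symm y).symm)
  rw [← ev_sub h σ y, ← k.mul_inv_cancel_right (y.submatrix σ σ), ← hk.eq, ev_mul_comm h,
    k.inv_mul_cancel_left]

theorem card_sylv_Cm (c : Matrix α α F) (f : Mon F (n + 1)) :
    Nat.card {v : Matrix α (Fin (n + 1)) F // c * v - v * Cm n f.1 = 0} =
      Nat.card (LinearMap.ker (aeval (toLin' c) f.1)) := by
  have h1 : ∀ v : Matrix α (Fin (n + 1)) F, c * v - v * Cm n f.1 = 0 → ∀ k,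
      c ^ k * v = v * Cm n f.1 ^ k := fun v h k => by
    induction k with
    | zero => simp
    | succ k ih => rw [pow_succ', Matrix.mul_assoc, ih, ← Matrix.mul_assoc, sub_eq_zero.1 h,
        Matrix.mul_assoc, pow_succ']
  simp only [← toLin'_aeval]
  refine Nat.card_congr ⟨fun v => ⟨v.1 *ᵥ Pi.single 0 1, ?_⟩, fun w => ⟨of fun i j =>
    (c ^ j.val *ᵥ w.1) i, ?_⟩, fun v => Subtype.ext ?_, fun w => Subtype.ext ?_⟩
  · have : aeval c f.1 * v.1 = v.1 * aeval (Cm n f.1) f.1 := by
      simp [aeval_eq_sum_range, Matrix.mul_sum, Matrix.sum_mul, h1 _ v.2]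
    rw [LinearMap.mem_ker, toLin'_apply, mulVec_mulVec, this, aeval_Cm_self, Matrix.mul_zero,
      zero_mulVec]
  · ext i j
    rw [Matrix.sub_apply, Matrix.zero_apply, sub_eq_zero, mul_apply (N := Cm n f.1)]
    refine (show _ = (c *ᵥ (c ^ j.val *ᵥ w.1)) i from rfl).trans ?_
    rw [mulVec_mulVec, ← pow_succ']
    induction j using Fin.lastCases with
    | last =>
      obtain ⟨w, this⟩ := w
      rw [LinearMap.mem_ker, toLin'_apply, f.2.1.as_sum, f.2.2, map_add, add_mulVec,
        add_eq_zero_iff_eq_neg, map_sum, Finset.sum_range] at this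
      simp only [map_pow, aeval_X, map_mul, aeval_C, ← Algebra.smul_def] at this
      simp [this, Cm, sum_mulVec, smul_mulVec, mul_comm]
    | cast j =>
      rw [Finset.sum_eq_single j.succ (fun k _ hk => by simpa [Cm] using fun e => absurd (Fin.ext e) hk)
        (by simp)]
      simp [Cm]
  · ext i j
    refine (of_apply _ _ _).trans ?_
    rw [mulVec_mulVec, h1 _ v.2, ← mulVec_mulVec, Cm_pow]; simp
  · ext i; simp

theorem St_irred {g : GL (Fin (n + 1)) F} (hg : Irreducible g.1.charpoly) :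
    St F (n + 1) g = (-1) ^ n := by
  have hr : ∀ i, (finRotate (n + 1) i).val ≤ 1 + i.val := fun i => by
    rw [coe_finRotate]; split_ifs <;> omega
  rw [St, unipotentCharacterGL, Finset.sum_eq_single (finRotate (n + 1)) (fun κ _ hκ => ?_) (by simp),
    if_pos hr, sign_finRotate]
  · have h5 := card_compLabel_eq (sum_sub_perm (ν := fun _ => 1) (by simp) hr) (Fin.last n)
    rw [finRotate_last, show 1 + (Fin.last n).val - _ = Fintype.card (Fin (n + 1)) by simp [add_comm],
      Finset.card_eq_iff_eq_univ, Finset.filter_eq_self] at h5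
    have := QuotientGroup.subsingleton_quotient_top (G := GL (Fin (n + 1)) F)
    rw [show parabolicGL _ F _ = ⊤ from (Subgroup.eq_top_iff' _).2 fun g i j h => by
      rw [h5 i (by simp), h5 j (by simp)] at h; omega, fixedPointCharacter,
      Nat.card_eq_one_iff_unique.2 ⟨inferInstance, ⟨⟨.mk'' 1, Subsingleton.elim _ _⟩⟩⟩]
    simp
  split_ifs with h
  swap
  · rfl
  refine mul_eq_zero_of_right _ (Nat.cast_eq_zero.2 (Nat.card_eq_zero.2 (Or.inl ⟨fun ⟨x, hx⟩ => hκ ?_⟩)))
  obtain ⟨x, rfl⟩ := QuotientGroup.mk_surjective x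
  have h5 := sum_sub_perm (ν := fun _ => 1) (by simp) h
  have h1 := BlockTriangular.charpoly (M := (x⁻¹ * (g * x)).1) (QuotientGroup.eq.1 hx.symm)
  rw [← mul_assoc, show (x⁻¹ * g * x).1.charpoly = _ from charpoly_conj x⁻¹ g] at h1
  have h2 := hg.dvd_iff.1 (h1 ▸ Finset.dvd_prod_of_mem _ (Finset.mem_image_of_mem _ (Finset.mem_univ 0)))
  have h3 := card_compLabel_eq h5 (lab h5 0)
  have h4 : 1 + (lab h5 0).val - κ (lab h5 0) = n + 1 := by
    obtain h2 | h2 := h2
    · simpa [Fintype.card_eq_zero_iff] using natDegree_eq_zero_of_isUnit h2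
    · have := natDegree_eq_of_degree_eq (degree_eq_degree_of_associated h2)
      rw [charpoly_natDegree_eq_dim, charpoly_natDegree_eq_dim, Fintype.card_subtype] at this
      convert h3.symm.trans (this.symm.trans (Fintype.card_fin _))
  clear h3
  generalize lab h5 0 = k at h4
  obtain rfl : k = Fin.last n := Fin.ext (by have := k.2; simp; omega)
  rw [Fin.sum_univ_castSucc, h4, Nat.add_eq_right, Finset.sum_eq_zero_iff] at h5
  ext i
  rw [coe_finRotate]
  induction i using Fin.lastCases with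
  | last => simp only [Fin.val_last, if_pos] at h4 ⊢; omega
  | cast i => have := h5 i (by simp); have := h i.castSucc; simp at *; omega

variable [Fintype F] [DecidableEq F] (p : ℕ) [Fact p.Prime] [CharP F p]

theorem St_zero {g : GL (Fin n) F} (hg : p ∣ orderOf g) : St F n g = 0 := by
  have hp : p.Prime := Fact.out
  obtain ⟨k, -, hk⟩ := FiniteField.card F p
  have h1 : p ∣ Fintype.card F := hk ▸ dvd_pow_self p k.2.ne'
  refine (irr_St n).eq_zero_of_defect_zero hp (d := Fintype.card F ^ n.choose 2)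
    (unip_one_one.trans (by simp)) (r := (Fintype.card F - 1) ^ n * qf (Fintype.card F) n)
    (by rw [card_GL_eq]; simp [mul_assoc]) (fun h => ?_) hg
  obtain h | h := hp.dvd_mul.1 h
  · exact hp.not_dvd_one ((Nat.dvd_sub_iff_right Fintype.card_pos h1).1 (hp.dvd_of_dvd_pow h))
  · obtain ⟨j, -, h⟩ := (hp.prime.dvd_finsetProd_iff _).1 h
    rw [qi, Finset.sum_range_succ', pow_zero, Nat.dvd_add_right
      (Finset.dvd_sum fun _ _ => h1.trans (dvd_pow_self _ (by simp)))] at h
    exact hp.not_dvd_one h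

include p in
theorem St_diag {a d : ℕ} (c : GL (Fin a) F) (b : GL (Fin d) F) : ev (St F) (fromBlocks c.1 0 0 b.1) =
    Nat.card {v : Matrix (Fin a) (Fin d) F // c.1 * v - v * b.1 = 0} * St F a c * St F d b := by
  classical
  let φ : Matrix (Fin a) (Fin d) F →+ Matrix (Fin a) (Fin d) F :=
    .mk' (fun v => c.1 * v - v * b.1) fun _ _ => by rw [Matrix.mul_add, Matrix.add_mul]; abel
  have h1 := sum_St c b
  rw [Finset.sum_congr rfl (g := fun u => if u ∈ φ.range then ev (St F) (fromBlocks c.1 0 0 b.1) else 0)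
    fun u _ => ?_, ← Finset.sum_filter, Finset.sum_const, nsmul_eq_mul, ← Nat.cast_pow,
    show Nat.card F ^ (a * d) = φ.ker.index * Nat.card φ.ker by
      rw [AddSubgroup.index_mul_card]; simp [Matrix, pow_mul'],
    AddSubgroup.index_ker, Nat.card_eq_fintype_card, Fintype.card_subtype, Nat.cast_mul, mul_assoc,
    mul_assoc] at h1
  · rw [mul_assoc]
    exact mul_left_cancel₀ (Nat.cast_ne_zero.2 (Finset.card_pos.2 ⟨0, by simpa using ⟨0, map_zero φ⟩⟩).ne') h1
  split_ifs with h
  · obtain ⟨v, rfl⟩ := h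
    exact ev_sylv ch_St.cl _ _ _
  obtain ⟨y, hy⟩ : IsUnit (fromBlocks c.1 u 0 b.1) := isUnit_fromBlocks_zero₂₁.2 ⟨c.isUnit, b.isUnit⟩
  rw [← hy, ev_rx ch_St.cl finSumFinEquiv.symm, St_zero p (by_contra fun e => h ?_)]
  rw [MulEquiv.orderOf_eq, ← CharP.cast_eq_zero_iff F] at e
  exact exists_sylv e (by rw [← hy, ← Units.val_pow_eq_pow_val, pow_orderOf_eq_one, Units.val_one])

/-- The value of the Steinberg character at a semisimple element. -/
noncomputable def stVal (q : ℂ) (s : Multiset F[X]) : ℂ := ∏ f ∈ s.toFinset,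
  (-1) ^ ((f.natDegree - 1) * s.count f) * q ^ (f.natDegree * s.count f * (s.count f - 1) / 2)

theorem stVal_cons (q : ℂ) (f : F[X]) (s : Multiset F[X]) :
    stVal q (f ::ₘ s) = q ^ (f.natDegree * s.count f) * stVal q s * (-1) ^ (f.natDegree - 1) := by
  rw [stVal, stVal, Multiset.toFinset_cons, ← Finset.prod_insert_of_eq_one_if_notMem (a := f)
    (s := s.toFinset) (fun h => by simp [Multiset.count_eq_zero.2 (mt Multiset.mem_toFinset.2 h)]),
    ← Finset.mul_prod_erase _ _ (Finset.mem_insert_self f _),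
    ← Finset.mul_prod_erase _ _ (Finset.mem_insert_self f _), Multiset.count_cons_self,
    Finset.prod_congr rfl fun g hg => by rw [Multiset.count_cons_of_ne (Finset.ne_of_mem_erase hg)]]
  generalize s.count f = m
  rw [show f.natDegree * (m + 1) * (m + 1 - 1) = f.natDegree * m * (m - 1) + 2 * (f.natDegree * m) by
    cases m <;> simp; ring, Nat.add_mul_div_left _ _ two_pos]
  ring

include p in
theorem ev_St {N : ℕ} (hN : Squarefree (X ^ N - 1 : F[X])) (s : Multiset F[X])
    (hs : ∀ f ∈ s, Irreducible f ∧ f.Monic ∧ ¬X ∣ f ∧ f ∣ X ^ N - 1) {n : ℕ} (x : GL (Fin n) F)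
    (hx : x.1 ^ N = 1) (e : x.1.charpoly = s.prod) : St F n x = stVal (Nat.card F) s := by
  induction s using Multiset.induction_on generalizing n with
  | empty =>
    obtain rfl : n = 0 := by simpa [e] using (charpoly_natDegree_eq_dim x.1).symm
    rw [Subsingleton.elim x 1]; simpa [stVal, St] using unip_one_one (F := F) (n := 0)
  | cons f t ih =>
    obtain ⟨⟨h1, h2, h3, h4⟩, ht⟩ := Multiset.forall_mem_cons.1 hs
    obtain ⟨d, hd⟩ := Nat.exists_eq_add_one_of_ne_zero h1.natDegree_pos.ne'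
    obtain ⟨c, hc⟩ := exists_GL_mdiv_eq (n := Fin (t.map natDegree).sum) (s := t)
      (fun g hg => ⟨g, 1, (ht g hg).1, (ht g hg).2.1, one_pos, (pow_one g).symm⟩)
      (fun g hg => (ht g hg).2.2.1) (by simp)
    have hb := charpoly_Cm ⟨f, h2, hd⟩
    obtain ⟨b, hb'⟩ : IsUnit (Cm d f) := (isUnit_iff_mdiv _).2 fun g hg h =>
      h3 (h.trans ((Multiset.dvd_prod hg).trans ((prod_mdiv _).trans hb).dvd))
    have h5 : c.1 ^ N = 1 := (pow_eq_one_iff_mdiv _ _).2 fun g hg => (ht g (hc ▸ hg)).2.2.2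
    have h6 : b.1 ^ N = 1 := (pow_eq_one_iff_mdiv _ _).2 fun g hg =>
      ((Multiset.dvd_prod hg).trans ((prod_mdiv _).trans (hb' ▸ hb)).dvd).trans h4
    have h7 : (t.map (gdeg f)).sum = f.natDegree * t.count f := by
      rw [← Multiset.filter_add_not (f = ·) t, Multiset.map_add, Multiset.sum_add,
        Multiset.sum_eq_zero (s := Multiset.map _ (t.filter (¬f = ·))) fun _ h => by
          obtain ⟨g, hg, rfl⟩ := Multiset.mem_map.1 h
          obtain ⟨hg, h⟩ := Multiset.mem_filter.1 hg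
          exact gdeg_of_isCoprime (isCoprime_of_monic_irreducible_ne h1 h2 (ht g hg).1 (ht g hg).2.1 h),
        Multiset.filter_eq]
      simp [gdeg_of_dvd, mul_comm]
    rw [← ev_fin ch_St.cl, ev_congr ch_St.cl hN hx (y := fromBlocks c.1 0 0 b.1)
      (by rw [fromBlocks_diagonal_pow, h5, h6, fromBlocks_one])
      (by rw [charpoly_fromBlocks_zero₂₁, e, hb', hb, ← prod_mdiv c.1, hc, Multiset.prod_cons, mul_comm]),
      St_diag p, St_irred (by rwa [hb', hb]), ih ht c h5 (by rw [← prod_mdiv, hc]), hb',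
      card_sylv_Cm _ ⟨f, h2, hd⟩, Module.natCard_eq_pow_finrank (K := F), finrank_ker_aeval,
      show elemDiv _ = t from hc, h7, stVal_cons, hd]
    simp

end Cfsg.Agent.KSG.HC
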